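import Cfsg.Agent.Lib.GLH.Der
import Cfsg.Agent.Lib.Char.IndRep
import Cfsg.Agent.Lib.Char.Product

/-!
# The Hall product as a parabolically induced character; Frobenius reciprocity for it.

`V = X × Y`, `P` the stabilizer of `X × 0` in `GL_{a+b}`, `θ(p) = Φ(A p) Ψ(D p)`.  Then
`g ↦ hall Φ Ψ (a+b) g` is `indFun P θ`.
-/

set_option autoImplicit false
set_option linter.unusedSectionVars false
set_option linter.unusedVariables false

namespace Cfsg.Agent.Lib.GLH.Adjoint

open Matrix Module Cfsg Cfsg.Agent.Lib.GLH.Defs Cfsg.Agent.Lib.GLH.Ev Cfsg.Agent.Lib.GLH.Der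
open Cfsg.Agent.Lib.Char.Basic Cfsg.Agent.Lib.Char.Induced Cfsg.Agent.Lib.Char.IndRep
open Cfsg.Agent.Lib.Char.Product
open scoped ComplexConjugate

universe u

variable {F : Type u} [Field F] [Fintype F]

/-! ### `famOf` -/

theorem ext0_unit {n : ℕ} (χ : GL (Fin n) F → ℂ) (g : GL (Fin n) F) :
    ext0 χ (g : Matrix (Fin n) (Fin n) F) = χ g := by
  classical
  unfold ext0
  rw [dif_pos g.isUnit]
  congr 1
  exact Units.ext rfl

theorem ext0_not_unit {n : ℕ} (χ : GL (Fin n) F → ℂ) {M : Matrix (Fin n) (Fin n) F}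
    (h : ¬ IsUnit M) : ext0 χ M = 0 := by
  classical
  unfold ext0
  rw [dif_neg h]

theorem famOf_self {n : ℕ} (χ : GL (Fin n) F → ℂ) (M : Matrix (Fin n) (Fin n) F) :
    famOf χ n M = ext0 χ M := by
  classical
  unfold famOf
  rw [dif_pos rfl]

theorem famOf_ne {n m : ℕ} (χ : GL (Fin n) F → ℂ) (h : m ≠ n) (M : Matrix (Fin m) (Fin m) F) :
    famOf χ m M = 0 := by
  classical
  unfold famOf
  rw [dif_neg h]

theorem good_famOf {n : ℕ} {χ : GL (Fin n) F → ℂ} (hχ : Cfsg.IsCharacter _ χ) :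
    Good (famOf χ) n := by
  classical
  refine ⟨?_, fun m hm M => famOf_ne χ hm M, ?_, ?_⟩
  · intro m P M
    by_cases hm : m = n
    · subst hm
      rw [famOf_self, famOf_self]
      by_cases hM : IsUnit M
      · obtain ⟨u, rfl⟩ := hM
        have : (P : Matrix (Fin m) (Fin m) F) * (u : Matrix (Fin m) (Fin m) F) *
            ((P⁻¹ : GL (Fin m) F) : Matrix (Fin m) (Fin m) F) =
            ((P * u * P⁻¹ : GL (Fin m) F) : Matrix (Fin m) (Fin m) F) := rfl
        rw [this, ext0_unit, ext0_unit]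
        exact isClassFunction_of_isCharacter hχ u P
      · rw [ext0_not_unit χ hM, ext0_not_unit]
        intro hu
        apply hM
        have h1 : M = ((P⁻¹ : GL (Fin m) F) : Matrix (Fin m) (Fin m) F) *
            ((P : Matrix (Fin m) (Fin m) F) * M *
              ((P⁻¹ : GL (Fin m) F) : Matrix (Fin m) (Fin m) F)) *
            (P : Matrix (Fin m) (Fin m) F) := by
          have h2 : ((P⁻¹ : GL (Fin m) F) : Matrix (Fin m) (Fin m) F) *
              (P : Matrix (Fin m) (Fin m) F) = 1 := by simp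
          calc M = (((P⁻¹ : GL (Fin m) F) : Matrix (Fin m) (Fin m) F) *
                (P : Matrix (Fin m) (Fin m) F)) * M * (((P⁻¹ : GL (Fin m) F) :
                Matrix (Fin m) (Fin m) F) * (P : Matrix (Fin m) (Fin m) F)) := by
                rw [h2]; simp
            _ = _ := by simp only [mul_assoc]
        rw [h1]
        exact ((P⁻¹ : GL (Fin m) F).isUnit.mul hu).mul P.isUnit
    · rw [famOf_ne χ hm, famOf_ne χ hm]
  · intro m M hM
    by_cases hm : m = n
    · subst hm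
      rw [famOf_self, ext0_not_unit χ hM]
    · exact famOf_ne χ hm M
  · have : (fun g : GL (Fin n) F => famOf χ n (g : Matrix (Fin n) (Fin n) F)) = χ := by
      funext g
      rw [famOf_self, ext0_unit]
    rw [this]
    exact hχ

/-! ### `ev` and vanishing -/

section EvFacts

variable {V : Type u} [AddCommGroup V] [Module F V] [Module.Finite F V]

theorem ev_eq_zero_of_finrank_ne {Φ : Fam F} {a : ℕ} (h : ∀ n, n ≠ a → ∀ M, Φ n M = 0)
    (hV : finrank F V ≠ a) (g : V →ₗ[F] V) : ev Φ V g = 0 :=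
  h _ hV _

theorem isUnit_of_ev_ne_zero {Φ : Fam F} (h : ∀ n (M : Matrix (Fin n) (Fin n) F), ¬ IsUnit M → Φ n M = 0)
    {g : V →ₗ[F] V} (hg : ev Φ V g ≠ 0) : IsUnit g := by
  by_contra hu
  apply hg
  apply h
  intro hM
  apply hu
  have h1 : LinearMap.toMatrix (finBasis F V) (finBasis F V) g =
      LinearMap.toMatrixAlgEquiv (finBasis F V) g := rfl
  rw [h1] at hM
  exact (isUnit_map_iff (LinearMap.toMatrixAlgEquiv (finBasis F V)) g).1 hM

end EvFacts

/-! ### The block setting -/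

section Block

variable (F) (a b : ℕ)

/-- The space `X × Y`. -/
abbrev VV := (Fin a → F) × (Fin b → F)

/-- The standard basis of `X × Y`. -/
noncomputable def bas : Basis (Fin (a + b)) F (VV F a b) :=
  ((Pi.basisFun F (Fin a)).prod (Pi.basisFun F (Fin b))).reindex finSumFinEquiv

/-- `GL_{a+b}` acting on `X × Y`. -/
noncomputable def T : GL (Fin (a + b)) F →* ((VV F a b) →ₗ[F] (VV F a b)) :=
  (MonoidHomClass.toMonoidHom (Matrix.toLinAlgEquiv (bas F a b))).comp (Units.coeHom _)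

variable {F a b}

theorem T_def (g : GL (Fin (a + b)) F) :
    T F a b g = Matrix.toLin (bas F a b) (bas F a b) (g : Matrix (Fin (a + b)) (Fin (a + b)) F) := rfl

theorem toMatrix_T (g : GL (Fin (a + b)) F) :
    LinearMap.toMatrix (bas F a b) (bas F a b) (T F a b g) = g := by
  rw [T_def, LinearMap.toMatrix_toLin]

theorem T_mul_apply (g h : GL (Fin (a + b)) F) (v : VV F a b) :
    T F a b (g * h) v = T F a b g (T F a b h v) := by
  rw [map_mul]; rfl

theorem T_one_apply (v : VV F a b) : T F a b 1 v = v := by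
  rw [map_one]; rfl

theorem T_inv_T (g : GL (Fin (a + b)) F) (v : VV F a b) : T F a b g⁻¹ (T F a b g v) = v := by
  rw [← T_mul_apply, inv_mul_cancel, T_one_apply]

theorem T_T_inv (g : GL (Fin (a + b)) F) (v : VV F a b) : T F a b g (T F a b g⁻¹ v) = v := by
  rw [← T_mul_apply, mul_inv_cancel, T_one_apply]

theorem T_injective : Function.Injective (T F a b) := by
  intro g h hgh
  apply Units.ext
  rw [← toMatrix_T g, ← toMatrix_T h, hgh]

theorem exists_T_eq (L : (VV F a b) ≃ₗ[F] (VV F a b)) :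
    ∃ g : GL (Fin (a + b)) F, T F a b g = (L : (VV F a b) →ₗ[F] (VV F a b)) := by
  classical
  let M := LinearMap.toMatrix (bas F a b) (bas F a b) (L : (VV F a b) →ₗ[F] (VV F a b))
  let M' := LinearMap.toMatrix (bas F a b) (bas F a b) (L.symm : (VV F a b) →ₗ[F] (VV F a b))
  have h1 : M * M' = 1 := by
    simp only [M, M']
    rw [← LinearMap.toMatrix_comp]
    have : (L : (VV F a b) →ₗ[F] (VV F a b)) ∘ₗ (L.symm : (VV F a b) →ₗ[F] (VV F a b)) = LinearMap.id := by
      ext v <;> simp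
    rw [this, LinearMap.toMatrix_id]
  have h2 : M' * M = 1 := by
    simp only [M, M']
    rw [← LinearMap.toMatrix_comp]
    have : (L.symm : (VV F a b) →ₗ[F] (VV F a b)) ∘ₗ (L : (VV F a b) →ₗ[F] (VV F a b)) = LinearMap.id := by
      ext v <;> simp
    rw [this, LinearMap.toMatrix_id]
  refine ⟨⟨M, M', h1, h2⟩, ?_⟩
  rw [T_def]
  exact Matrix.toLin_toMatrix _ _ _

/-- Equivalence of `T` with the coordinate action. -/
theorem bas_equivFun_T (g : GL (Fin (a + b)) F) (v : Fin (a + b) → F) :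
    (bas F a b).equivFun.symm (Matrix.toLin' (g : Matrix (Fin (a + b)) (Fin (a + b)) F) v) =
      T F a b g ((bas F a b).equivFun.symm v) := by
  rw [T_def, Matrix.toLin_apply, Matrix.toLin'_apply, Basis.equivFun_symm_apply]
  congr 2
  have : ((bas F a b).repr ((bas F a b).equivFun.symm v) : Fin (a + b) → F) = v :=
    (bas F a b).equivFun.apply_symm_apply v
  rw [this]

/-! The parabolic `P`. -/

variable (F a b) in
/-- The stabilizer of `X × 0`. -/
noncomputable def P : Subgroup (GL (Fin (a + b)) F) where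
  carrier := {g | ∀ x : Fin a → F, (T F a b g (x, 0)).2 = 0}
  mul_mem' := by
    intro g h hg hh x
    change ∀ x : Fin a → F, (T F a b g (x, 0)).2 = 0 at hg
    change ∀ x : Fin a → F, (T F a b h (x, 0)).2 = 0 at hh
    rw [T_mul_apply]
    have h1 : T F a b h (x, 0) = ((T F a b h (x, 0)).1, 0) := Prod.ext rfl (hh x)
    rw [h1]
    exact hg _
  one_mem' := by
    intro x
    rw [T_one_apply]
  inv_mem' := by
    classical
    intro g hg
    change ∀ x : Fin a → F, (T F a b g (x, 0)).2 = 0 at hg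
    have hfin : IsOfFinOrder g := isOfFinOrder_of_finite g
    have hpos := hfin.orderOf_pos
    have key : ∀ k : ℕ, ∀ x : Fin a → F, (T F a b (g ^ k) (x, 0)).2 = 0 := by
      intro k
      induction k with
      | zero => intro x; rw [pow_zero, T_one_apply]
      | succ k ih =>
        intro x
        rw [pow_succ, T_mul_apply]
        have h1 : T F a b g (x, 0) = ((T F a b g (x, 0)).1, 0) := Prod.ext rfl (hg x)
        rw [h1]
        exact ih _
    have hinv : g⁻¹ = g ^ (orderOf g - 1) := by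
      rw [inv_eq_iff_mul_eq_one, ← pow_succ', Nat.sub_add_cancel hpos, pow_orderOf_eq_one]
    change ∀ x : Fin a → F, (T F a b g⁻¹ (x, 0)).2 = 0
    rw [hinv]
    exact key _

/-- Block `A`. -/
noncomputable def Ap (g : GL (Fin (a + b)) F) : (Fin a → F) →ₗ[F] (Fin a → F) :=
  (LinearMap.fst F (Fin a → F) (Fin b → F)) ∘ₗ (T F a b g) ∘ₗ (LinearMap.inl F (Fin a → F) (Fin b → F))

/-- Block `B`. -/
noncomputable def Bp (g : GL (Fin (a + b)) F) : (Fin b → F) →ₗ[F] (Fin a → F) :=
  (LinearMap.fst F (Fin a → F) (Fin b → F)) ∘ₗ (T F a b g) ∘ₗ (LinearMap.inr F (Fin a → F) (Fin b → F))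

/-- Block `D`. -/
noncomputable def Dp (g : GL (Fin (a + b)) F) : (Fin b → F) →ₗ[F] (Fin b → F) :=
  (LinearMap.snd F (Fin a → F) (Fin b → F)) ∘ₗ (T F a b g) ∘ₗ (LinearMap.inr F (Fin a → F) (Fin b → F))

theorem mem_P {g : GL (Fin (a + b)) F} :
    g ∈ P F a b ↔ ∀ x : Fin a → F, (T F a b g (x, 0)).2 = 0 := Iff.rfl

theorem T_x0 {g : GL (Fin (a + b)) F} (hg : g ∈ P F a b) (x : Fin a → F) :
    T F a b g (x, 0) = (Ap g x, 0) :=
  Prod.ext rfl (hg x)

theorem T_0y (g : GL (Fin (a + b)) F) (y : Fin b → F) :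
    T F a b g (0, y) = (Bp g y, Dp g y) := rfl

theorem T_eq_E {g : GL (Fin (a + b)) F} (hg : g ∈ P F a b) :
    T F a b g = E (Ap g) (Bp g) (Dp g) := by
  apply LinearMap.ext
  rintro ⟨x, y⟩
  have h : ((x, y) : VV F a b) = (x, 0) + (0, y) := by simp
  rw [h, map_add, T_x0 hg, T_0y, E_apply]
  simp

theorem Ap_mul {g h : GL (Fin (a + b)) F} (hg : g ∈ P F a b) (hh : h ∈ P F a b) :
    Ap (g * h) = Ap g ∘ₗ Ap h := by
  apply LinearMap.ext
  intro x
  have h1 : T F a b (g * h) (x, 0) = (Ap (g * h) x, 0) := T_x0 ((P F a b).mul_mem hg hh) x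
  rw [T_mul_apply, T_x0 hh, T_x0 hg] at h1
  exact (congrArg Prod.fst h1).symm

theorem Dp_mul {g h : GL (Fin (a + b)) F} (hg : g ∈ P F a b) (hh : h ∈ P F a b) :
    Dp (g * h) = Dp g ∘ₗ Dp h := by
  apply LinearMap.ext
  intro y
  have h1 : T F a b (g * h) (0, y) = (Bp (g * h) y, Dp (g * h) y) := T_0y _ y
  rw [T_mul_apply, T_0y, T_eq_E hg, E_apply] at h1
  exact (congrArg Prod.snd h1).symm

theorem Ap_one : Ap (1 : GL (Fin (a + b)) F) = LinearMap.id := by
  apply LinearMap.ext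
  intro x
  change (T F a b 1 (x, 0)).1 = x
  rw [T_one_apply]

theorem Dp_one : Dp (1 : GL (Fin (a + b)) F) = LinearMap.id := by
  apply LinearMap.ext
  intro x
  change (T F a b 1 (0, x)).2 = x
  rw [T_one_apply]

/-- `p ↦ A p` as a homomorphism. -/
noncomputable def pi1 : P F a b →* GL (Fin a) F :=
  MonoidHom.toHomUnits
    { toFun := fun p => LinearMap.toMatrix' (Ap (p : GL (Fin (a + b)) F))
      map_one' := by
        rw [Subgroup.coe_one, Ap_one, LinearMap.toMatrix'_id]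
      map_mul' := by
        intro p q
        rw [Subgroup.coe_mul, Ap_mul p.2 q.2, LinearMap.toMatrix'_comp] }

/-- `p ↦ D p` as a homomorphism. -/
noncomputable def pi2 : P F a b →* GL (Fin b) F :=
  MonoidHom.toHomUnits
    { toFun := fun p => LinearMap.toMatrix' (Dp (p : GL (Fin (a + b)) F))
      map_one' := by
        rw [Subgroup.coe_one, Dp_one, LinearMap.toMatrix'_id]
      map_mul' := by
        intro p q
        rw [Subgroup.coe_mul, Dp_mul p.2 q.2, LinearMap.toMatrix'_comp] }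

theorem coe_pi1 (p : P F a b) :
    ((pi1 p : GL (Fin a) F) : Matrix (Fin a) (Fin a) F) = LinearMap.toMatrix' (Ap (p : GL (Fin (a + b)) F)) := rfl

theorem coe_pi2 (p : P F a b) :
    ((pi2 p : GL (Fin b) F) : Matrix (Fin b) (Fin b) F) = LinearMap.toMatrix' (Dp (p : GL (Fin (a + b)) F)) := rfl

/-- `ev` on the coordinate space. -/
theorem ev_coord {Φ : Fam F} (hΦ : IsCl Φ) {n : ℕ} (A : (Fin n → F) →ₗ[F] (Fin n → F)) :
    ev Φ (Fin n → F) A = Φ n (LinearMap.toMatrix' A) := by
  rw [ev_eq_of_basis hΦ (Pi.basisFun F (Fin n)), LinearMap.toMatrix_eq_toMatrix']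

/-- The inducing function. -/
noncomputable def theta (Φ Ψ : Fam F) : P F a b → ℂ := fun p =>
  ev Φ (Fin a → F) (Ap (p : GL (Fin (a + b)) F)) * ev Ψ (Fin b → F) (Dp (p : GL (Fin (a + b)) F))

theorem isCharacter_theta {Φ Ψ : Fam F} (hΦ : Good Φ a) (hΨ : Good Ψ b) :
    IsCharacter (P F a b) (theta Φ Ψ) := by
  have h := isCharacter_comp (pi1.prod pi2) (isCharacter_tensorFun hΦ.char hΨ.char)
  convert h using 1
  funext p
  simp only [theta, Function.comp_apply, tensorFun_apply, MonoidHom.prod_apply]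
  rw [ev_coord hΦ.cl, ev_coord hΨ.cl, coe_pi1, coe_pi2]

/-! ### The subspaces `W x`. -/

variable (F a b) in
/-- The subspace `X × 0`. -/
noncomputable def X0 : Submodule F (VV F a b) := LinearMap.ker (LinearMap.snd F (Fin a → F) (Fin b → F))

/-- The subspace `x (X × 0)`. -/
noncomputable def WW (x : GL (Fin (a + b)) F) : Submodule F (VV F a b) :=
  (X0 F a b).map (T F a b x)

theorem mem_WW {x : GL (Fin (a + b)) F} {v : VV F a b} :
    v ∈ WW x ↔ ∃ x' : Fin a → F, v = T F a b x (x', 0) := by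
  constructor
  · rintro ⟨⟨x', y'⟩, hy, rfl⟩
    have : y' = 0 := hy
    subst this
    exact ⟨x', rfl⟩
  · rintro ⟨x', rfl⟩
    exact ⟨(x', 0), rfl, rfl⟩

theorem conj_mem_P_iff (g x : GL (Fin (a + b)) F) :
    x⁻¹ * g * x ∈ P F a b ↔ WW x ≤ (WW x).comap (T F a b g) := by
  constructor
  · intro h v hv
    obtain ⟨x', rfl⟩ := mem_WW.1 hv
    rw [Submodule.mem_comap]
    refine mem_WW.2 ⟨Ap (x⁻¹ * g * x) x', ?_⟩
    have h1 := T_x0 h x'
    rw [← h1, T_mul_apply, T_mul_apply, T_T_inv]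
  · intro h x'
    have h1 : T F a b x (x', 0) ∈ WW x := mem_WW.2 ⟨x', rfl⟩
    obtain ⟨x'', hx''⟩ := mem_WW.1 (h h1)
    have h2 : T F a b (x⁻¹ * g * x) (x', 0) = (x'', 0) := by
      rw [T_mul_apply, T_mul_apply]
      change T F a b x⁻¹ (T F a b g (T F a b x (x', 0))) = _
      rw [hx'', T_inv_T]
    rw [h2]

theorem T_conj (x g : GL (Fin (a + b)) F) (v : VV F a b) :
    T F a b x (T F a b (x⁻¹ * g * x) v) = T F a b g (T F a b x v) := by
  rw [T_mul_apply, T_mul_apply, T_T_inv]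

theorem T_x0_inj (x : GL (Fin (a + b)) F) {v w : VV F a b} (h : T F a b x v = T F a b x w) : v = w := by
  have := congrArg (T F a b x⁻¹) h
  rwa [T_inv_T, T_inv_T] at this

/-- `X ≃ W x`. -/
noncomputable def e1 (x : GL (Fin (a + b)) F) : (Fin a → F) ≃ₗ[F] WW x :=
  LinearEquiv.ofBijective
    (LinearMap.codRestrict (WW x) ((T F a b x) ∘ₗ (LinearMap.inl F (Fin a → F) (Fin b → F)))
      (fun x' => mem_WW.2 ⟨x', rfl⟩))
    (by
      constructor
      · intro u v huv
        have h1 := congrArg Subtype.val huv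
        have h2 : T F a b x (u, 0) = T F a b x (v, 0) := h1
        exact congrArg Prod.fst (T_x0_inj x h2)
      · rintro ⟨v, hv⟩
        obtain ⟨x', rfl⟩ := mem_WW.1 hv
        exact ⟨x', rfl⟩)

theorem e1_apply (x : GL (Fin (a + b)) F) (x' : Fin a → F) :
    ((e1 x x' : WW x) : VV F a b) = T F a b x (x', 0) := rfl

/-- `Y ≃ V / W x`. -/
noncomputable def e2 (x : GL (Fin (a + b)) F) : (Fin b → F) ≃ₗ[F] (VV F a b ⧸ WW x) :=
  LinearEquiv.ofBijective
    ((WW x).mkQ ∘ₗ (T F a b x) ∘ₗ (LinearMap.inr F (Fin a → F) (Fin b → F)))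
    (by
      constructor
      · rw [← LinearMap.ker_eq_bot, LinearMap.ker_eq_bot']
        intro y hy
        have h1 : T F a b x (0, y) ∈ WW x := (Submodule.Quotient.mk_eq_zero _).1 hy
        obtain ⟨x', hx'⟩ := mem_WW.1 h1
        exact congrArg Prod.snd (T_x0_inj x hx')
      · intro v
        induction v using Submodule.Quotient.induction_on with
        | H v =>
          obtain ⟨v', rfl⟩ : ∃ v', v = T F a b x v' := ⟨T F a b x⁻¹ v, (T_T_inv x v).symm⟩
          refine ⟨v'.2, ?_⟩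
          change Submodule.Quotient.mk (T F a b x (0, v'.2)) = Submodule.Quotient.mk (T F a b x v')
          rw [Submodule.Quotient.eq]
          have h : ((0, v'.2) : VV F a b) - v' = (-v'.1, 0) := by
            ext <;> simp
          rw [← map_sub, h]
          exact mem_WW.2 ⟨_, rfl⟩)

theorem e2_apply (x : GL (Fin (a + b)) F) (y : Fin b → F) :
    e2 x y = Submodule.Quotient.mk (T F a b x (0, y)) := rfl

theorem theta_eq_val {Φ Ψ : Fam F} (hΦ : IsCl Φ) (hΨ : IsCl Ψ) (g x : GL (Fin (a + b)) F)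
    (h : x⁻¹ * g * x ∈ P F a b) (hW : WW x ≤ (WW x).comap (T F a b g)) :
    theta Φ Ψ (⟨x⁻¹ * g * x, h⟩ : P F a b) =
      ev Φ (WW x) ((T F a b g).restrict hW) *
        ev Ψ (VV F a b ⧸ WW x) ((WW x).mapQ (WW x) (T F a b g) hW) := by
  unfold theta
  congr 1
  · refine ev_congr hΦ (e1 x) _ _ ?_
    intro x'
    apply Subtype.ext
    rw [LinearMap.coe_restrict_apply, e1_apply, e1_apply, ← T_conj, T_x0 h]
  · refine ev_congr hΨ (e2 x) _ _ ?_
    intro y
    rw [e2_apply, e2_apply, Submodule.mapQ_apply, ← T_conj, Submodule.Quotient.eq]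
    have h1 : T F a b (x⁻¹ * g * x) (0, y) =
        (Bp (x⁻¹ * g * x) y, Dp (x⁻¹ * g * x) y) := T_0y _ y
    rw [h1, ← map_sub]
    have h2 : ((0, Dp (x⁻¹ * g * x) y) : VV F a b) - (Bp (x⁻¹ * g * x) y, Dp (x⁻¹ * g * x) y) =
        (-Bp (x⁻¹ * g * x) y, 0) := by
      ext <;> simp
    rw [h2]
    exact mem_WW.2 ⟨_, rfl⟩

theorem WW_mul_le (x : GL (Fin (a + b)) F) {p : GL (Fin (a + b)) F} (hp : p ∈ P F a b) :
    WW (x * p) ≤ WW x := by
  intro v hv
  obtain ⟨x', rfl⟩ := mem_WW.1 hv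
  rw [T_mul_apply, T_x0 hp]
  exact mem_WW.2 ⟨_, rfl⟩

theorem WW_mul (x : GL (Fin (a + b)) F) {p : GL (Fin (a + b)) F} (hp : p ∈ P F a b) :
    WW (x * p) = WW x := by
  apply le_antisymm (WW_mul_le x hp)
  have := WW_mul_le (x * p) ((P F a b).inv_mem hp)
  rwa [mul_inv_cancel_right] at this

theorem inv_mul_mem_of_WW_eq {x y : GL (Fin (a + b)) F} (h : WW x = WW y) : x⁻¹ * y ∈ P F a b := by
  intro x'
  have h1 : T F a b y (x', 0) ∈ WW x := by
    rw [h]; exact mem_WW.2 ⟨x', rfl⟩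
  obtain ⟨x'', hx''⟩ := mem_WW.1 h1
  rw [T_mul_apply, hx'', T_inv_T]

theorem exists_WW_eq (W : Submodule F (VV F a b)) (hW : finrank F W = a) :
    ∃ x : GL (Fin (a + b)) F, WW x = W := by
  classical
  obtain ⟨W', hc⟩ := W.exists_isCompl
  have h1 : finrank F W + finrank F W' = a + b := by
    rw [Submodule.finrank_add_eq_of_isCompl hc, Module.finrank_prod, Module.finrank_fin_fun,
      Module.finrank_fin_fun]
  have hW' : finrank F W' = b := by omega
  let L₁ : (Fin a → F) ≃ₗ[F] W := LinearEquiv.ofFinrankEq _ _ (by rw [Module.finrank_fin_fun, hW])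
  let L₂ : (Fin b → F) ≃ₗ[F] W' := LinearEquiv.ofFinrankEq _ _ (by rw [Module.finrank_fin_fun, hW'])
  let L : (VV F a b) ≃ₗ[F] (VV F a b) :=
    (L₁.prodCongr L₂).trans (Submodule.prodEquivOfIsCompl W W' hc)
  obtain ⟨x, hx⟩ := exists_T_eq L
  refine ⟨x, ?_⟩
  have hL : ∀ x' : Fin a → F, T F a b x (x', 0) = (L₁ x' : VV F a b) := by
    intro x'
    rw [hx]
    simp [L]
  ext v
  rw [mem_WW]
  constructor
  · rintro ⟨x', rfl⟩
    rw [hL]
    exact (L₁ x').2
  · intro hv
    refine ⟨L₁.symm ⟨v, hv⟩, ?_⟩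
    rw [hL]
    simp

section Card

variable [Fintype (GL (Fin (a + b)) F)]

open Classical in
theorem card_filter_WW (W : Submodule F (VV F a b)) (hW : finrank F W = a) :
    ((Finset.univ.filter fun x : GL (Fin (a + b)) F => WW x = W).card) = Nat.card (P F a b) := by
  obtain ⟨x₀, rfl⟩ := exists_WW_eq W hW
  rw [← Fintype.card_subtype, ← Nat.card_eq_fintype_card]
  refine Nat.card_congr ?_
  exact
    { toFun := fun x => ⟨x₀⁻¹ * x.1, inv_mul_mem_of_WW_eq x.2.symm⟩
      invFun := fun p => ⟨x₀ * p.1, WW_mul x₀ p.2⟩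
      left_inv := fun x => Subtype.ext (by simp)
      right_inv := fun p => Subtype.ext (by simp) }

end Card

/-- The Hall product in the block model. -/
theorem hall_eq_pev (Φ Ψ : Fam F) (hΦ : IsCl Φ) (hΨ : IsCl Ψ) (g : GL (Fin (a + b)) F) :
    hall Φ Ψ (a + b) (g : Matrix (Fin (a + b)) (Fin (a + b)) F) = pev Φ Ψ (VV F a b) (T F a b g) := by
  unfold hall
  refine pev_congr hΦ hΨ (bas F a b).equivFun.symm _ _ ?_
  intro v
  exact bas_equivFun_T g v

/-- **The Hall product is induced from the parabolic.** -/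
theorem hall_eq_indFun [Fintype (GL (Fin (a + b)) F)] {Φ Ψ : Fam F} (hΦ : Good Φ a) (hΨ : Good Ψ b)
    (g : GL (Fin (a + b)) F) :
    hall Φ Ψ (a + b) (g : Matrix (Fin (a + b)) (Fin (a + b)) F) = indFun (P F a b) (theta Φ Ψ) g := by
  classical
  rw [hall_eq_pev Φ Ψ hΦ.cl hΨ.cl, pev_eq_sum, indFun_apply]
  set val : Inv (T F a b g) → ℂ := fun W =>
    ev Φ W.1 ((T F a b g).restrict W.2) *
      ev Ψ (VV F a b ⧸ W.1) (W.1.mapQ W.1 (T F a b g) W.2) with hval
  have hterm : ∀ x : GL (Fin (a + b)) F, extendByZero (P F a b) (theta Φ Ψ) (x⁻¹ * g * x) =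
      ∑ W : Inv (T F a b g), if WW x = W.1 then val W else 0 := by
    intro x
    by_cases hx : x⁻¹ * g * x ∈ P F a b
    · rw [extendByZero_of_mem _ _ hx]
      have hW := (conj_mem_P_iff g x).1 hx
      rw [Finset.sum_eq_single (⟨WW x, hW⟩ : Inv (T F a b g))]
      · rw [if_pos rfl]
        exact theta_eq_val hΦ.cl hΨ.cl g x hx hW
      · intro W _ hne
        rw [if_neg]
        intro h
        exact hne (Subtype.ext h.symm)
      · intro h
        exact absurd (Finset.mem_univ _) h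
    · rw [extendByZero_of_not_mem _ _ hx]
      symm
      apply Finset.sum_eq_zero
      intro W _
      rw [if_neg]
      intro h
      apply hx
      rw [conj_mem_P_iff, h]
      exact W.2
  simp only [hterm]
  rw [Finset.sum_comm]
  have hinner : ∀ W : Inv (T F a b g),
      (∑ x : GL (Fin (a + b)) F, if WW x = W.1 then val W else 0) = (Nat.card (P F a b) : ℂ) * val W := by
    intro W
    rw [← Finset.sum_filter, Finset.sum_const, nsmul_eq_mul]
    by_cases hW : finrank F W.1 = a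
    · rw [card_filter_WW W.1 hW]
    · have : val W = 0 := by
        simp only [hval]
        rw [ev_eq_zero_of_finrank_ne hΦ.homog hW, zero_mul]
      rw [this, mul_zero, mul_zero]
  simp only [hinner]
  rw [← Finset.mul_sum, ← mul_assoc, inv_mul_cancel₀, one_mul]
  exact Nat.cast_ne_zero.2 Nat.card_pos.ne'

/-! ### Block elements -/

theorem exists_block {A : (Fin a → F) →ₗ[F] (Fin a → F)} {D : (Fin b → F) →ₗ[F] (Fin b → F)}
    (hA : IsUnit A) (hD : IsUnit D) (B : (Fin b → F) →ₗ[F] (Fin a → F)) :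
    ∃ p : P F a b, Ap (p : GL (Fin (a + b)) F) = A ∧ Bp (p : GL (Fin (a + b)) F) = B ∧
      Dp (p : GL (Fin (a + b)) F) = D := by
  obtain ⟨u, rfl⟩ := hA
  obtain ⟨v, rfl⟩ := hD
  let A' : (Fin a → F) →ₗ[F] (Fin a → F) := ((u⁻¹ : (Module.End F (Fin a → F))ˣ) : Module.End F (Fin a → F))
  let D' : (Fin b → F) →ₗ[F] (Fin b → F) := ((v⁻¹ : (Module.End F (Fin b → F))ˣ) : Module.End F (Fin b → F))
  have hAA' : ∀ x, (u : Module.End F (Fin a → F)) (A' x) = x := fun x =>
    LinearMap.congr_fun u.mul_inv x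
  have hA'A : ∀ x, A' ((u : Module.End F (Fin a → F)) x) = x := fun x =>
    LinearMap.congr_fun u.inv_mul x
  have hDD' : ∀ x, (v : Module.End F (Fin b → F)) (D' x) = x := fun x =>
    LinearMap.congr_fun v.mul_inv x
  have hD'D : ∀ x, D' ((v : Module.End F (Fin b → F)) x) = x := fun x =>
    LinearMap.congr_fun v.inv_mul x
  let B' : (Fin b → F) →ₗ[F] (Fin a → F) := -(A' ∘ₗ B ∘ₗ D')
  let L : (VV F a b) ≃ₗ[F] (VV F a b) :=
    LinearEquiv.ofLinearMap (E (u : Module.End F (Fin a → F)) B (v : Module.End F (Fin b → F))) (E A' B' D')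
      (by
        apply LinearMap.ext
        rintro ⟨x, y⟩
        simp only [LinearMap.comp_apply, E_apply, LinearMap.id_apply, map_add, hAA', hDD', B',
          LinearMap.neg_apply, map_neg]
        ext <;> simp)
      (by
        apply LinearMap.ext
        rintro ⟨x, y⟩
        simp only [LinearMap.comp_apply, E_apply, LinearMap.id_apply, map_add, hA'A, hD'D, B',
          LinearMap.neg_apply]
        ext <;> simp)
  obtain ⟨x, hx⟩ := exists_T_eq L
  have hTx : ∀ w, T F a b x w = E (u : Module.End F (Fin a → F)) B (v : Module.End F (Fin b → F)) w := by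
    intro w
    rw [hx]
    rfl
  have hxP : x ∈ P F a b := by
    intro x'
    rw [hTx]
    simp
  refine ⟨⟨x, hxP⟩, ?_, ?_, ?_⟩
  · apply LinearMap.ext
    intro x'
    change (T F a b x (x', 0)).1 = _
    rw [hTx]
    simp
  · apply LinearMap.ext
    intro y
    change (T F a b x (0, y)).1 = _
    rw [hTx]
    simp
  · apply LinearMap.ext
    intro y
    change (T F a b x (0, y)).2 = _
    rw [hTx]
    simp

theorem block_injective {p q : P F a b} (h1 : Ap (p : GL (Fin (a + b)) F) = Ap (q : GL (Fin (a + b)) F))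
    (h2 : Bp (p : GL (Fin (a + b)) F) = Bp (q : GL (Fin (a + b)) F))
    (h3 : Dp (p : GL (Fin (a + b)) F) = Dp (q : GL (Fin (a + b)) F)) : p = q := by
  apply Subtype.ext
  apply T_injective
  rw [T_eq_E p.2, T_eq_E q.2, h1, h2, h3]

theorem isUnit_toLin' {n : ℕ} (u : GL (Fin n) F) :
    IsUnit (Matrix.toLin' (u : Matrix (Fin n) (Fin n) F)) := by
  have h := (u.isUnit).map (Matrix.toLinAlgEquiv' (R := F) (n := Fin n))
  exact h

theorem card_P : Nat.card (P F a b) =
    Nat.card (GL (Fin a) F) * Nat.card (GL (Fin b) F) * Nat.card ((Fin b → F) →ₗ[F] (Fin a → F)) := by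
  classical
  rw [← Nat.card_prod, ← Nat.card_prod]
  refine Nat.card_congr (Equiv.ofBijective
    (fun p : P F a b => (((pi1 p, pi2 p), Bp (p : GL (Fin (a + b)) F)) :
      (GL (Fin a) F × GL (Fin b) F) × ((Fin b → F) →ₗ[F] (Fin a → F)))) ⟨?_, ?_⟩)
  · intro p q h
    have h1 := congrArg (fun z => z.1.1) h
    have h2 := congrArg (fun z => z.1.2) h
    have h3 := congrArg (fun z => z.2) h
    simp only at h1 h2 h3
    refine block_injective ?_ h3 ?_
    · apply LinearMap.toMatrix'.injective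
      rw [← coe_pi1, ← coe_pi1, h1]
    · apply LinearMap.toMatrix'.injective
      rw [← coe_pi2, ← coe_pi2, h2]
  · rintro ⟨⟨u, v⟩, B⟩
    obtain ⟨p, h1, h2, h3⟩ := exists_block (isUnit_toLin' u) (isUnit_toLin' v) B
    refine ⟨p, ?_⟩
    simp only [Prod.mk.injEq]
    refine ⟨⟨?_, ?_⟩, h2⟩
    · apply Units.ext
      rw [coe_pi1, h1, LinearMap.toMatrix'_toLin']
    · apply Units.ext
      rw [coe_pi2, h3, LinearMap.toMatrix'_toLin']

end Block

/-! ### `Good` is preserved by the Hall product. -/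

theorem _root_.Cfsg.Agent.Lib.GLH.Der.Good.hall {Φ Ψ : Fam F} {a b : ℕ} (hΦ : Good Φ a) (hΨ : Good Ψ b) :
    Good (Defs.hall Φ Ψ) (a + b) := by
  classical
  refine ⟨isCl_hall hΦ.cl hΨ.cl, ?_, ?_, ?_⟩
  · intro n hn M
    unfold Defs.hall
    rw [pev_eq_sum]
    apply Finset.sum_eq_zero
    intro W _
    by_cases h1 : finrank F W.1 = a
    · by_cases h2 : finrank F ((Fin n → F) ⧸ W.1) = b
      · exfalso
        have := Submodule.finrank_quotient_add_finrank W.1
        rw [Module.finrank_fin_fun] at this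
        omega
      · rw [ev_eq_zero_of_finrank_ne hΨ.homog h2, mul_zero]
    · rw [ev_eq_zero_of_finrank_ne hΦ.homog h1, zero_mul]
  · intro n M hM
    unfold Defs.hall
    rw [pev_eq_sum]
    apply Finset.sum_eq_zero
    intro W _
    by_contra hne
    obtain ⟨h1, h2⟩ := mul_ne_zero_iff.1 hne
    have hu1 := isUnit_of_ev_ne_zero hΦ.nonunit h1
    have hu2 := isUnit_of_ev_ne_zero hΨ.nonunit h2
    apply hM
    have hinj1 := ((Module.End.isUnit_iff _).1 hu1).1
    have hinj2 := ((Module.End.isUnit_iff _).1 hu2).1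
    have hker : LinearMap.ker (Matrix.toLin' M) = ⊥ := by
      rw [LinearMap.ker_eq_bot']
      intro v hv
      have hv1 : (W.1.mapQ W.1 (Matrix.toLin' M) W.2) (Submodule.Quotient.mk v) =
          (W.1.mapQ W.1 (Matrix.toLin' M) W.2) 0 := by
        rw [Submodule.mapQ_apply, hv, map_zero]
        rfl
      have hv2 : (Submodule.Quotient.mk v : (Fin n → F) ⧸ W.1) = 0 := hinj2 hv1
      have hvW : v ∈ W.1 := (Submodule.Quotient.mk_eq_zero _).1 hv2
      have hv3 : ((Matrix.toLin' M).restrict W.2) ⟨v, hvW⟩ = ((Matrix.toLin' M).restrict W.2) 0 := by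
        apply Subtype.ext
        rw [LinearMap.coe_restrict_apply, hv, map_zero]
        rfl
      have := hinj1 hv3
      exact congrArg Subtype.val this
    have hu : IsUnit (Matrix.toLin' M) := (LinearMap.isUnit_iff_ker_eq_bot _).2 hker
    exact (isUnit_map_iff (Matrix.toLinAlgEquiv' (R := F) (n := Fin n)) M).1 hu
  · haveI : Fintype (GL (Fin (a + b)) F) := Fintype.ofFinite _
    have : (fun g : GL (Fin (a + b)) F => Defs.hall Φ Ψ (a + b) (g : Matrix (Fin (a + b)) (Fin (a + b)) F))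
        = indFun (P F a b) (theta Φ Ψ) := funext (hall_eq_indFun hΦ hΨ)
    rw [this]
    exact isCharacter_indFun (P F a b) (isCharacter_theta hΦ hΨ)

/-- **Frobenius reciprocity for the Hall product.** -/
theorem classInner_hall {a b : ℕ} {Ξ Φ Ψ : Fam F} [Fintype (GL (Fin (a + b)) F)] (hΞ : IsCl Ξ)
    (hΞ0 : ∀ n (M : Matrix (Fin n) (Fin n) F), ¬ IsUnit M → Ξ n M = 0) (hΦ : Good Φ a) (hΨ : Good Ψ b) :
    Cfsg.classInner (fun g : GL (Fin (a + b)) F => Ξ (a + b) (g : Matrix (Fin (a + b)) (Fin (a + b)) F))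
        (fun g => hall Φ Ψ (a + b) (g : Matrix (Fin (a + b)) (Fin (a + b)) F)) =
      ((Nat.card (GL (Fin a) F) : ℂ) * Nat.card (GL (Fin b) F))⁻¹ *
        ∑ᶠ D : (Fin b → F) →ₗ[F] (Fin b → F),
          dN (fun A : (Fin a → F) →ₗ[F] (Fin a → F) => conj (ev Φ (Fin a → F) A)) Ξ D *
            conj (ev Ψ (Fin b → F) D) := by
  classical
  have hfun : (fun g : GL (Fin (a + b)) F => hall Φ Ψ (a + b) (g : Matrix (Fin (a + b)) (Fin (a + b)) F))
      = indFun (P F a b) (theta Φ Ψ) := funext (hall_eq_indFun hΦ hΨ)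
  rw [hfun]
  haveI : Fintype (P F a b) := Fintype.ofFinite _
  have hcf : IsClassFunction (GL (Fin (a + b)) F)
      (fun g : GL (Fin (a + b)) F => Ξ (a + b) (g : Matrix (Fin (a + b)) (Fin (a + b)) F)) := by
    intro g h
    exact hΞ (a + b) h g
  rw [classInner_indFun_right (P F a b) (theta Φ Ψ) _ hcf, classInner_subgroup_eq]
  haveI fDD : Fintype ((Fin b → F) →ₗ[F] (Fin b → F)) :=
    haveI := Ev.finite_of_module (F := F) (V := (Fin b → F) →ₗ[F] (Fin b → F)); Fintype.ofFinite _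
  haveI fAA : Fintype ((Fin a → F) →ₗ[F] (Fin a → F)) :=
    haveI := Ev.finite_of_module (F := F) (V := (Fin a → F) →ₗ[F] (Fin a → F)); Fintype.ofFinite _
  haveI fBB : Fintype ((Fin b → F) →ₗ[F] (Fin a → F)) :=
    haveI := Ev.finite_of_module (F := F) (V := (Fin b → F) →ₗ[F] (Fin a → F)); Fintype.ofFinite _
  rw [finsum_eq_sum_of_fintype]
  have hdN : ∀ D : (Fin b → F) →ₗ[F] (Fin b → F),
      dN (fun A : (Fin a → F) →ₗ[F] (Fin a → F) => conj (ev Φ (Fin a → F) A)) Ξ D =
        (Nat.card ((Fin b → F) →ₗ[F] (Fin a → F)) : ℂ)⁻¹ *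
          ∑ A : (Fin a → F) →ₗ[F] (Fin a → F), ∑ B : (Fin b → F) →ₗ[F] (Fin a → F),
            conj (ev Φ (Fin a → F) A) * ev Ξ ((Fin a → F) × (Fin b → F)) (E A B D) := by
    intro D
    unfold dN dS
    rw [finsum_eq_sum_of_fintype]
    congr 2
    funext A
    rw [finsum_eq_sum_of_fintype]
  simp only [hdN]
  -- the sum over `P`
  let gg : ((Fin b → F) →ₗ[F] (Fin b → F)) × (((Fin a → F) →ₗ[F] (Fin a → F)) × ((Fin b → F) →ₗ[F] (Fin a → F))) → ℂ :=
    fun j => conj (ev Φ (Fin a → F) j.2.1) * ev Ξ ((Fin a → F) × (Fin b → F)) (E j.2.1 j.2.2 j.1) *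
      conj (ev Ψ (Fin b → F) j.1)
  have hsum : ∑ p : P F a b, Ξ (a + b) (((p : GL (Fin (a + b)) F) : Matrix (Fin (a + b)) (Fin (a + b)) F)) *
      conj (theta Φ Ψ p) = ∑ j, gg j := by
    refine Fintype.sum_of_injective
      (fun p : P F a b => (Dp (p : GL (Fin (a + b)) F), (Ap (p : GL (Fin (a + b)) F), Bp (p : GL (Fin (a + b)) F))))
      ?_ _ _ ?_ ?_
    · intro p q h
      have h1 := congrArg (fun z => z.1) h
      have h2 := congrArg (fun z => z.2.1) h
      have h3 := congrArg (fun z => z.2.2) h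
      exact block_injective h2 h3 h1
    · rintro ⟨D, A, B⟩ hj
      by_contra hne
      apply hj
      simp only [gg] at hne
      obtain ⟨h1, h2⟩ := mul_ne_zero_iff.1 hne
      obtain ⟨h3, -⟩ := mul_ne_zero_iff.1 h1
      have hA : ev Φ (Fin a → F) A ≠ 0 := by
        intro h0; rw [h0, map_zero] at h3; exact h3 rfl
      have hD : ev Ψ (Fin b → F) D ≠ 0 := by
        intro h0; rw [h0, map_zero] at h2; exact h2 rfl
      obtain ⟨p, hp1, hp2, hp3⟩ := exists_block (isUnit_of_ev_ne_zero hΦ.nonunit hA)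
        (isUnit_of_ev_ne_zero hΨ.nonunit hD) B
      exact ⟨p, by simp only [hp1, hp2, hp3]⟩
    · intro p
      simp only [gg, theta]
      rw [← T_eq_E p.2, ev_eq_of_basis hΞ (bas F a b), toMatrix_T, map_mul]
      ring
  rw [hsum, Fintype.sum_prod_type]
  simp only [Fintype.sum_prod_type, gg]
  rw [card_P]
  push_cast
  rw [mul_inv, mul_assoc]
  congr 1
  rw [Finset.mul_sum]
  refine Finset.sum_congr rfl fun D _ => ?_
  rw [mul_assoc, Finset.sum_mul]
  congr 1
  refine Finset.sum_congr rfl fun A _ => ?_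
  rw [Finset.sum_mul]


end Cfsg.Agent.Lib.GLH.Adjoint
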