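import Cfsg.Agent.Lib.GLH.MonDefs

/-!
# Admissible pairs: combinatorics (for `Lib/GLH/Hecke`).

An admissible permutation is determined by its ascent set, any subset of the `n - 1` positions
occurs, it is `rev ∘ σ` where `σ` reverses each run, and admissible pairs are counted by
`|T| (|T| + 1) ^ (n - 1)`.
-/

set_option autoImplicit false

namespace Cfsg.Agent.Lib.GLH.AdmCount

open Cfsg.Agent.Lib.GLH.MonDefs

variable {T : Type*} {n : ℕ}

/-- The permutation part of admissibility. -/
def APerm (π : Equiv.Perm (Fin n)) : Prop :=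
  ∀ i j : Fin n, j.val = i.val + 1 → π j < π i ∨ (π j).val = (π i).val + 1

lemma aperm_of_adm {π : Equiv.Perm (Fin n)} {t : Fin n → T} (h : Adm π t) : APerm π := by
  intro i j hj
  rcases h i j hj with h1 | h1
  · exact Or.inl h1
  · exact Or.inr h1.1

theorem aperm_interval {π : Equiv.Perm (Fin n)} (h : APerm π) (d : ℕ) :
    ∀ i j : Fin n, j.val = i.val + d + 1 → π i < π j →
      ∀ k : Fin n, i ≤ k → k ≤ j → (π k).val = (π i).val + (k.val - i.val) := by
  induction d with
  | zero =>
    intro i j hj hlt k hik hkj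
    rw [Fin.le_def] at hik hkj
    rw [Fin.lt_def] at hlt
    have hk : k = i ∨ k = j := by
      by_cases hki : k.val = i.val
      · exact Or.inl (Fin.ext hki)
      · exact Or.inr (Fin.ext (by omega))
    rcases hk with rfl | rfl
    · simp
    · rcases h i k (by omega) with h1 | h1
      · rw [Fin.lt_def] at h1; omega
      · omega
  | succ d ih =>
    intro i j hj hlt k hik hkj
    have hin : i.val + 1 < n := by have := j.2; omega
    let i' : Fin n := ⟨i.val + 1, hin⟩
    have hi' : i'.val = i.val + 1 := rfl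
    rw [Fin.le_def] at hik hkj
    rw [Fin.lt_def] at hlt
    have hne : π i' ≠ π j := by
      intro he
      have := π.injective he
      have h2 : i'.val = j.val := congrArg Fin.val this
      omega
    rcases lt_or_gt_of_ne hne with hc | hc
    · have hI := ih i' j (by omega) hc
      rw [Fin.lt_def] at hc
      have hstep : (π i').val = (π i).val + 1 := by
        rcases h i i' hi' with h1 | h1
        · exfalso
          rw [Fin.lt_def] at h1
          -- `π i` is in the interval
          have hv : (π j).val = (π i').val + (j.val - i'.val) :=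
            hI j (by rw [Fin.le_def]; omega) le_rfl
          let c : Fin n := ⟨i'.val + ((π i).val - (π i').val), by have := j.2; omega⟩
          have hcv := hI c (by rw [Fin.le_def]; simp [c]) (by rw [Fin.le_def]; simp [c]; omega)
          have hcv' : (π c).val = (π i).val := by
            rw [hcv]; simp [c]; omega
          have hce : c = i := π.injective (Fin.ext hcv')
          have : c.val = i.val := congrArg Fin.val hce
          simp [c] at this
          omega
        · exact h1
      by_cases hki : k.val = i.val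
      · have : k = i := Fin.ext hki
        subst this
        simp
      · have := hI k (by rw [Fin.le_def]; omega) (by rw [Fin.le_def]; omega)
        omega
    · exfalso
      rw [Fin.lt_def] at hc
      rcases h i i' hi' with h1 | h1
      · rw [Fin.lt_def] at h1; omega
      · omega

/-- Any admissible `π` with `π i < π j`, `i < j`, goes up with slope one between them. -/
theorem adm_lt_eq {π : Equiv.Perm (Fin n)} {t : Fin n → T} (h : Adm π t) {i j : Fin n}
    (hij : i < j) (hlt : π i < π j) : (π j).val = (π i).val + (j.val - i.val) := by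
  rw [Fin.lt_def] at hij
  exact aperm_interval (aperm_of_adm h) (j.val - i.val - 1) i j (by omega) hlt j hij.le le_rfl

/-- Ascent set of a permutation, as a predicate on `ℕ`. -/
def Asc (π : Equiv.Perm (Fin n)) (k : ℕ) : Prop :=
  ∃ h : k + 1 < n, π ⟨k, by omega⟩ < π ⟨k + 1, h⟩

lemma lt_of_asc {π : Equiv.Perm (Fin n)} (d : ℕ) :
    ∀ i j : Fin n, j.val = i.val + d + 1 → (∀ k : ℕ, i.val ≤ k → k < j.val → Asc π k) → π i < π j := by
  induction d with
  | zero =>
    intro i j hj hA
    obtain ⟨h, h1⟩ := hA i.val le_rfl (by omega)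
    have e1 : (⟨i.val, by omega⟩ : Fin n) = i := rfl
    have e2 : (⟨i.val + 1, h⟩ : Fin n) = j := Fin.ext hj.symm
    rwa [e1, e2] at h1
  | succ d ih =>
    intro i j hj hA
    have hin : i.val + 1 < n := by have := j.2; omega
    obtain ⟨h, h1⟩ := hA i.val le_rfl (by omega)
    have h2 := ih ⟨i.val + 1, hin⟩ j (by simp; omega) (fun k hk hk' => hA k (by simp at hk; omega) hk')
    exact lt_trans h1 h2

lemma asc_of_lt {π : Equiv.Perm (Fin n)} (h : APerm π) {i j : Fin n} (hij : i < j) (hlt : π i < π j)
    (k : ℕ) (hk : i.val ≤ k) (hk' : k < j.val) : Asc π k := by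
  rw [Fin.lt_def] at hij
  have hI := aperm_interval h (j.val - i.val - 1) i j (by omega) hlt
  have hkn : k + 1 < n := by have := j.2; omega
  refine ⟨hkn, ?_⟩
  rw [Fin.lt_def]
  have e1 := hI ⟨k, by omega⟩ (by rw [Fin.le_def]; exact hk) (by rw [Fin.le_def]; simp; omega)
  have e2 := hI ⟨k + 1, hkn⟩ (by rw [Fin.le_def]; simp; omega) (by rw [Fin.le_def]; simp; omega)
  simp only at e1 e2
  omega

/-- An admissible permutation is determined by its ascent set. -/
theorem aperm_unique {π π' : Equiv.Perm (Fin n)} (h : APerm π) (h' : APerm π')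
    (hA : ∀ k, Asc π k ↔ Asc π' k) : π = π' := by
  have key : ∀ i j : Fin n, i < j → π i < π j → π' i < π' j := by
    intro i j hij hlt
    rw [Fin.lt_def] at hij
    apply lt_of_asc (j.val - i.val - 1) i j (by omega)
    intro k hk hk'
    exact (hA k).1 (asc_of_lt h (Fin.lt_def.2 hij) hlt k hk hk')
  have key' : ∀ i j : Fin n, i < j → π' i < π' j → π i < π j := by
    intro i j hij hlt
    rw [Fin.lt_def] at hij
    apply lt_of_asc (j.val - i.val - 1) i j (by omega)
    intro k hk hk'
    exact (hA k).2 (asc_of_lt h' (Fin.lt_def.2 hij) hlt k hk hk')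
  have hmono : StrictMono (fun x : Fin n => π' (π.symm x)) := by
    intro x y hxy
    show π' (π.symm x) < π' (π.symm y)
    set i := π.symm x with hi
    set j := π.symm y with hj
    have hx : π i = x := by simp [hi]
    have hy : π j = y := by simp [hj]
    have hne : i ≠ j := by
      intro he
      rw [he] at hx
      rw [hx] at hy
      exact hxy.ne hy
    rcases lt_or_gt_of_ne hne with hc | hc
    · exact key i j hc (by rw [hx, hy]; exact hxy)
    · by_contra hcon
      have hne' : π' i ≠ π' j := fun he => hne (π'.injective he)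
      have h3 : π' j < π' i := lt_of_le_of_ne (not_lt.1 hcon) hne'.symm
      have h4 := key' j i hc h3
      rw [hx, hy] at h4
      exact absurd hxy (not_lt.2 h4.le)
  have hid : (fun x : Fin n => π' (π.symm x)) = id := by
    apply (StrictMono.range_inj hmono strictMono_id).1
    rw [Set.range_id]
    exact Function.Surjective.range_eq ((π.symm.trans π').surjective)
  ext x
  have := congrFun hid (π x)
  simp at this
  rw [this]

/-! ### Construction from the ascent set -/

section Construct

open Classical

variable (L : ℕ → Prop)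

/-- Start of the run of `i`. -/
noncomputable def runA : ℕ → ℕ
  | 0 => 0
  | i + 1 => if L i then runA i else i + 1

lemma runA_le (i : ℕ) : runA L i ≤ i := by
  induction i with
  | zero => simp [runA]
  | succ i ih =>
    rw [runA]
    split_ifs <;> omega

lemma runA_succ_of (i : ℕ) (h : L i) : runA L (i + 1) = runA L i := by
  rw [runA, if_pos h]

lemma runA_succ_of_not (i : ℕ) (h : ¬ L i) : runA L (i + 1) = i + 1 := by
  rw [runA, if_neg h]

lemma runA_links (i k : ℕ) (h1 : runA L i ≤ k) (h2 : k < i) : L k := by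
  induction i with
  | zero => omega
  | succ i ih =>
    by_cases hi : L i
    · rw [runA_succ_of L i hi] at h1
      by_cases hk : k = i
      · rwa [hk]
      · exact ih h1 (by omega)
    · rw [runA_succ_of_not L i hi] at h1
      omega

variable {L} (hL : ∀ k, n ≤ k + 1 → ¬ L k)

include hL in
lemma runB_exists (i : ℕ) : ∃ c, i ≤ c ∧ ¬ L c :=
  ⟨max i n, le_max_left _ _, hL _ (by have := le_max_right i n; omega)⟩

/-- End of the run of `i`. -/
noncomputable def runB (i : ℕ) : ℕ := Nat.find (runB_exists hL i)

lemma le_runB (i : ℕ) : i ≤ runB hL i := (Nat.find_spec (runB_exists hL i)).1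

lemma not_L_runB (i : ℕ) : ¬ L (runB hL i) := (Nat.find_spec (runB_exists hL i)).2

lemma runB_links (i k : ℕ) (h1 : i ≤ k) (h2 : k < runB hL i) : L k := by
  by_contra hc
  exact Nat.find_min (runB_exists hL i) h2 ⟨h1, hc⟩

lemma runB_le {i c : ℕ} (h1 : i ≤ c) (h2 : ¬ L c) : runB hL i ≤ c :=
  Nat.find_min' (runB_exists hL i) ⟨h1, h2⟩

lemma runB_lt {i : ℕ} (hi : i < n) : runB hL i < n := by
  have : runB hL i ≤ n - 1 := runB_le hL (by omega) (hL _ (by omega))
  omega

lemma runB_succ_of (i : ℕ) (h : L i) : runB hL (i + 1) = runB hL i := by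
  apply le_antisymm
  · apply runB_le hL _ (not_L_runB hL i)
    have := le_runB hL i
    by_contra hc
    have h3 : runB hL i = i := by omega
    exact not_L_runB hL i (by rw [h3]; exact h)
  · exact runB_le hL (by have := le_runB hL (i + 1); omega) (not_L_runB hL (i + 1))

lemma runB_of_not (i : ℕ) (h : ¬ L i) : runB hL i = i :=
  le_antisymm (runB_le hL le_rfl h) (le_runB hL i)

/-- Runs are constant along links. -/
lemma run_const {x y : ℕ} (hxy : x ≤ y) (hl : ∀ k, x ≤ k → k < y → L k) :
    runA L y = runA L x ∧ runB hL y = runB hL x := by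
  induction y, hxy using Nat.le_induction with
  | base => exact ⟨rfl, rfl⟩
  | succ y hy ih =>
    obtain ⟨h1, h2⟩ := ih (fun k hk hk' => hl k hk (by omega))
    have hLy : L y := hl y hy (by omega)
    exact ⟨by rw [runA_succ_of L y hLy, h1], by rw [runB_succ_of hL y hLy, h2]⟩

/-- Reversal of each run. -/
noncomputable def sig (i : ℕ) : ℕ := runA L i + runB hL i - i

lemma sig_mem (i : ℕ) : runA L i ≤ sig hL i ∧ sig hL i ≤ runB hL i := by
  have h1 := runA_le L i
  have h2 := le_runB hL i
  unfold sig
  omega

lemma run_sig (i : ℕ) : runA L (sig hL i) = runA L i ∧ runB hL (sig hL i) = runB hL i := by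
  obtain ⟨h1, h2⟩ := sig_mem hL i
  have hA : ∀ c, runA L i ≤ c → c ≤ runB hL i → runA L c = runA L (runA L i) ∧
      runB hL c = runB hL (runA L i) := by
    intro c hc hc'
    apply run_const hL hc
    intro k hk hk'
    have hi := runA_le L i
    by_cases hki : k < i
    · exact runA_links L i k hk hki
    · exact runB_links hL i k (by omega) (by omega)
  have e1 := hA _ h1 h2
  have e2 := hA i (runA_le L i) (le_runB hL i)
  exact ⟨e1.1.trans e2.1.symm, e1.2.trans e2.2.symm⟩

lemma sig_sig (i : ℕ) : sig hL (sig hL i) = i := by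
  have h1 := runA_le L i
  have h2 := le_runB hL i
  obtain ⟨e1, e2⟩ := run_sig hL i
  show runA L (sig hL i) + runB hL (sig hL i) - sig hL i = i
  rw [e1, e2]
  unfold sig
  omega

lemma sig_lt {i : ℕ} (hi : i < n) : sig hL i < n := by
  have := (sig_mem hL i).2
  have := runB_lt hL hi
  omega

/-- The reversal as a permutation of `Fin n`. -/
noncomputable def sigPerm : Equiv.Perm (Fin n) where
  toFun i := ⟨sig hL i.val, sig_lt hL i.2⟩
  invFun i := ⟨sig hL i.val, sig_lt hL i.2⟩
  left_inv i := Fin.ext (sig_sig hL i.val)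
  right_inv i := Fin.ext (sig_sig hL i.val)

/-- The admissible permutation with ascent set `L`. -/
noncomputable def permOf : Equiv.Perm (Fin n) := (sigPerm hL).trans Fin.revPerm

lemma permOf_val (i : Fin n) : (permOf hL i).val = n - (sig hL i.val + 1) := by
  simp [permOf, sigPerm, Fin.val_rev]

lemma sig_step_link (i : ℕ) (h : L i) : sig hL (i + 1) + 1 = sig hL i := by
  have h1 := runA_le L i
  have h2 := le_runB hL (i + 1)
  have e1 := runA_succ_of L i h
  have e2 := runB_succ_of hL i h
  rw [e2] at h2
  unfold sig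
  rw [e1, e2]
  omega

lemma sig_step_not (i : ℕ) (h : ¬ L i) : sig hL i ≤ i ∧ i + 1 ≤ sig hL (i + 1) := by
  have h1 := runA_le L i
  have h2 := le_runB hL (i + 1)
  have e1 := runA_succ_of_not L i h
  have e2 := runB_of_not hL i h
  unfold sig
  rw [e1, e2]
  omega

lemma permOf_aperm : APerm (permOf hL) := by
  intro i j hj
  rw [Fin.lt_def, permOf_val, permOf_val, hj]
  have hi := sig_lt hL i.2
  have hj' := sig_lt hL j.2
  rw [hj] at hj'
  by_cases hLi : L i.val
  · right
    have := sig_step_link hL i.val hLi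
    omega
  · left
    have := sig_step_not hL i.val hLi
    omega

lemma permOf_asc (k : ℕ) : Asc (permOf hL) k ↔ L k := by
  constructor
  · rintro ⟨hk, h1⟩
    rw [Fin.lt_def, permOf_val, permOf_val] at h1
    by_contra hLk
    have h2 := sig_step_not hL k hLk
    have h3 := sig_lt hL (i := k + 1) hk
    simp only at h1
    omega
  · intro hLk
    have hk : k + 1 < n := by
      by_contra hc
      exact hL k (by omega) hLk
    refine ⟨hk, ?_⟩
    rw [Fin.lt_def, permOf_val, permOf_val]
    have h2 := sig_step_link hL k hLk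
    have h3 := sig_lt hL (i := k) (by omega)
    simp only
    omega

end Construct

/-! ### The involution -/

section Invol

open Classical

lemma asc_bound (π : Equiv.Perm (Fin n)) : ∀ k, n ≤ k + 1 → ¬ Asc π k := by
  rintro k hk ⟨h, _⟩
  omega

lemma eq_permOf {π : Equiv.Perm (Fin n)} (h : APerm π) : π = permOf (asc_bound π) :=
  aperm_unique h (permOf_aperm _) (fun k => ((permOf_asc _ k).symm))

lemma rev_permOf_val {L : ℕ → Prop} (hL : ∀ k, n ≤ k + 1 → ¬ L k) (i : Fin n) :
    (Fin.rev (permOf hL i)).val = sig hL i.val := by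
  rw [Fin.val_rev, permOf_val]
  have := sig_lt hL i.2
  omega

/-- The involution property of admissible permutations. -/
theorem adm_invol {π : Equiv.Perm (Fin n)} {t : Fin n → T} (h : Adm π t) (i : Fin n) :
    π (Fin.rev (π i)) = Fin.rev i := by
  obtain ⟨L, hL, rfl⟩ : ∃ (L : ℕ → Prop) (hL : ∀ k, n ≤ k + 1 → ¬ L k), π = permOf hL :=
    ⟨_, _, eq_permOf (aperm_of_adm h)⟩
  apply Fin.ext
  rw [permOf_val, rev_permOf_val, sig_sig, Fin.val_rev]

/-- `t` is constant along a chain of ascents. -/
lemma t_const {π : Equiv.Perm (Fin n)} {t : Fin n → T} (h : Adm π t) (d : ℕ) :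
    ∀ i j : Fin n, j.val = i.val + d → (∀ k, i.val ≤ k → k < j.val → Asc π k) → t i = t j := by
  induction d with
  | zero =>
    intro i j hj _
    rw [Fin.ext (hj.trans (add_zero _)) ]
  | succ d ih =>
    intro i j hj hA
    have hin : i.val + 1 < n := by have := j.2; omega
    obtain ⟨h0, h1⟩ := hA i.val le_rfl (by omega)
    have h2 := ih ⟨i.val + 1, hin⟩ j (by simp; omega) (fun k hk hk' => hA k (by simp at hk; omega) hk')
    have e1 : (⟨i.val, by omega⟩ : Fin n) = i := rfl
    rw [e1] at h1
    rcases h i ⟨i.val + 1, hin⟩ rfl with h3 | h3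
    · exact absurd h3 (not_lt.2 h1.le)
    · exact h3.2.trans h2

/-- `t` is invariant under the involution. -/
theorem adm_t_invol {π : Equiv.Perm (Fin n)} {t : Fin n → T} (h : Adm π t) (i : Fin n) :
    t (Fin.rev (π i)) = t i := by
  obtain ⟨L, hL, rfl⟩ : ∃ (L : ℕ → Prop) (hL : ∀ k, n ≤ k + 1 → ¬ L k), π = permOf hL :=
    ⟨_, _, eq_permOf (aperm_of_adm h)⟩
  have e2 := rev_permOf_val hL i
  have hlinks : ∀ k, runA L i.val ≤ k → k < runB hL i.val → Asc (permOf hL) k := by
    intro k hk hk'
    rw [permOf_asc]
    by_cases hki : k < i.val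
    · exact runA_links _ _ k hk hki
    · exact runB_links hL i.val k (by omega) hk'
  obtain ⟨h1, h2⟩ := sig_mem hL i.val
  have hi1 := runA_le L i.val
  have hi2 := le_runB hL i.val
  by_cases hc : (Fin.rev (permOf hL i)).val ≤ i.val
  · exact t_const h (i.val - (Fin.rev (permOf hL i)).val) _ _ (by omega)
      (fun k hk hk' => hlinks k (by omega) (by omega))
  · exact (t_const h ((Fin.rev (permOf hL i)).val - i.val) _ _ (by omega)
      (fun k hk hk' => hlinks k (by omega) (by omega))).symm

end Invol

/-! ### The count -/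

section Count

open Classical

variable {T : Type*}

/-- The `t` built from initial value `x` and data `f`. -/
noncomputable def ttN {m : ℕ} (x : T) (f : Fin m → Option T) : ℕ → T
  | 0 => x
  | i + 1 =>
    if h : i < m then
      match f ⟨i, h⟩ with
      | none => ttN x f i
      | some y => y
    else ttN x f i

lemma ttN_none {m : ℕ} (x : T) (f : Fin m → Option T) (i : ℕ) (h : i < m) (hf : f ⟨i, h⟩ = none) :
    ttN x f (i + 1) = ttN x f i := by
  rw [ttN, dif_pos h, hf]

lemma ttN_some {m : ℕ} (x : T) (f : Fin m → Option T) (i : ℕ) (h : i < m) (y : T)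
    (hf : f ⟨i, h⟩ = some y) : ttN x f (i + 1) = y := by
  rw [ttN, dif_pos h, hf]

/-- The link predicate of data `f`. -/
def linkOf {m : ℕ} (f : Fin m → Option T) (k : ℕ) : Prop :=
  ∃ h : k < m, f ⟨k, h⟩ = none

lemma linkOf_bound {m : ℕ} (f : Fin m → Option T) : ∀ k, m + 1 ≤ k + 1 → ¬ linkOf f k := by
  rintro k hk ⟨h, _⟩
  omega

/-- The pair with data `(x, f)`. -/
noncomputable def pairOf {m : ℕ} (x : T) (f : Fin m → Option T) :
    Equiv.Perm (Fin (m + 1)) × (Fin (m + 1) → T) :=
  (permOf (linkOf_bound f), fun i => ttN x f i.val)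

lemma pairOf_adm {m : ℕ} (x : T) (f : Fin m → Option T) :
    Adm (pairOf x f).1 (pairOf x f).2 := by
  intro i j hj
  have hA := permOf_aperm (linkOf_bound f) i j hj
  have him : i.val < m := by have := j.2; omega
  by_cases hf : f ⟨i.val, him⟩ = none
  · right
    have hl : linkOf f i.val := ⟨him, hf⟩
    have hasc := (permOf_asc (linkOf_bound f) i.val).2 hl
    obtain ⟨hlt, h1⟩ := hasc
    have e1 : (⟨i.val, by omega⟩ : Fin (m + 1)) = i := rfl
    have e2 : (⟨i.val + 1, hlt⟩ : Fin (m + 1)) = j := Fin.ext hj.symm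
    rw [e1, e2] at h1
    rcases hA with h2 | h2
    · exact absurd h2 (not_lt.2 h1.le)
    · refine ⟨h2, ?_⟩
      show ttN x f i.val = ttN x f j.val
      rw [hj, ttN_none x f i.val him hf]
  · left
    have hl : ¬ linkOf f i.val := fun ⟨_, h⟩ => hf h
    have hasc := mt (permOf_asc (linkOf_bound f) i.val).1 hl
    rcases hA with h2 | h2
    · exact h2
    · exfalso
      apply hasc
      refine ⟨by have := j.2; omega, ?_⟩
      have e2 : (⟨i.val + 1, by have := j.2; omega⟩ : Fin (m + 1)) = j := Fin.ext hj.symm
      rw [e2]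
      show (permOf (linkOf_bound f)) i < (permOf (linkOf_bound f)) j
      rw [Fin.lt_def]
      omega

/-- Data of an admissible pair. -/
noncomputable def dataOf {m : ℕ} (p : Equiv.Perm (Fin (m + 1)) × (Fin (m + 1) → T)) :
    T × (Fin m → Option T) :=
  (p.2 0, fun i => if p.1 i.castSucc < p.1 i.succ then none else some (p.2 i.succ))

lemma dataOf_pairOf {m : ℕ} (x : T) (f : Fin m → Option T) :
    dataOf (pairOf x f) = (x, f) := by
  unfold dataOf
  ext1
  · show ttN x f 0 = x
    rfl
  · funext i
    show (if (permOf (linkOf_bound f)) i.castSucc < (permOf (linkOf_bound f)) i.succ then none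
      else some (ttN x f (i.succ).val)) = f i
    have hasc := permOf_asc (linkOf_bound f) i.val
    have hiff : (permOf (linkOf_bound f)) i.castSucc < (permOf (linkOf_bound f)) i.succ ↔
        linkOf f i.val := by
      rw [← hasc]
      constructor
      · intro h
        exact ⟨by have := i.2; omega, h⟩
      · rintro ⟨_, h⟩
        exact h
    by_cases hf : f i = none
    · rw [if_pos (hiff.2 ⟨i.2, hf⟩), hf]
    · have hl : ¬ linkOf f i.val := fun ⟨_, h⟩ => hf h
      rw [if_neg (mt hiff.1 hl)]
      obtain ⟨y, hy⟩ := Option.ne_none_iff_exists'.1 hf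
      rw [hy]
      congr 1
      exact ttN_some x f i.val i.2 y hy

lemma pairOf_dataOf {m : ℕ} (p : Equiv.Perm (Fin (m + 1)) × (Fin (m + 1) → T))
    (hp : Adm p.1 p.2) : pairOf (dataOf p).1 (dataOf p).2 = p := by
  obtain ⟨π, t⟩ := p
  simp only at hp
  have hf : ∀ (k : ℕ) (h : k < m), (dataOf (π, t)).2 ⟨k, h⟩ =
      if π ⟨k, by omega⟩ < π ⟨k + 1, by omega⟩ then none else some (t ⟨k + 1, by omega⟩) := by
    intro k h
    rfl
  have hlink : ∀ k, linkOf (dataOf (π, t)).2 k ↔ Asc π k := by
    intro k
    constructor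
    · rintro ⟨h, h1⟩
      rw [hf k h] at h1
      refine ⟨by omega, ?_⟩
      by_contra hc
      rw [if_neg hc] at h1
      simp at h1
    · rintro ⟨h, h1⟩
      have hk : k < m := by omega
      refine ⟨hk, ?_⟩
      rw [hf k hk, if_pos h1]
  have ht : ∀ (k : ℕ) (h : k < m + 1), ttN (dataOf (π, t)).1 (dataOf (π, t)).2 k = t ⟨k, h⟩ := by
    intro k
    induction k with
    | zero =>
      intro _
      rfl
    | succ k ih =>
      intro h
      have hk : k < m := by omega
      by_cases hc : π ⟨k, by omega⟩ < π ⟨k + 1, by omega⟩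
      · rw [ttN_none _ _ k hk (by rw [hf k hk, if_pos hc]), ih (by omega)]
        rcases hp ⟨k, by omega⟩ ⟨k + 1, by omega⟩ rfl with h2 | h2
        · exact absurd h2 (not_lt.2 hc.le)
        · exact h2.2
      · exact ttN_some _ _ k hk _ (by rw [hf k hk, if_neg hc])
  apply Prod.ext
  · show permOf (linkOf_bound (dataOf (π, t)).2) = π
    symm
    apply aperm_unique (aperm_of_adm hp) (permOf_aperm _)
    intro k
    rw [permOf_asc, hlink]
  · funext i
    exact ht i.val i.2

/-- Admissible pairs for `n = m + 1`. -/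
noncomputable def admEquiv (m : ℕ) :
    {p : Equiv.Perm (Fin (m + 1)) × (Fin (m + 1) → T) // Adm p.1 p.2} ≃ T × (Fin m → Option T) where
  toFun p := dataOf p.1
  invFun d := ⟨pairOf d.1 d.2, pairOf_adm d.1 d.2⟩
  left_inv p := Subtype.ext (pairOf_dataOf p.1 p.2)
  right_inv d := dataOf_pairOf d.1 d.2

/-- The number of admissible pairs. -/
theorem card_adm {T : Type*} [Finite T] {n : ℕ} (hn : 1 ≤ n) :
    Nat.card {p : Equiv.Perm (Fin n) × (Fin n → T) // Adm p.1 p.2} =
      Nat.card T * (Nat.card T + 1) ^ (n - 1) := by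
  obtain ⟨m, rfl⟩ : ∃ m, n = m + 1 := ⟨n - 1, by omega⟩
  rw [Nat.card_congr (admEquiv m), Nat.card_prod, Nat.card_fun, Finite.card_option]
  simp

end Count

end Cfsg.Agent.Lib.GLH.AdmCount
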