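import Cfsg.Agent.Lib.GLH.Der
import Cfsg.Agent.Lib.Char.Complete
import Mathlib

/-!
# Bridge between the matrix cuspidality `Cusp` and the block cuspidality `IsCusp`.
-/

set_option autoImplicit false
set_option linter.unusedSectionVars false

namespace Cfsg.Agent.Lib.GLH.Bridge

open Matrix Module Cfsg.Agent.Lib.GLH.Defs Cfsg.Agent.Lib.GLH.Ev Cfsg.Agent.Lib.GLH.Der
open scoped ComplexConjugate

universe u

variable {F : Type u} [Field F] [Fintype F]

section famOf

variable {n : ℕ} {χ : GL (Fin n) F → ℂ}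

lemma famOf_same (χ : GL (Fin n) F → ℂ) (M : Matrix (Fin n) (Fin n) F) :
    famOf χ n M = ext0 χ M := by
  unfold famOf
  rw [dif_pos rfl]

lemma ext0_coe (χ : GL (Fin n) F → ℂ) (g : GL (Fin n) F) :
    ext0 χ (g : Matrix (Fin n) (Fin n) F) = χ g := by
  unfold ext0
  rw [dif_pos g.isUnit]
  congr 1
  exact Units.ext rfl

lemma ext0_not_unit (χ : GL (Fin n) F → ℂ) {M : Matrix (Fin n) (Fin n) F} (h : ¬ IsUnit M) :
    ext0 χ M = 0 := by
  unfold ext0
  rw [dif_neg h]

lemma isCl_famOf (hcl : Cfsg.IsClassFunction _ χ) : IsCl (famOf χ) := by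
  intro m P M
  by_cases hm : m = n
  · subst hm
    rw [famOf_same, famOf_same]
    by_cases hM : IsUnit M
    · obtain ⟨u, rfl⟩ := hM
      have : (P : Matrix (Fin m) (Fin m) F) * (u : Matrix (Fin m) (Fin m) F) *
          ((P⁻¹ : GL (Fin m) F) : Matrix (Fin m) (Fin m) F) =
          ((P * u * P⁻¹ : GL (Fin m) F) : Matrix (Fin m) (Fin m) F) := by
        simp only [Units.val_mul]
      rw [this, ext0_coe, ext0_coe]
      exact hcl u P
    · rw [ext0_not_unit χ hM, ext0_not_unit]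
      intro h
      apply hM
      have h1 : ((P⁻¹ : GL (Fin m) F) : Matrix (Fin m) (Fin m) F) *
          ((P : Matrix (Fin m) (Fin m) F) * M *
            ((P⁻¹ : GL (Fin m) F) : Matrix (Fin m) (Fin m) F)) *
          (P : Matrix (Fin m) (Fin m) F) = M := by
        have h2 : ((P⁻¹ : GL (Fin m) F) : Matrix (Fin m) (Fin m) F) *
            (P : Matrix (Fin m) (Fin m) F) = 1 := Units.inv_mul P
        calc _ = (((P⁻¹ : GL (Fin m) F) : Matrix (Fin m) (Fin m) F) *
              (P : Matrix (Fin m) (Fin m) F)) * M *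
              (((P⁻¹ : GL (Fin m) F) : Matrix (Fin m) (Fin m) F) *
              (P : Matrix (Fin m) (Fin m) F)) := by simp only [Matrix.mul_assoc]
          _ = M := by rw [h2, Matrix.one_mul, Matrix.mul_one]
      rw [← h1]
      exact ((P⁻¹ : GL (Fin m) F).isUnit.mul h).mul P.isUnit
  · unfold famOf
    rw [dif_neg hm, dif_neg hm]

lemma ev_famOf_coord (hcl : Cfsg.IsClassFunction _ χ) (D : (Fin n → F) →ₗ[F] (Fin n → F)) :
    ev (famOf χ) (Fin n → F) D = ext0 χ (LinearMap.toMatrix' D) := by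
  rw [ev_eq_of_basis (isCl_famOf hcl) (Pi.basisFun F (Fin n)) D, famOf_same,
    LinearMap.toMatrix_eq_toMatrix']

end famOf

section eqv

variable {a b : ℕ}

/-- `(x, y) ↦ x ++ y`. -/
def eqv (F : Type u) [Field F] (a b : ℕ) : ((Fin a → F) × (Fin b → F)) ≃ₗ[F] (Fin (a + b) → F) where
  toFun p := Fin.append p.1 p.2
  invFun z := (fun i => z (Fin.castAdd b i), fun j => z (Fin.natAdd a j))
  map_add' p q := by
    funext i
    refine Fin.addCases (fun i => ?_) (fun j => ?_) i <;> simp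
  map_smul' c p := by
    funext i
    refine Fin.addCases (fun i => ?_) (fun j => ?_) i <;> simp
  left_inv p := by
    ext i <;> simp
  right_inv z := by
    funext i
    refine Fin.addCases (fun i => ?_) (fun j => ?_) i <;> simp

@[simp] lemma eqv_castAdd (p : (Fin a → F) × (Fin b → F)) (i : Fin a) :
    eqv F a b p (Fin.castAdd b i) = p.1 i := by
  simp [eqv]

@[simp] lemma eqv_natAdd (p : (Fin a → F) × (Fin b → F)) (j : Fin b) :
    eqv F a b p (Fin.natAdd a j) = p.2 j := by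
  simp [eqv]

@[simp] lemma eqv_symm_fst (z : Fin (a + b) → F) (i : Fin a) :
    ((eqv F a b).symm z).1 i = z (Fin.castAdd b i) := rfl

@[simp] lemma eqv_symm_snd (z : Fin (a + b) → F) (j : Fin b) :
    ((eqv F a b).symm z).2 j = z (Fin.natAdd a j) := rfl

/-- A matrix acting on the block decomposition. -/
noncomputable def lin (g : Matrix (Fin (a + b)) (Fin (a + b)) F) :
    ((Fin a → F) × (Fin b → F)) →ₗ[F] ((Fin a → F) × (Fin b → F)) :=
  ((eqv F a b).symm : (Fin (a + b) → F) →ₗ[F] _) ∘ₗ Matrix.toLin' g ∘ₗ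
    ((eqv F a b) : _ →ₗ[F] (Fin (a + b) → F))

lemma eqv_lin (g : Matrix (Fin (a + b)) (Fin (a + b)) F) (p : (Fin a → F) × (Fin b → F)) :
    eqv F a b (lin g p) = g *ᵥ eqv F a b p := by
  simp [lin]

lemma lin_mul (g h : Matrix (Fin (a + b)) (Fin (a + b)) F) : lin (g * h) = lin g ∘ₗ lin h := by
  ext p <;> simp [lin, Matrix.mulVec_mulVec]

lemma ev_of_lin {χ : GL (Fin (a + b)) F → ℂ} (hcl : Cfsg.IsClassFunction _ χ)
    (g : Matrix (Fin (a + b)) (Fin (a + b)) F) :
    ev (famOf χ) ((Fin a → F) × (Fin b → F)) (lin g) = ext0 χ g := by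
  rw [ev_congr (isCl_famOf hcl) (eqv F a b) (lin g) (Matrix.toLin' g)
    (fun v => by rw [eqv_lin, Matrix.toLin'_apply]), ev_famOf_coord hcl,
    LinearMap.toMatrix'_toLin']

lemma eqv_symm_snd_lin (g : Matrix (Fin (a + b)) (Fin (a + b)) F) (p : (Fin a → F) × (Fin b → F))
    (j : Fin b) : (lin g p).2 j = (g *ᵥ eqv F a b p) (Fin.natAdd a j) := by
  rw [← eqv_lin, eqv_natAdd]

lemma eqv_symm_fst_lin (g : Matrix (Fin (a + b)) (Fin (a + b)) F) (p : (Fin a → F) × (Fin b → F))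
    (i : Fin a) : (lin g p).1 i = (g *ᵥ eqv F a b p) (Fin.castAdd b i) := by
  rw [← eqv_lin, eqv_castAdd]

/-- Surjectivity of `lin`. -/
lemma exists_lin (L : ((Fin a → F) × (Fin b → F)) →ₗ[F] ((Fin a → F) × (Fin b → F))) :
    ∃ g : Matrix (Fin (a + b)) (Fin (a + b)) F, lin g = L := by
  refine ⟨LinearMap.toMatrix' (((eqv F a b) : _ →ₗ[F] (Fin (a + b) → F)) ∘ₗ L ∘ₗ
    ((eqv F a b).symm : (Fin (a + b) → F) →ₗ[F] _)), ?_⟩
  ext p <;> simp [lin]

end eqv


section part1

variable {a b : ℕ}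

lemma lin_inj {g h : Matrix (Fin (a + b)) (Fin (a + b)) F} (H : lin g = lin h) : g = h := by
  apply Matrix.toLin'.injective
  ext z i
  · have h1 := congrArg (fun L => eqv F a b (L ((eqv F a b).symm (Pi.single z 1)))) H
    simp only [eqv_lin, LinearEquiv.apply_symm_apply] at h1
    simpa using congrFun h1 i

lemma lin_one : lin (1 : Matrix (Fin (a + b)) (Fin (a + b)) F) = LinearMap.id := by
  ext p <;> simp [lin]

lemma lin_snd_inl (g : Matrix (Fin (a + b)) (Fin (a + b)) F)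
    (h0 : ∀ i j : Fin (a + b), a ≤ i.val → j.val < a → g i j = 0) (x : Fin a → F) :
    (lin g (x, 0)).2 = 0 := by
  funext j
  rw [eqv_symm_snd_lin]
  rw [Matrix.mulVec, dotProduct, Fin.sum_univ_add]
  simp only [eqv_castAdd, eqv_natAdd, Pi.zero_apply, mul_zero, Finset.sum_const_zero, add_zero]
  refine Finset.sum_eq_zero fun k _ => ?_
  rw [h0 _ _ (by simp) (by simp), zero_mul]


/-- Matrices of `N`, as a predicate on matrices. -/
def InN (x : Matrix (Fin (a + b)) (Fin (a + b)) F) : Prop :=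
  ∀ i j : Fin (a + b), ¬ (i.val < a ∧ a ≤ j.val) →
    x i j = (1 : Matrix (Fin (a + b)) (Fin (a + b)) F) i j

lemma InN.low {x : Matrix (Fin (a + b)) (Fin (a + b)) F} (hx : InN x) (z : Fin (a + b) → F)
    (i : Fin (a + b)) (hi : a ≤ i.val) : (x *ᵥ z) i = z i := by
  have : (x *ᵥ z) i = ((1 : Matrix (Fin (a + b)) (Fin (a + b)) F) *ᵥ z) i := by
    rw [Matrix.mulVec, Matrix.mulVec, dotProduct, dotProduct]
    refine Finset.sum_congr rfl fun k _ => ?_
    rw [hx i k (by omega)]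
  rw [this, Matrix.one_mulVec]

lemma InN.top {x : Matrix (Fin (a + b)) (Fin (a + b)) F} (hx : InN x) (z : Fin (a + b) → F)
    (hz : ∀ k : Fin (a + b), a ≤ k.val → z k = 0) (i : Fin (a + b)) : (x *ᵥ z) i = z i := by
  have : (x *ᵥ z) i = ((1 : Matrix (Fin (a + b)) (Fin (a + b)) F) *ᵥ z) i := by
    rw [Matrix.mulVec, Matrix.mulVec, dotProduct, dotProduct]
    refine Finset.sum_congr rfl fun k _ => ?_
    by_cases hk : a ≤ k.val
    · rw [hz k hk, mul_zero, mul_zero]
    · rw [hx i k (by omega)]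
  rw [this, Matrix.one_mulVec]

lemma eqv_zero_right (u : Fin a → F) (k : Fin (a + b)) (hk : a ≤ k.val) :
    eqv F a b (u, 0) k = 0 := by
  obtain ⟨j, rfl⟩ : ∃ j : Fin b, k = Fin.natAdd a j :=
    ⟨⟨k.val - a, by omega⟩, Fin.ext (by simp; omega)⟩
  simp

/-- The element of `Hom(Y, X)` of `x ∈ N`. -/
noncomputable def nB (x : Matrix (Fin (a + b)) (Fin (a + b)) F) : (Fin b → F) →ₗ[F] (Fin a → F) :=
  LinearMap.fst F _ _ ∘ₗ lin x ∘ₗ LinearMap.inr F _ _

lemma lin_of_N {x : Matrix (Fin (a + b)) (Fin (a + b)) F} (hx : InN x) :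
    lin x = E LinearMap.id (nB x) LinearMap.id := by
  have h1 : ∀ u : Fin a → F, lin x (u, 0) = (u, 0) := by
    intro u
    ext i
    · rw [eqv_symm_fst_lin, hx.top _ (eqv_zero_right u), eqv_castAdd]
    · rw [eqv_symm_snd_lin, hx.low _ _ (by simp), eqv_natAdd]
  have h2 : ∀ v : Fin b → F, (lin x (0, v)).2 = v := by
    intro v
    funext j
    rw [eqv_symm_snd_lin, hx.low _ _ (by simp), eqv_natAdd]
  refine LinearMap.ext fun p => ?_
  obtain ⟨u, v⟩ := p
  have hp : ((u, v) : (Fin a → F) × (Fin b → F)) = (u, 0) + (0, v) := by simp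
  rw [hp, map_add, h1]
  apply Prod.ext
  · simp [nB]
  · simp [h2]

/-- The matrix of `E 1 B 1`. -/
noncomputable def phiMat (B : (Fin b → F) →ₗ[F] (Fin a → F)) :
    Matrix (Fin (a + b)) (Fin (a + b)) F :=
  LinearMap.toMatrix' (((eqv F a b) : _ →ₗ[F] (Fin (a + b) → F)) ∘ₗ
    E LinearMap.id B LinearMap.id ∘ₗ ((eqv F a b).symm : (Fin (a + b) → F) →ₗ[F] _))

lemma lin_phiMat (B : (Fin b → F) →ₗ[F] (Fin a → F)) :
    lin (phiMat B) = E LinearMap.id B LinearMap.id := by
  refine LinearMap.ext fun p => ?_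
  simp [lin, phiMat]

lemma phiMat_mul (B B' : (Fin b → F) →ₗ[F] (Fin a → F)) :
    phiMat B * phiMat B' = phiMat (B + B') := by
  apply lin_inj
  rw [lin_mul, lin_phiMat, lin_phiMat, lin_phiMat]
  refine LinearMap.ext fun p => ?_
  apply Prod.ext
  · simp only [LinearMap.comp_apply, E_apply, LinearMap.id_apply, map_add, LinearMap.add_apply]
    abel
  · simp

lemma phiMat_zero : (phiMat 0 : Matrix (Fin (a + b)) (Fin (a + b)) F) = 1 := by
  apply lin_inj
  rw [lin_phiMat, lin_one]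
  refine LinearMap.ext fun p => ?_
  simp

/-- `E 1 B 1` as an element of `GL`. -/
noncomputable def phiU (B : (Fin b → F) →ₗ[F] (Fin a → F)) : GL (Fin (a + b)) F where
  val := phiMat B
  inv := phiMat (-B)
  val_inv := by rw [phiMat_mul, add_neg_cancel, phiMat_zero]
  inv_val := by rw [phiMat_mul, neg_add_cancel, phiMat_zero]

lemma phiMat_inN (B : (Fin b → F) →ₗ[F] (Fin a → F)) : InN (phiMat B) := by
  intro i j hij
  have key : ∀ z : Fin (a + b) → F, phiMat B *ᵥ z =
      eqv F a b (E LinearMap.id B LinearMap.id ((eqv F a b).symm z)) := by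
    intro z
    have := eqv_lin (phiMat B) ((eqv F a b).symm z)
    rw [lin_phiMat, LinearEquiv.apply_symm_apply] at this
    exact this.symm
  have h1 : phiMat B i j = (phiMat B *ᵥ Pi.single j 1) i := by
    simp
  rw [h1, key]
  by_cases hi : a ≤ i.val
  · obtain ⟨i', rfl⟩ : ∃ i' : Fin b, i = Fin.natAdd a i' :=
      ⟨⟨i.val - a, by omega⟩, Fin.ext (by simp; omega)⟩
    rw [eqv_natAdd]
    simp [Matrix.one_apply, Pi.single_apply]
  · have hj : j.val < a := by omega
    obtain ⟨i', rfl⟩ : ∃ i' : Fin a, i = Fin.castAdd b i' :=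
      ⟨⟨i.val, by omega⟩, Fin.ext (by simp)⟩
    rw [eqv_castAdd]
    have h0 : ((eqv F a b).symm (Pi.single j 1)).2 = 0 := by
      funext k
      rw [eqv_symm_snd]
      rw [Pi.single_apply, if_neg]
      · rfl
      · intro h
        have := congrArg Fin.val h
        simp at this
        omega
    simp [E_apply, h0, Matrix.one_apply, Pi.single_apply]

/-- The cuspidality sums agree. -/
theorem cusp_block {χ : GL (Fin (a + b)) F → ℂ} (hcl : Cfsg.IsClassFunction _ χ) (h : IsCusp χ)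
    (ha : 0 < a) (hb : 0 < b) (g : GL (Fin (a + b)) F)
    (h0 : ∀ i j : Fin (a + b), a ≤ i.val → j.val < a → (g : Matrix (Fin (a + b)) (Fin (a + b)) F) i j = 0) :
    ∑ᶠ x : N (F := F) (a + b) a, χ (g * x) = 0 := by
  set gM : Matrix (Fin (a + b)) (Fin (a + b)) F := (g : Matrix (Fin (a + b)) (Fin (a + b)) F) with hgM
  set A : (Fin a → F) →ₗ[F] (Fin a → F) := LinearMap.fst F _ _ ∘ₗ lin gM ∘ₗ LinearMap.inl F _ _ with hA
  set B₀ : (Fin b → F) →ₗ[F] (Fin a → F) := LinearMap.fst F _ _ ∘ₗ lin gM ∘ₗ LinearMap.inr F _ _ with hB₀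
  set D : (Fin b → F) →ₗ[F] (Fin b → F) := LinearMap.snd F _ _ ∘ₗ lin gM ∘ₗ LinearMap.inr F _ _ with hD
  have hlin : lin gM = E A B₀ D := by
    refine LinearMap.ext fun p => ?_
    obtain ⟨u, v⟩ := p
    have hp : ((u, v) : (Fin a → F) × (Fin b → F)) = (u, 0) + (0, v) := by simp
    rw [hp, map_add]
    apply Prod.ext
    · simp [hA, hB₀]
    · simp [hD, lin_snd_inl gM h0 u]
  -- `A` is injective
  have hginj : Function.Injective (lin gM) := by
    have h1 : lin (((g⁻¹ : GL (Fin (a + b)) F) : Matrix (Fin (a + b)) (Fin (a + b)) F)) ∘ₗ lin gM =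
        LinearMap.id := by
      rw [← lin_mul, Units.inv_mul, lin_one]
    intro p q hpq
    have := congrArg (lin (((g⁻¹ : GL (Fin (a + b)) F) : Matrix (Fin (a + b)) (Fin (a + b)) F))) hpq
    have h2 := LinearMap.congr_fun h1 p
    have h3 := LinearMap.congr_fun h1 q
    simp only [LinearMap.comp_apply, LinearMap.id_apply] at h2 h3
    rwa [h2, h3] at this
  have hAinj : Function.Injective A := by
    rw [injective_iff_map_eq_zero]
    intro x hx
    have h1 : lin gM (x, 0) = 0 := by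
      apply Prod.ext
      · simpa [hA] using hx
      · simpa using lin_snd_inl gM h0 x
    have h2 : ((x, 0) : (Fin a → F) × (Fin b → F)) = 0 :=
      hginj (by rw [h1, map_zero])
    exact congrArg Prod.fst h2
  -- The bijection `Hom(Y, X) → N`.
  let φ : ((Fin b → F) →ₗ[F] (Fin a → F)) → N (F := F) (a + b) a :=
    fun B => ⟨phiU B, phiMat_inN B⟩
  have hφ : Function.Bijective φ := by
    constructor
    · intro B B' hBB
      have h1 : phiMat B = phiMat B' := congrArg (fun x : N (F := F) (a + b) a =>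
        ((x : GL (Fin (a + b)) F) : Matrix (Fin (a + b)) (Fin (a + b)) F)) hBB
      have h2 := congrArg lin h1
      rw [lin_phiMat, lin_phiMat] at h2
      refine LinearMap.ext fun y => ?_
      have := congrArg Prod.fst (LinearMap.congr_fun h2 (0, y))
      simpa using this
    · intro x
      have hx : InN (x.1 : Matrix (Fin (a + b)) (Fin (a + b)) F) := x.2
      refine ⟨nB (x.1 : Matrix (Fin (a + b)) (Fin (a + b)) F), ?_⟩
      apply Subtype.ext
      apply Units.ext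
      show phiMat _ = _
      apply lin_inj
      rw [lin_phiMat, lin_of_N hx]
  have hsum : ∀ B, χ (g * (φ B : GL (Fin (a + b)) F)) =
      ev (famOf χ) ((Fin a → F) × (Fin b → F)) (E A (A ∘ₗ B + B₀) D) := by
    intro B
    have h1 : lin (gM * phiMat B) = E A (A ∘ₗ B + B₀) D := by
      rw [lin_mul, lin_phiMat, hlin]
      refine LinearMap.ext fun p => ?_
      apply Prod.ext
      · simp only [LinearMap.comp_apply, E_apply, LinearMap.id_apply, map_add, LinearMap.add_apply]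
        abel
      · simp
    rw [← h1, ev_of_lin hcl]
    have h2 : gM * phiMat B = ((g * phiU B : GL (Fin (a + b)) F) :
        Matrix (Fin (a + b)) (Fin (a + b)) F) := rfl
    rw [h2, ext0_coe]
  rw [← finsum_comp φ hφ]
  simp_rw [hsum]
  -- The bijection `B ↦ A B + B₀`.
  have hbij : Function.Bijective (fun B : (Fin b → F) →ₗ[F] (Fin a → F) => A ∘ₗ B + B₀) := by
    let eA : (Fin a → F) ≃ₗ[F] (Fin a → F) := LinearEquiv.ofInjectiveEndo A hAinj
    constructor
    · intro B B' hBB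
      have h1 : A ∘ₗ B = A ∘ₗ B' := add_right_cancel hBB
      refine LinearMap.ext fun y => hAinj ?_
      exact LinearMap.congr_fun h1 y
    · intro B'
      refine ⟨(eA.symm : (Fin a → F) →ₗ[F] (Fin a → F)) ∘ₗ (B' - B₀), ?_⟩
      refine LinearMap.ext fun y => ?_
      have : A (eA.symm ((B' - B₀) y)) = (B' - B₀) y := by
        have := eA.apply_symm_apply ((B' - B₀) y)
        simpa [eA] using this
      show A (eA.symm ((B' - B₀) y)) + B₀ y = B' y
      rw [this]
      simp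
  exact (finsum_comp (g := fun B' => ev (famOf χ) ((Fin a → F) × (Fin b → F)) (E A B' D)) _
    hbij).trans (h a b ha hb rfl A D)

end part1

/-- Matrix cuspidality from block cuspidality. -/
theorem cusp_of_isCusp {n : ℕ} {χ : GL (Fin n) F → ℂ} (hcl : Cfsg.IsClassFunction _ χ)
    (h : IsCusp χ) : Cusp χ := by
  intro c hc0 hc g hg
  obtain ⟨b, rfl⟩ : ∃ b, n = c + b := ⟨n - c, by omega⟩
  exact cusp_block hcl h hc0 (by omega) g hg


section part2

variable {a b : ℕ}

/-- `f A D = ∑_B ev (E A B D)`. -/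
noncomputable def fAD (χ : GL (Fin (a + b)) F → ℂ) (A : (Fin a → F) →ₗ[F] (Fin a → F))
    (D : (Fin b → F) →ₗ[F] (Fin b → F)) : ℂ :=
  ∑ᶠ B : (Fin b → F) →ₗ[F] (Fin a → F), ev (famOf χ) ((Fin a → F) × (Fin b → F)) (E A B D)

lemma fAD_conj_left {χ : GL (Fin (a + b)) F → ℂ} (hcl : Cfsg.IsClassFunction _ χ)
    (P : (Fin a → F) ≃ₗ[F] (Fin a → F)) (A A' : (Fin a → F) →ₗ[F] (Fin a → F))
    (D : (Fin b → F) →ₗ[F] (Fin b → F)) (h : ∀ x, A' (P x) = P (A x)) :
    fAD χ A' D = fAD χ A D := by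
  unfold fAD
  have h1 : ∀ B : (Fin b → F) →ₗ[F] (Fin a → F),
      ev (famOf χ) ((Fin a → F) × (Fin b → F)) (E A B D) =
        ev (famOf χ) ((Fin a → F) × (Fin b → F)) (E A' ((P : (Fin a → F) →ₗ[F] (Fin a → F)) ∘ₗ B) D) := by
    intro B
    refine ev_congr (isCl_famOf hcl) (P.prodCongr (LinearEquiv.refl F (Fin b → F))) _ _ ?_
    intro v
    apply Prod.ext
    · simp [h]
    · simp
  simp_rw [h1]
  have hbij : Function.Bijective (fun B : (Fin b → F) →ₗ[F] (Fin a → F) =>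
      (P : (Fin a → F) →ₗ[F] (Fin a → F)) ∘ₗ B) := by
    constructor
    · intro B B' hBB
      refine LinearMap.ext fun y => P.injective ?_
      exact LinearMap.congr_fun hBB y
    · intro B'
      refine ⟨(P.symm : (Fin a → F) →ₗ[F] (Fin a → F)) ∘ₗ B', ?_⟩
      refine LinearMap.ext fun y => ?_
      simp
  exact (finsum_comp (g := fun B' => ev (famOf χ) ((Fin a → F) × (Fin b → F)) (E A' B' D)) _
    hbij).symm

lemma fAD_conj_right {χ : GL (Fin (a + b)) F → ℂ} (hcl : Cfsg.IsClassFunction _ χ)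
    (Q : (Fin b → F) ≃ₗ[F] (Fin b → F)) (A : (Fin a → F) →ₗ[F] (Fin a → F))
    (D D' : (Fin b → F) →ₗ[F] (Fin b → F)) (h : ∀ y, D' (Q y) = Q (D y)) :
    fAD χ A D' = fAD χ A D := by
  unfold fAD
  have h1 : ∀ B : (Fin b → F) →ₗ[F] (Fin a → F),
      ev (famOf χ) ((Fin a → F) × (Fin b → F)) (E A B D) =
        ev (famOf χ) ((Fin a → F) × (Fin b → F)) (E A (B ∘ₗ (Q.symm : (Fin b → F) →ₗ[F] (Fin b → F))) D') := by
    intro B
    refine ev_congr (isCl_famOf hcl) ((LinearEquiv.refl F (Fin a → F)).prodCongr Q) _ _ ?_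
    intro v
    apply Prod.ext
    · simp
    · simp [h]
  simp_rw [h1]
  have hbij : Function.Bijective (fun B : (Fin b → F) →ₗ[F] (Fin a → F) =>
      B ∘ₗ (Q.symm : (Fin b → F) →ₗ[F] (Fin b → F))) := by
    constructor
    · intro B B' hBB
      refine LinearMap.ext fun y => ?_
      have := LinearMap.congr_fun hBB (Q y)
      simpa using this
    · intro B'
      refine ⟨B' ∘ₗ (Q : (Fin b → F) →ₗ[F] (Fin b → F)), ?_⟩
      refine LinearMap.ext fun y => ?_
      simp
  exact (finsum_comp (g := fun B' => ev (famOf χ) ((Fin a → F) × (Fin b → F)) (E A B' D')) _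
    hbij).symm

/-- A linear equivalence of a matrix unit. -/
noncomputable def leq {m : ℕ} (h : GL (Fin m) F) : (Fin m → F) ≃ₗ[F] (Fin m → F) :=
  LinearEquiv.ofLinearMap (Matrix.toLin' (h : Matrix (Fin m) (Fin m) F))
    (Matrix.toLin' ((h⁻¹ : GL (Fin m) F) : Matrix (Fin m) (Fin m) F))
    (by rw [← Matrix.toLin'_mul, Units.mul_inv, Matrix.toLin'_one])
    (by rw [← Matrix.toLin'_mul, Units.inv_mul, Matrix.toLin'_one])

lemma leq_apply {m : ℕ} (h : GL (Fin m) F) (x : Fin m → F) :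
    leq h x = (h : Matrix (Fin m) (Fin m) F) *ᵥ x := rfl

lemma toLin_conj {m : ℕ} (h w : GL (Fin m) F) (x : Fin m → F) :
    Matrix.toLin' ((h * w * h⁻¹ : GL (Fin m) F) : Matrix (Fin m) (Fin m) F) (leq h x) =
      leq h (Matrix.toLin' (w : Matrix (Fin m) (Fin m) F) x) := by
  simp only [Matrix.toLin'_apply, leq_apply, Units.val_mul, Matrix.mulVec_mulVec]
  congr 1
  rw [Matrix.mul_assoc, Units.inv_mul, Matrix.mul_one]

lemma exists_GL_of_injective {m : ℕ} (A : (Fin m → F) →ₗ[F] (Fin m → F))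
    (hA : Function.Injective A) :
    ∃ u : GL (Fin m) F, Matrix.toLin' (u : Matrix (Fin m) (Fin m) F) = A := by
  let e : (Fin m → F) ≃ₗ[F] (Fin m → F) := LinearEquiv.ofInjectiveEndo A hA
  refine ⟨⟨LinearMap.toMatrix' (e : (Fin m → F) →ₗ[F] (Fin m → F)),
    LinearMap.toMatrix' (e.symm : (Fin m → F) →ₗ[F] (Fin m → F)), ?_, ?_⟩, ?_⟩
  · rw [← LinearMap.toMatrix'_comp, LinearEquiv.comp_coe, LinearEquiv.symm_trans_self]
    simp
  · rw [← LinearMap.toMatrix'_comp, LinearEquiv.comp_coe, LinearEquiv.self_trans_symm]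
    simp
  · rw [Matrix.toLin'_toMatrix']
    ext x
    rfl

/-- If `ev` of a block map is nonzero, the diagonal blocks are invertible. -/
lemma inj_of_ev_ne {χ : GL (Fin (a + b)) F → ℂ} (hcl : Cfsg.IsClassFunction _ χ)
    {A : (Fin a → F) →ₗ[F] (Fin a → F)} {B : (Fin b → F) →ₗ[F] (Fin a → F)}
    {D : (Fin b → F) →ₗ[F] (Fin b → F)}
    (h : ev (famOf χ) ((Fin a → F) × (Fin b → F)) (E A B D) ≠ 0) :
    Function.Injective A ∧ Function.Injective D := by
  obtain ⟨g, hg⟩ := exists_lin (E A B D)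
  rw [← hg, ev_of_lin hcl] at h
  have hu : IsUnit g := by
    by_contra hu
    exact h (ext0_not_unit χ hu)
  obtain ⟨u, rfl⟩ := hu
  have h1 : lin (u : Matrix (Fin (a + b)) (Fin (a + b)) F) ∘ₗ
      lin ((u⁻¹ : GL (Fin (a + b)) F) : Matrix (Fin (a + b)) (Fin (a + b)) F) = LinearMap.id := by
    rw [← lin_mul, Units.mul_inv, lin_one]
  have h2 : lin ((u⁻¹ : GL (Fin (a + b)) F) : Matrix (Fin (a + b)) (Fin (a + b)) F) ∘ₗ
      lin (u : Matrix (Fin (a + b)) (Fin (a + b)) F) = LinearMap.id := by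
    rw [← lin_mul, Units.inv_mul, lin_one]
  rw [hg] at h1 h2
  constructor
  · rw [injective_iff_map_eq_zero]
    intro x hx
    have h3 := LinearMap.congr_fun h2 (x, 0)
    simp only [LinearMap.comp_apply, E_apply, hx, map_zero, add_zero, LinearMap.id_apply] at h3
    have h4 : ((0 : Fin a → F), (0 : Fin b → F)) = 0 := rfl
    rw [h4, map_zero] at h3
    exact (congrArg Prod.fst h3).symm
  · apply LinearMap.injective_iff_surjective.2
    intro y
    have h3 := LinearMap.congr_fun h1 (0, y)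
    simp only [LinearMap.comp_apply, E_apply, LinearMap.id_apply] at h3
    exact ⟨_, congrArg Prod.snd h3⟩

/-- Sums over all endomorphisms, weighted by `famOf τ`, are sums over `GL`. -/
lemma finsum_end {m : ℕ} [Fintype (GL (Fin m) F)] {τ : GL (Fin m) F → ℂ}
    (hτ : Cfsg.IsClassFunction _ τ) (K : ((Fin m → F) →ₗ[F] (Fin m → F)) → ℂ) :
    ∑ᶠ D : (Fin m → F) →ₗ[F] (Fin m → F), K D * conj (ev (famOf τ) (Fin m → F) D) =
      ∑ u : GL (Fin m) F, K (Matrix.toLin' (u : Matrix (Fin m) (Fin m) F)) * conj (τ u) := by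
  classical
  haveI : Finite ((Fin m → F) →ₗ[F] (Fin m → F)) := Module.finite_of_finite F
  letI : Fintype ((Fin m → F) →ₗ[F] (Fin m → F)) := Fintype.ofFinite _
  rw [finsum_eq_sum_of_fintype]
  symm
  refine Finset.sum_of_injOn (fun u : GL (Fin m) F => Matrix.toLin' (u : Matrix (Fin m) (Fin m) F))
    ?_ (fun _ _ => Finset.mem_coe.2 (Finset.mem_univ _)) ?_ ?_
  · intro u _ v _ huv
    exact Units.ext (Matrix.toLin'.injective huv)
  · intro D _ hD
    rw [ev_famOf_coord hτ, ext0_not_unit, map_zero, mul_zero]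
    rintro ⟨u, hu⟩
    apply hD
    refine ⟨u, by simp, ?_⟩
    simp only [hu, Matrix.toLin'_toMatrix']
  · intro u _
    rw [ev_famOf_coord hτ, LinearMap.toMatrix'_toLin', ext0_coe]

lemma dN_eq (χ : GL (Fin (a + b)) F → ℂ) (s : ((Fin a → F) →ₗ[F] (Fin a → F)) → ℂ)
    (D : (Fin b → F) →ₗ[F] (Fin b → F)) :
    dN s (famOf χ) D = (Nat.card ((Fin b → F) →ₗ[F] (Fin a → F)) : ℂ)⁻¹ *
      ∑ᶠ A : (Fin a → F) →ₗ[F] (Fin a → F), s A * fAD χ A D := by
  unfold dN dS fAD
  congr 1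
  refine finsum_congr fun A => ?_
  rw [mul_finsum]

lemma class_right {χ : GL (Fin (a + b)) F → ℂ} (hcl : Cfsg.IsClassFunction _ χ)
    (s : ((Fin a → F) →ₗ[F] (Fin a → F)) → ℂ) :
    Cfsg.IsClassFunction (GL (Fin b) F) (fun w : GL (Fin b) F =>
      dN s (famOf χ) (Matrix.toLin' (w : Matrix (Fin b) (Fin b) F))) := by
  intro w h
  have key : ∀ A, fAD χ A (Matrix.toLin' ((h * w * h⁻¹ : GL (Fin b) F) : Matrix (Fin b) (Fin b) F)) =
      fAD χ A (Matrix.toLin' (w : Matrix (Fin b) (Fin b) F)) := fun A =>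
    fAD_conj_right hcl (leq h) A (Matrix.toLin' (w : Matrix (Fin b) (Fin b) F))
    (Matrix.toLin' ((h * w * h⁻¹ : GL (Fin b) F) : Matrix (Fin b) (Fin b) F))
    (fun y => toLin_conj h w y)
  show dN s (famOf χ) (Matrix.toLin' ((h * w * h⁻¹ : GL (Fin b) F) : Matrix (Fin b) (Fin b) F)) =
    dN s (famOf χ) (Matrix.toLin' (w : Matrix (Fin b) (Fin b) F))
  rw [dN_eq, dN_eq]
  simp_rw [key]

lemma class_left {χ : GL (Fin (a + b)) F → ℂ} (hcl : Cfsg.IsClassFunction _ χ)
    (D : (Fin b → F) →ₗ[F] (Fin b → F)) :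
    Cfsg.IsClassFunction (GL (Fin a) F) (fun u : GL (Fin a) F =>
      fAD χ (Matrix.toLin' (u : Matrix (Fin a) (Fin a) F)) D) := by
  intro u h
  exact fAD_conj_left hcl (leq h) (Matrix.toLin' (u : Matrix (Fin a) (Fin a) F))
    (Matrix.toLin' ((h * u * h⁻¹ : GL (Fin a) F) : Matrix (Fin a) (Fin a) F)) D
    (fun y => toLin_conj h u y)

theorem exists_irr_of_not_isCusp {n : ℕ} {χ : GL (Fin n) F → ℂ} (hcl : Cfsg.IsClassFunction _ χ)
    (h : ¬ IsCusp χ) :
    ∃ (a b : ℕ) (σ : Cfsg.IrrCharacter (GL (Fin a) F)) (τ : Cfsg.IrrCharacter (GL (Fin b) F)),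
      0 < a ∧ 0 < b ∧ a + b = n ∧
      ∑ᶠ D : (Fin b → F) →ₗ[F] (Fin b → F),
        dN (fun A : (Fin a → F) →ₗ[F] (Fin a → F) => conj (ev (famOf σ.1) (Fin a → F) A))
          (famOf χ) D * conj (ev (famOf τ.1) (Fin b → F) D) ≠ 0 := by
  unfold Der.IsCusp at h
  push Not at h
  obtain ⟨a, b, ha, hb, hab, A₀, D₀, hne⟩ := h
  subst hab
  by_contra hall
  push Not at hall
  have H : ∀ (σ : Cfsg.IrrCharacter (GL (Fin a) F)) (τ : Cfsg.IrrCharacter (GL (Fin b) F)),
      ∑ᶠ D : (Fin b → F) →ₗ[F] (Fin b → F),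
        dN (fun A : (Fin a → F) →ₗ[F] (Fin a → F) => conj (ev (famOf σ.1) (Fin a → F) A))
          (famOf χ) D * conj (ev (famOf τ.1) (Fin b → F) D) = 0 :=
    fun σ τ => hall a b σ τ ha hb rfl
  letI : Fintype (GL (Fin a) F) := Fintype.ofFinite _
  letI : Fintype (GL (Fin b) F) := Fintype.ofFinite _
  have hchar : ((Nat.card ((Fin b → F) →ₗ[F] (Fin a → F)) : ℂ)⁻¹) ≠ 0 := by
    haveI : Finite ((Fin b → F) →ₗ[F] (Fin a → F)) := Module.finite_of_finite F
    exact inv_ne_zero (by exact_mod_cast Nat.card_pos.ne')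
  -- Step 1
  have step1 : ∀ (σ : Cfsg.IrrCharacter (GL (Fin a) F)) (w : GL (Fin b) F),
      dN (fun A : (Fin a → F) →ₗ[F] (Fin a → F) => conj (ev (famOf σ.1) (Fin a → F) A))
        (famOf χ) (Matrix.toLin' (w : Matrix (Fin b) (Fin b) F)) = 0 := by
    intro σ w
    have hK := class_right hcl
      (fun A : (Fin a → F) →ₗ[F] (Fin a → F) => conj (ev (famOf σ.1) (Fin a → F) A))
    have := Cfsg.Agent.Lib.Char.Complete.eq_zero_of_classInner_irr_eq_zero hK (fun τ hτ => by
      have h1 := H σ ⟨τ, hτ⟩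
      rw [finsum_end (Cfsg.Agent.Lib.Char.Basic.isClassFunction_of_isIrrCharacter hτ)] at h1
      unfold Cfsg.classInner
      rw [h1, mul_zero])
    exact congrFun this w
  -- Step 2
  have step2 : ∀ (w : GL (Fin b) F) (u : GL (Fin a) F),
      fAD χ (Matrix.toLin' (u : Matrix (Fin a) (Fin a) F))
        (Matrix.toLin' (w : Matrix (Fin b) (Fin b) F)) = 0 := by
    intro w u
    have hK := class_left hcl (Matrix.toLin' (w : Matrix (Fin b) (Fin b) F))
    have := Cfsg.Agent.Lib.Char.Complete.eq_zero_of_classInner_irr_eq_zero hK (fun σ hσ => by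
      have h1 := step1 ⟨σ, hσ⟩ w
      rw [dN_eq] at h1
      have h2 := (mul_eq_zero.mp h1).resolve_left hchar
      have h3 := finsum_end (Cfsg.Agent.Lib.Char.Basic.isClassFunction_of_isIrrCharacter hσ)
        (fun A => fAD χ A (Matrix.toLin' (w : Matrix (Fin b) (Fin b) F)))
      simp_rw [mul_comm (fAD χ _ _)] at h3
      simp only at h2
      rw [h2] at h3
      unfold Cfsg.classInner
      have h4 : ∑ g : GL (Fin a) F, fAD χ (Matrix.toLin' (g : Matrix (Fin a) (Fin a) F))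
          (Matrix.toLin' (w : Matrix (Fin b) (Fin b) F)) * conj (σ g) = 0 := by
        simp_rw [mul_comm (fAD χ _ _)]
        exact h3.symm
      rw [h4, mul_zero])
    exact congrFun this u
  -- Step 3
  have hne' : fAD χ A₀ D₀ ≠ 0 := hne
  obtain ⟨B, hB⟩ : ∃ B, ev (famOf χ) ((Fin a → F) × (Fin b → F)) (E A₀ B D₀) ≠ 0 := by
    by_contra h0
    push Not at h0
    exact hne' (finsum_eq_zero_of_forall_eq_zero h0)
  obtain ⟨hA, hD⟩ := inj_of_ev_ne hcl hB
  obtain ⟨u, rfl⟩ := exists_GL_of_injective A₀ hA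
  obtain ⟨w, rfl⟩ := exists_GL_of_injective D₀ hD
  exact hne' (step2 w u)

end part2

end Cfsg.Agent.Lib.GLH.Bridge
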