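import Cfsg.Agent.Lib.GLH.Defs

/-!
# Monomial matrices, the anti-transpose, the admissible family (for `Lib/GLH/Hecke`).
-/

set_option autoImplicit false
set_option linter.unusedSectionVars false

namespace Cfsg.Agent.Lib.GLH.MonDefs

open Matrix Cfsg.Agent.Lib.GLH.Defs

universe u

/-- Admissible pairs: at every position a descent of `π` or a "link"
(`π` goes up by exactly one and `t` is constant). -/
def Adm {T : Type*} {n : ℕ} (π : Equiv.Perm (Fin n)) (t : Fin n → T) : Prop :=
  ∀ i j : Fin n, j.val = i.val + 1 → π j < π i ∨ ((π j).val = (π i).val + 1 ∧ t i = t j)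

variable {F : Type u} [Field F] {n : ℕ}

/-- The monomial matrix: column `j` is `t j • e (π j)`. -/
def monMat (π : Equiv.Perm (Fin n)) (t : Fin n → Fˣ) : Matrix (Fin n) (Fin n) F :=
  fun i j => if i = π j then (t j : F) else 0

theorem monMat_mul (π ρ : Equiv.Perm (Fin n)) (t s : Fin n → Fˣ) :
    (monMat π t : Matrix (Fin n) (Fin n) F) * monMat ρ s =
      monMat (π * ρ) (fun j => t (ρ j) * s j) := by
  ext i j
  rw [Matrix.mul_apply, Finset.sum_eq_single (ρ j)]
  · simp only [monMat, Equiv.Perm.mul_apply, if_true, Units.val_mul]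
    split_ifs <;> simp_all
  · intro k _ hk
    simp [monMat, hk]
  · simp

theorem monMat_one : (monMat (1 : Equiv.Perm (Fin n)) (fun _ => 1) : Matrix (Fin n) (Fin n) F) = 1 := by
  ext i j
  simp only [monMat, Matrix.one_apply, Equiv.Perm.one_apply, Units.val_one]
  split_ifs <;> simp_all

/-- The monomial element of `GL`. -/
def mon (π : Equiv.Perm (Fin n)) (t : Fin n → Fˣ) : GL (Fin n) F where
  val := monMat π t
  inv := monMat π⁻¹ (fun i => (t (π⁻¹ i))⁻¹)
  val_inv := by
    rw [monMat_mul, ← monMat_one]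
    congr 1
    · simp
    · funext j; simp
  inv_val := by
    rw [monMat_mul, ← monMat_one]
    congr 1
    · simp
    · funext j; simp

@[simp] theorem mon_coe (π : Equiv.Perm (Fin n)) (t : Fin n → Fˣ) :
    ((mon π t : GL (Fin n) F) : Matrix (Fin n) (Fin n) F) = monMat π t := rfl

theorem mon_inv_coe (π : Equiv.Perm (Fin n)) (t : Fin n → Fˣ) :
    (((mon π t : GL (Fin n) F)⁻¹ : GL (Fin n) F) : Matrix (Fin n) (Fin n) F) =
      monMat π⁻¹ (fun i => (t (π⁻¹ i))⁻¹) := rfl

/-- The anti-transpose of a matrix. -/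
def tauMat (g : Matrix (Fin n) (Fin n) F) : Matrix (Fin n) (Fin n) F :=
  fun i j => g (Fin.rev j) (Fin.rev i)

theorem tauMat_mul (g h : Matrix (Fin n) (Fin n) F) : tauMat (g * h) = tauMat h * tauMat g := by
  ext i j
  simp only [tauMat, Matrix.mul_apply]
  rw [← Equiv.sum_comp Fin.revPerm]
  refine Finset.sum_congr rfl fun k _ => ?_
  simp [mul_comm]

theorem tauMat_one : tauMat (1 : Matrix (Fin n) (Fin n) F) = 1 := by
  ext i j
  simp only [tauMat, Matrix.one_apply, Fin.rev_inj]
  simp [eq_comm]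

theorem tauMat_tauMat (g : Matrix (Fin n) (Fin n) F) : tauMat (tauMat g) = g := by
  ext i j
  simp [tauMat]

/-- The anti-transpose on `GL`: an anti-automorphism of order two. -/
def tau (g : GL (Fin n) F) : GL (Fin n) F where
  val := tauMat (g : Matrix (Fin n) (Fin n) F)
  inv := tauMat ((g⁻¹ : GL (Fin n) F) : Matrix (Fin n) (Fin n) F)
  val_inv := by
    rw [← tauMat_mul, ← tauMat_one]
    congr 1
    simp
  inv_val := by
    rw [← tauMat_mul, ← tauMat_one]
    congr 1
    simp

@[simp] theorem tau_coe (g : GL (Fin n) F) :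
    ((tau g : GL (Fin n) F) : Matrix (Fin n) (Fin n) F) = tauMat (g : Matrix (Fin n) (Fin n) F) := rfl

theorem tau_mul (g h : GL (Fin n) F) : tau (g * h) = tau h * tau g := by
  apply Units.ext
  simp [tauMat_mul]

theorem tau_tau (g : GL (Fin n) F) : tau (tau g) = g := by
  apply Units.ext
  simp [tauMat_tauMat]

end Cfsg.Agent.Lib.GLH.MonDefs
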