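import Cfsg.Agent.Lib.GLH.Defs
import Cfsg.Agent.Lib.GLH.MonDefs

/-!
# The Bruhat decomposition of `GL_n(F)` with respect to the upper unitriangular group:
`G = ⋃ U m U`, with `m` monomial, and `m` is determined by its double coset.
-/

set_option autoImplicit false
set_option linter.unusedSectionVars false

namespace Cfsg.Agent.Lib.GLH.Bruhat

open Matrix Cfsg.Agent.Lib.GLH.Defs Cfsg.Agent.Lib.GLH.MonDefs

universe u

variable {F : Type u} [Field F] [Fintype F] {n : ℕ}

lemma mem_U_iff {a : GL (Fin n) F} : a ∈ U (F := F) n ↔ IsU (a : Matrix (Fin n) (Fin n) F) := Iff.rfl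

/-- An upper unitriangular matrix is a unit, in `U`. -/
lemma exists_U_of_IsU {M : Matrix (Fin n) (Fin n) F} (hM : IsU M) :
    ∃ a ∈ U (F := F) n, (a : Matrix (Fin n) (Fin n) F) = M := by
  have hdet : M.det = 1 := by
    rw [Matrix.det_of_isUpperTriangular]
    · apply Finset.prod_eq_one
      intro i _
      rw [hM i i le_rfl]
      simp
    · intro i j hij
      have hij' : j < i := hij
      rw [hM i j hij'.le, Matrix.one_apply_ne hij'.ne']
  have hu : IsUnit M := (Matrix.isUnit_iff_isUnit_det M).mpr (by rw [hdet]; exact isUnit_one)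
  exact ⟨hu.unit, hM, rfl⟩

/-- The row operation clearing column entries above row `r`. -/
def leftOp (r : Fin n) (c : Fin n → F) : Matrix (Fin n) (Fin n) F :=
  fun i i' => (1 : Matrix (Fin n) (Fin n) F) i i' + if i' = r ∧ i < r then c i else 0

lemma leftOp_isU (r : Fin n) (c : Fin n → F) : IsU (leftOp r c) := by
  intro i j hji
  have : ¬ (j = r ∧ i < r) := by
    rintro ⟨rfl, h⟩
    exact absurd hji (not_le.mpr h)
  simp [leftOp, this]

lemma leftOp_mul_apply (r : Fin n) (c : Fin n → F) (h : Matrix (Fin n) (Fin n) F) (i j : Fin n) :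
    (leftOp r c * h) i j = h i j + if i < r then c i * h r j else 0 := by
  rw [Matrix.mul_apply]
  simp only [leftOp, add_mul, Finset.sum_add_distrib]
  congr 1
  · simp [Matrix.one_apply, ite_mul]
  · rw [Finset.sum_eq_single r]
    · simp
    · intro b _ hb
      simp [hb]
    · simp

/-- The column operation clearing row entries to the right of column `k`. -/
def rightOp (k : Fin n) (d : Fin n → F) : Matrix (Fin n) (Fin n) F :=
  fun l' l => (1 : Matrix (Fin n) (Fin n) F) l' l + if l' = k ∧ k < l then d l else 0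

lemma rightOp_isU (k : Fin n) (d : Fin n → F) : IsU (rightOp k d) := by
  intro i j hji
  have : ¬ (i = k ∧ k < j) := by
    rintro ⟨rfl, h⟩
    exact absurd hji (not_le.mpr h)
  simp [rightOp, this]

lemma mul_rightOp_apply (k : Fin n) (d : Fin n → F) (h : Matrix (Fin n) (Fin n) F) (i l : Fin n) :
    (h * rightOp k d) i l = h i l + if k < l then h i k * d l else 0 := by
  rw [Matrix.mul_apply]
  simp only [rightOp, mul_add, Finset.sum_add_distrib]
  congr 1
  · simp [Matrix.one_apply, mul_ite]
  · rw [Finset.sum_eq_single k]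
    · simp
    · intro b _ hb
      simp [hb]
    · simp

/-- The invariant: the first `k` columns are monomial and the rows they hit are clean. -/
def Inv (k : ℕ) (h : Matrix (Fin n) (Fin n) F) (r : Fin n → Fin n) : Prop :=
  ∀ j : Fin n, j.val < k →
    h (r j) j ≠ 0 ∧ (∀ i, i ≠ r j → h i j = 0) ∧ (∀ l, l ≠ j → h (r j) l = 0)

/-- One step of the elimination. -/
lemma Inv.step {k : ℕ} (hk : k < n) {h : Matrix (Fin n) (Fin n) F} {r : Fin n → Fin n}
    (hI : Inv k h r) (hne : ∃ i, h i ⟨k, hk⟩ ≠ 0) :
    ∃ A B : Matrix (Fin n) (Fin n) F, IsU A ∧ IsU B ∧ ∃ r', Inv (k + 1) (A * h * B) r' := by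
  classical
  set K : Fin n := ⟨k, hk⟩ with hK
  obtain ⟨i0, hi0⟩ := hne
  obtain ⟨rk, hrk, hmax⟩ := Finset.exists_max_image (Finset.univ.filter fun i => h i K ≠ 0) id
    ⟨i0, by simp [hi0]⟩
  have hrk' : h rk K ≠ 0 := by simpa using hrk
  have hbelow : ∀ i, rk < i → h i K = 0 := by
    intro i hi
    by_contra hc
    exact absurd (hmax i (by simp [hc])) (not_le.mpr hi)
  -- `r j ≠ rk` for the old columns
  have hold : ∀ j : Fin n, j.val < k → r j ≠ rk := by
    intro j hj heq
    have : h (r j) K = 0 := (hI j hj).2.2 K (by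
      intro hc
      rw [← hc] at hj
      exact lt_irrefl _ hj)
    rw [heq] at this
    exact hrk' this
  set c : Fin n → F := fun i => -(h i K / h rk K) with hc
  set h' := leftOp rk c * h with hh'
  have h'1 : ∀ i j, h' i j = h i j + if i < rk then c i * h rk j else 0 :=
    fun i j => leftOp_mul_apply rk c h i j
  have h'rk : ∀ l, h' rk l = h rk l := by
    intro l
    rw [h'1]
    simp
  have h'col : ∀ i, i ≠ rk → h' i K = 0 := by
    intro i hi
    rw [h'1]
    rcases lt_or_gt_of_ne hi with hlt | hgt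
    · rw [if_pos hlt]
      simp only [hc]
      field_simp
      ring
    · rw [if_neg (not_lt.mpr hgt.le), hbelow i hgt, add_zero]
  set d : Fin n → F := fun l => -(h' rk l / h' rk K) with hd
  set h'' := h' * rightOp K d with hh''
  have h''1 : ∀ i l, h'' i l = h' i l + if K < l then h' i K * d l else 0 :=
    fun i l => mul_rightOp_apply K d h' i l
  refine ⟨leftOp rk c, rightOp K d, leftOp_isU rk c, rightOp_isU K d, Function.update r K rk, ?_⟩
  change Inv (k + 1) h'' _
  intro j hj
  have hrkK : h' rk K ≠ 0 := by rw [h'rk]; exact hrk'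
  by_cases hjk : j = K
  · subst hjk
    rw [Function.update_self]
    refine ⟨?_, ?_, ?_⟩
    · rw [h''1, if_neg (lt_irrefl _), add_zero]
      exact hrkK
    · intro i hi
      rw [h''1, if_neg (lt_irrefl _), add_zero]
      exact h'col i hi
    · intro l hl
      rw [h''1]
      rcases lt_or_gt_of_ne hl with hlt | hgt
      · rw [if_neg (not_lt.mpr hlt.le), add_zero, h'rk]
        exact (hI l hlt).2.1 rk (hold l hlt).symm
      · rw [if_pos hgt]
        simp only [hd]
        field_simp
        ring
  · have hjlt : j.val < k := by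
      have : j.val ≠ k := fun hc => hjk (Fin.ext hc)
      omega
    obtain ⟨h1, h2, h3⟩ := hI j hjlt
    have hrj := hold j hjlt
    rw [Function.update_of_ne hjk]
    have hnotKj : ¬ K < j := by
      rw [not_lt]
      exact Fin.le_def.mpr (le_of_lt hjlt)
    have hrkj : h rk j = 0 := h2 rk hrj.symm
    refine ⟨?_, ?_, ?_⟩
    · rw [h''1, if_neg hnotKj, add_zero, h'1, hrkj]
      simpa using h1
    · intro i hi
      rw [h''1, if_neg hnotKj, add_zero, h'1, hrkj, h2 i hi]
      simp
    · intro l hl
      have hKj : K ≠ j := fun hc => hjk hc.symm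
      rw [h''1, h'col _ hrj, h'1]
      have h0 : h (r j) K = 0 := h3 K hKj
      have hc0 : c (r j) = 0 := by simp [hc, h0]
      rw [hc0, h3 l hl]
      simp

/-- Existence of the Bruhat decomposition. -/
theorem bruhat_exists (g : GL (Fin n) F) :
    ∃ a ∈ U (F := F) n, ∃ b ∈ U (F := F) n, ∃ (π : Equiv.Perm (Fin n)) (t : Fin n → Fˣ),
      g = a * mon π t * b := by
  classical
  have key : ∀ k : ℕ, k ≤ n → ∃ u ∈ U (F := F) n, ∃ v ∈ U (F := F) n, ∃ r : Fin n → Fin n,
      Inv k (((u * g * v : GL (Fin n) F)) : Matrix (Fin n) (Fin n) F) r := by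
    intro k
    induction k with
    | zero =>
      intro _
      refine ⟨1, Subgroup.one_mem _, 1, Subgroup.one_mem _, id, ?_⟩
      intro j hj
      exact absurd hj (Nat.not_lt_zero _)
    | succ k ih =>
      intro hk
      obtain ⟨u, hu, v, hv, r, hI⟩ := ih (Nat.le_of_succ_le hk)
      have hklt : k < n := hk
      have hne : ∃ i, ((u * g * v : GL (Fin n) F) : Matrix (Fin n) (Fin n) F) i ⟨k, hklt⟩ ≠ 0 := by
        by_contra hc
        push Not at hc
        set x := (u * g * v : GL (Fin n) F)
        have h1 : ((x⁻¹ * x : GL (Fin n) F) : Matrix (Fin n) (Fin n) F) ⟨k, hklt⟩ ⟨k, hklt⟩ = 1 := by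
          simp
        rw [Units.val_mul, Matrix.mul_apply] at h1
        rw [Finset.sum_eq_zero (fun i _ => by rw [hc i, mul_zero])] at h1
        exact zero_ne_one h1
      obtain ⟨A, B, hA, hB, r', hI'⟩ := Inv.step hklt hI hne
      obtain ⟨a, ha, rfl⟩ := exists_U_of_IsU hA
      obtain ⟨b, hb, rfl⟩ := exists_U_of_IsU hB
      refine ⟨a * u, Subgroup.mul_mem _ ha hu, v * b, Subgroup.mul_mem _ hv hb, r', ?_⟩
      have : a * u * g * (v * b) = a * (u * g * v) * b := by group
      rw [this]
      simpa using hI'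
  obtain ⟨u, hu, v, hv, r, hI⟩ := key n le_rfl
  set h := (u * g * v : GL (Fin n) F) with hh
  have hI' : ∀ j : Fin n, (h : Matrix (Fin n) (Fin n) F) (r j) j ≠ 0 ∧
      (∀ i, i ≠ r j → (h : Matrix (Fin n) (Fin n) F) i j = 0) ∧
      (∀ l, l ≠ j → (h : Matrix (Fin n) (Fin n) F) (r j) l = 0) := fun j => hI j j.isLt
  have hinj : Function.Injective r := by
    intro i j hij
    by_contra hne
    apply (hI' i).1
    rw [hij]
    exact (hI' j).2.2 i hne
  have hbij : Function.Bijective r := Finite.injective_iff_bijective.mp hinj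
  set π : Equiv.Perm (Fin n) := Equiv.ofBijective r hbij with hπ
  set t : Fin n → Fˣ := fun j => Units.mk0 _ (hI' j).1 with ht
  have hmon : h = mon π t := by
    apply Units.ext
    ext i j
    simp only [mon_coe, monMat]
    by_cases hi : i = π j
    · rw [if_pos hi, hi]
      simp [hπ, ht]
    · rw [if_neg hi]
      exact (hI' j).2.1 i hi
  refine ⟨u⁻¹, Subgroup.inv_mem _ hu, v⁻¹, Subgroup.inv_mem _ hv, π, t, ?_⟩
  rw [← hmon, hh]
  group

/-- A permutation moving nothing upward is the identity. -/
lemma perm_eq_one_of_le (ρ : Equiv.Perm (Fin n)) (h : ∀ j, ρ j ≤ j) : ρ = 1 := by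
  have key : ∀ k : ℕ, ∀ j : Fin n, j.val = k → ρ j = j := by
    intro k
    induction k using Nat.strong_induction_on with
    | _ k ih =>
      intro j hj
      rcases (h j).lt_or_eq with hlt | heq
      · have h1 : ρ (ρ j) = ρ j := ih (ρ j).val (by rw [← hj]; exact hlt) (ρ j) rfl
        have h2 : ρ j = j := ρ.injective h1
        rw [h2] at hlt
        exact absurd hlt (lt_irrefl _)
      · exact heq
  ext j
  simp [key j.val j rfl]

/-- Uniqueness of the monomial part in the Bruhat decomposition. -/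
theorem bruhat_unique {a b a' b' : GL (Fin n) F} (ha : a ∈ U (F := F) n) (hb : b ∈ U (F := F) n)
    (ha' : a' ∈ U (F := F) n) (hb' : b' ∈ U (F := F) n) {π π' : Equiv.Perm (Fin n)}
    {t t' : Fin n → Fˣ} (h : a * mon π t * b = a' * mon π' t' * b') : π = π' ∧ t = t' := by
  classical
  set u := a'⁻¹ * a with hu
  set v := b' * b⁻¹ with hv
  have huU : IsU (u : Matrix (Fin n) (Fin n) F) := Subgroup.mul_mem _ (Subgroup.inv_mem _ ha') ha
  have hvU : IsU (v : Matrix (Fin n) (Fin n) F) := Subgroup.mul_mem _ hb' (Subgroup.inv_mem _ hb)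
  have heq : u * mon π t = mon π' t' * v := by
    rw [hu, hv]
    have h2 : a' * mon π' t' * b' * b⁻¹ = a * mon π t := by rw [← h]; group
    calc a'⁻¹ * a * mon π t = a'⁻¹ * (a * mon π t) := by group
      _ = a'⁻¹ * (a' * mon π' t' * b' * b⁻¹) := by rw [h2]
      _ = mon π' t' * (b' * b⁻¹) := by group
  have hent : ∀ i j, (u : Matrix (Fin n) (Fin n) F) i (π j) * t j =
      t' (π'⁻¹ i) * (v : Matrix (Fin n) (Fin n) F) (π'⁻¹ i) j := by
    intro i j
    have := congrFun (congrFun (congrArg (fun x : GL (Fin n) F => (x : Matrix (Fin n) (Fin n) F)) heq) i) j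
    simp only [Units.val_mul, mon_coe, Matrix.mul_apply] at this
    rw [Finset.sum_eq_single (π j), Finset.sum_eq_single (π'⁻¹ i)] at this
    · simpa [monMat] using this
    · intro k _ hk
      have : i ≠ π' k := by
        rintro rfl
        exact hk (by simp)
      simp [monMat, this]
    · simp
    · intro k _ hk
      simp [monMat, hk]
    · simp
  have hdiag : ∀ j, t' (π'⁻¹ (π j)) * (v : Matrix (Fin n) (Fin n) F) (π'⁻¹ (π j)) j = t j := by
    intro j
    rw [← hent, huU (π j) (π j) le_rfl]
    simp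
  have hle : ∀ j, π'⁻¹ (π j) ≤ j := by
    intro j
    by_contra hc
    push Not at hc
    have := hdiag j
    rw [hvU _ _ hc.le, Matrix.one_apply_ne hc.ne', mul_zero] at this
    exact (t j).ne_zero this.symm
  have hρ : π'⁻¹ * π = 1 := perm_eq_one_of_le _ hle
  have hππ' : π = π' := by
    have := congrArg (fun x => π' * x) hρ
    simpa using this
  have hinvapp : ∀ j, π'⁻¹ (π j) = j := fun j => by
    have := congrArg (fun x : Equiv.Perm (Fin n) => x j) hρ
    simpa using this
  refine ⟨hππ', ?_⟩
  funext j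
  have := hdiag j
  rw [hinvapp j, hvU j j le_rfl] at this
  apply Units.ext
  simpa using this.symm

end Cfsg.Agent.Lib.GLH.Bruhat
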