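import Cfsg.Agent.Lib.GLH.Leibniz1

/-!
# From `IsCusp` to `Hcusp`: the block form of cuspidality in terms of a subspace of `F^c`.
-/

set_option autoImplicit false
set_option linter.unusedSectionVars false

namespace Cfsg.Agent.Lib.GLH.CuspS

open Matrix Module Cfsg.Agent.Lib.GLH.Defs Cfsg.Agent.Lib.GLH.Ev Cfsg.Agent.Lib.GLH.Der

universe u

variable {F : Type u} [Field F] [Fintype F]


theorem hcusp_of_isCusp {c : ℕ} {σ : GL (Fin c) F → ℂ} (hcl : IsCl (famOf σ)) (h : IsCusp σ) :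
    Leibniz1.Hcusp (fun A : (Fin c → F) →ₗ[F] (Fin c → F) =>
      (starRingEnd ℂ) (ev (famOf σ) (Fin c → F) A)) := by
  classical
  intro W₁ h1 h2 A hA
  obtain ⟨W₂, hc⟩ := Submodule.exists_isCompl W₁
  have hab : finrank F W₁ + finrank F W₂ = c := by
    have := Submodule.finrank_add_eq_of_isCompl hc
    simpa using this
  have ha : 0 < finrank F W₁ := by
    rw [Module.finrank_pos_iff, Submodule.nontrivial_iff_ne_bot]
    exact h1
  have hb : 0 < finrank F W₂ := by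
    rw [Module.finrank_pos_iff, Submodule.nontrivial_iff_ne_bot]
    intro h0
    rw [h0] at hc
    exact h2 (by simpa using hc.sup_eq_top)
  set a := finrank F W₁ with ha'
  set b := finrank F W₂ with hb'
  let e₁ : (Fin a → F) ≃ₗ[F] W₁ := (finBasis F W₁).equivFun.symm
  let e₂ : (Fin b → F) ≃ₗ[F] W₂ := (finBasis F W₂).equivFun.symm
  let ι : ((Fin a → F) × (Fin b → F)) ≃ₗ[F] (Fin c → F) :=
    (e₁.prodCongr e₂).trans (Submodule.prodEquivOfIsCompl W₁ W₂ hc)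
  let i₁ : (Fin a → F) →ₗ[F] (Fin c → F) := ι.toLinearMap ∘ₗ LinearMap.inl F _ _
  let i₂ : (Fin b → F) →ₗ[F] (Fin c → F) := ι.toLinearMap ∘ₗ LinearMap.inr F _ _
  let p₁ : (Fin c → F) →ₗ[F] (Fin a → F) := LinearMap.fst F _ _ ∘ₗ ι.symm.toLinearMap
  let p₂ : (Fin c → F) →ₗ[F] (Fin b → F) := LinearMap.snd F _ _ ∘ₗ ι.symm.toLinearMap
  have hι : ∀ x y, ι (x, y) = i₁ x + i₂ y := by
    intro x y
    have : (x, y) = (x, (0 : Fin b → F)) + ((0 : Fin a → F), y) := by simp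
    rw [this, map_add]
    rfl
  have hi₁ : ∀ x, i₁ x = ((e₁ x : W₁) : Fin c → F) := by
    intro x
    simp [i₁, ι, Submodule.coe_prodEquivOfIsCompl']
  have hi₂ : ∀ y, i₂ y = ((e₂ y : W₂) : Fin c → F) := by
    intro y
    simp [i₂, ι, Submodule.coe_prodEquivOfIsCompl']
  have hp₁i₁ : ∀ x, p₁ (i₁ x) = x := by
    intro x
    simp [p₁, i₁]
  have hp₁i₂ : ∀ y, p₁ (i₂ y) = 0 := by
    intro y
    simp [p₁, i₂]
  have hp₂i₁ : ∀ x, p₂ (i₁ x) = 0 := by
    intro x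
    simp [p₂, i₁]
  have hp₂i₂ : ∀ y, p₂ (i₂ y) = y := by
    intro y
    simp [p₂, i₂]
  have hsum : ∀ z, i₁ (p₁ z) + i₂ (p₂ z) = z := by
    intro z
    rw [← hι]
    simp [p₁, p₂]
  have hW : ∀ z, z ∈ W₁ ↔ p₂ z = 0 := by
    intro z
    constructor
    · intro hz
      have h3 : i₂ (p₂ z) ∈ W₁ := by
        have : i₂ (p₂ z) = z - i₁ (p₁ z) := by
          rw [eq_sub_iff_add_eq, add_comm]
          exact hsum z
        rw [this]
        refine W₁.sub_mem hz ?_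
        rw [hi₁]
        exact (e₁ _).2
      have h4 : i₂ (p₂ z) ∈ W₂ := by
        rw [hi₂]
        exact (e₂ _).2
      have h5 : i₂ (p₂ z) = 0 := by
        have := Submodule.mem_inf.mpr ⟨h3, h4⟩
        rw [hc.inf_eq_bot] at this
        simpa using this
      have h6 := hp₂i₂ (p₂ z)
      rw [h5, map_zero] at h6
      exact h6.symm
    · intro hz
      rw [← hsum z, hz, map_zero, add_zero, hi₁]
      exact (e₁ _).2
  have hiW : ∀ x, i₁ x ∈ W₁ := by
    intro x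
    rw [hW]
    exact hp₂i₁ x
  let A₁ : (Fin a → F) →ₗ[F] (Fin a → F) := p₁ ∘ₗ A ∘ₗ i₁
  let A₂ : (Fin b → F) →ₗ[F] (Fin b → F) := p₂ ∘ₗ A ∘ₗ i₂
  let β : {ν : (Fin c → F) →ₗ[F] (Fin c → F) // (∀ x, ν x ∈ W₁) ∧ ∀ x ∈ W₁, ν x = 0} →
      ((Fin b → F) →ₗ[F] (Fin a → F)) := fun ν => p₁ ∘ₗ (A + ν.1) ∘ₗ i₂
  have hev : ∀ ν : {ν : (Fin c → F) →ₗ[F] (Fin c → F) // (∀ x, ν x ∈ W₁) ∧ ∀ x ∈ W₁, ν x = 0},
      ev (famOf σ) (Fin c → F) (A + ν.1) =
        ev (famOf σ) ((Fin a → F) × (Fin b → F)) (E A₁ (β ν) A₂) := by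
    intro ν
    symm
    refine ev_congr hcl ι _ _ ?_
    rintro ⟨x, y⟩
    simp only [E_apply]
    rw [hι, hι]
    have hν1 : ν.1 (i₁ x) = 0 := ν.2.2 _ (hiW x)
    have hν2 : p₂ (ν.1 (i₂ y)) = 0 := (hW _).mp (ν.2.1 _)
    have hA1 : p₂ (A (i₁ x)) = 0 := (hW _).mp (hA (hiW x))
    have hdecomp1 : A (i₁ x) = i₁ (A₁ x) := by
      have := hsum (A (i₁ x))
      rw [hA1, map_zero, add_zero] at this
      exact this.symm
    have hdecomp2 : (A + ν.1) (i₂ y) = i₁ (β ν y) + i₂ (A₂ y) := by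
      have := hsum ((A + ν.1) (i₂ y))
      have h7 : p₂ ((A + ν.1) (i₂ y)) = A₂ y := by
        simp only [LinearMap.add_apply, map_add, hν2, add_zero]
        rfl
      rw [h7] at this
      exact this.symm
    rw [map_add (A + ν.1), hdecomp2, LinearMap.add_apply, hν1, add_zero, hdecomp1, map_add i₁]
    abel
  have hβinj : Function.Injective β := by
    intro ν ν' hνν
    apply Subtype.ext
    apply LinearMap.ext
    intro z
    have hform : ∀ ν'' : {ν : (Fin c → F) →ₗ[F] (Fin c → F) // (∀ x, ν x ∈ W₁) ∧ ∀ x ∈ W₁, ν x = 0},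
        ν''.1 z = i₁ (p₁ (ν''.1 (i₂ (p₂ z)))) := by
      intro ν''
      have h8 : ν''.1 z = ν''.1 (i₂ (p₂ z)) := by
        conv_lhs => rw [← hsum z]
        rw [map_add, ν''.2.2 _ (hiW _), zero_add]
      rw [h8]
      have h9 := hsum (ν''.1 (i₂ (p₂ z)))
      rw [(hW _).mp (ν''.2.1 _), map_zero, add_zero] at h9
      exact h9.symm
    rw [hform ν, hform ν']
    have := LinearMap.congr_fun hνν (p₂ z)
    simp only [β, LinearMap.comp_apply, LinearMap.add_apply, map_add] at this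
    rw [add_right_inj] at this
    rw [this]
  have hβsurj : Function.Surjective β := by
    intro B
    refine ⟨⟨i₁ ∘ₗ (B - p₁ ∘ₗ A ∘ₗ i₂) ∘ₗ p₂, ?_, ?_⟩, ?_⟩
    · intro x
      exact hiW _
    · intro x hx
      simp only [LinearMap.comp_apply]
      rw [(hW _).mp hx, map_zero, map_zero]
    · apply LinearMap.ext
      intro y
      simp only [β, LinearMap.comp_apply, LinearMap.add_apply, map_add, hp₁i₁, hp₂i₂,
        LinearMap.sub_apply]
      abel
  have hβ : Function.Bijective β := ⟨hβinj, hβsurj⟩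
  have hcusp := h a b ha hb hab A₁ A₂
  rw [finsum_eq_sum_of_fintype] at hcusp
  simp only
  simp_rw [hev]
  rw [← map_sum]
  rw [map_eq_zero]
  have hgen : ∀ inst : Fintype {ν : (Fin c → F) →ₗ[F] (Fin c → F) // (∀ x, ν x ∈ W₁) ∧ ∀ x ∈ W₁, ν x = 0},
      @Finset.sum _ _ _ (@Finset.univ _ inst)
        (fun x => ev (famOf σ) ((Fin a → F) × (Fin b → F)) (E A₁ (β x) A₂)) = 0 := by
    intro inst
    refine (Function.Bijective.sum_comp hβ
      (fun B => ev (famOf σ) ((Fin a → F) × (Fin b → F)) (E A₁ B A₂))).trans ?_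
    exact hcusp
  exact hgen _

end Cfsg.Agent.Lib.GLH.CuspS
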