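import Cfsg.Agent.Lib.GLH.Leibniz2

/-!
# The derivation: the Leibniz rule.
-/

set_option autoImplicit false
set_option linter.unusedSectionVars false
set_option linter.style.haveILetI false

namespace Cfsg.Agent.Lib.GLH.Leibniz3

open Matrix Module Cfsg.Agent.Lib.GLH.Defs Cfsg.Agent.Lib.GLH.Ev Cfsg.Agent.Lib.GLH.Der
  Cfsg.Agent.Lib.GLH.Leibniz1 Cfsg.Agent.Lib.GLH.Leibniz2

universe u

variable {F : Type u} [Field F] [Finite F]
variable {X Y : Type u} [AddCommGroup X] [Module F X] [Module.Finite F X]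
  [AddCommGroup Y] [Module F Y] [Module.Finite F Y]

open Classical in
theorem T_prodW (s : (X →ₗ[F] X) → ℂ) {Φ Ψ : Fam F} (hΦ : IsCl Φ) (hΨ : IsCl Ψ) (D : Y →ₗ[F] Y)
    (W₂ : Submodule F Y) :
    T s Φ Ψ D (prodW W₂) =
      if h : W₂ ≤ W₂.comap D then
        (Nat.card ((Y ⧸ W₂) →ₗ[F] X) : ℂ) * dS s Φ (D.restrict h) * ev Ψ (Y ⧸ W₂) (W₂.mapQ W₂ D h)
      else 0 := by
  unfold T
  by_cases h : W₂ ≤ W₂.comap D
  · rw [dif_pos h, dS_eq_sum]
    rw [Finset.mul_sum, Finset.sum_mul]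
    refine Finset.sum_congr rfl fun A _ => ?_
    simp_rw [term_prodW hΦ hΨ, dif_pos h]
    have := sum_hom_restrict (X := X) W₂
      (fun B' => s A * (ev Φ (X × W₂) (E A B' (D.restrict h)) * ev Ψ (Y ⧸ W₂) (W₂.mapQ W₂ D h)))
    rw [this, Finset.mul_sum, Finset.mul_sum, Finset.sum_mul]
    refine Finset.sum_congr rfl fun B' _ => ?_
    ring
  · rw [dif_neg h]
    simp_rw [term_prodW hΦ hΨ, dif_neg h]
    simp

theorem C_t (A : X →ₗ[F] X) (B : Y →ₗ[F] X) (D : Y →ₗ[F] Y) (W₂ : Submodule F Y)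
    (hD : W₂ ≤ W₂.comap D) (φ : W₂ →ₗ[F] X) (φ' : Y →ₗ[F] X) (hφ : ∀ d : W₂, φ' d = φ d)
    (t : (Y ⧸ W₂) →ₗ[F] Y) (ht : W₂.mkQ.comp t = LinearMap.id)
    (hc : ∀ d : W₂, A (φ d) + B d = φ (D.restrict hD d)) (y : Y) :
    (B + A.comp φ' - φ'.comp D) (t (W₂.mkQ y)) = (B + A.comp φ' - φ'.comp D) y := by
  have hC : ∀ d ∈ W₂, (B + A.comp φ' - φ'.comp D) d = 0 := by
    intro d hd
    have h1 := hc ⟨d, hd⟩
    have h2 : φ' (D d) = φ (D.restrict hD ⟨d, hd⟩) := hφ (D.restrict hD ⟨d, hd⟩)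
    have h3 := hφ ⟨d, hd⟩
    simp only [LinearMap.sub_apply, LinearMap.add_apply, LinearMap.comp_apply]
    rw [h2, ← h1, show φ' d = φ ⟨d, hd⟩ from h3]
    abel
  have h1 := LinearMap.congr_fun ht (W₂.mkQ y)
  simp only [LinearMap.comp_apply, LinearMap.id_apply] at h1
  have h2 : t (W₂.mkQ y) - y ∈ W₂ := by
    have : W₂.mkQ (t (W₂.mkQ y) - y) = 0 := by rw [map_sub, h1, sub_self]
    exact (Submodule.Quotient.mk_eq_zero W₂).mp this
  have h3 := hC _ h2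
  rw [map_sub, sub_eq_zero] at h3
  exact h3

open Classical in
theorem T_Gr (s : (X →ₗ[F] X) → ℂ) {Φ Ψ : Fam F} (hΦ : IsCl Φ) (hΨ : IsCl Ψ) (D : Y →ₗ[F] Y)
    (W₂ : Submodule F Y) (φ : W₂ →ₗ[F] X) :
    T s Φ Ψ D (Gr W₂ φ) =
      if h : W₂ ≤ W₂.comap D then
        ev Φ W₂ (D.restrict h) * dS s Ψ (W₂.mapQ W₂ D h)
      else 0 := by
  obtain ⟨t, ht⟩ := exists_section W₂
  obtain ⟨p, hp⟩ := W₂.subtype.exists_leftInverse_of_injective (Submodule.ker_subtype W₂)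
  have hφ : ∀ d : W₂, (φ.comp p) d = φ d := by
    intro d
    have := LinearMap.congr_fun hp d
    simp only [LinearMap.comp_apply, LinearMap.id_apply, Submodule.subtype_apply] at this
    simp [this]
  set φ' := φ.comp p with hφ'
  unfold T
  by_cases h : W₂ ≤ W₂.comap D
  · rw [dif_pos h, dS_eq_sum, Finset.mul_sum]
    refine Finset.sum_congr rfl fun A _ => ?_
    rw [Finset.mul_sum]
    simp_rw [term_Gr hΦ hΨ A _ D W₂ φ φ' hφ t ht]
    -- restrict to the compatible `B`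
    have hiff : ∀ B : Y →ₗ[F] X, (∃ h : W₂ ≤ W₂.comap D, ∀ d : W₂, A (φ d) + B d = φ (D.restrict h d)) ↔
        ∀ d : W₂, A (φ d) + B d = φ (D.restrict h d) :=
      fun B => ⟨fun ⟨_, hc⟩ => hc, fun hc => ⟨h, hc⟩⟩
    have hsum : ∀ B : Y →ₗ[F] X, s A * (if h' : ∃ h : W₂ ≤ W₂.comap D, ∀ d : W₂, A (φ d) + B d = φ (D.restrict h d) then
        ev Φ W₂ (D.restrict h'.1) *
          ev Ψ (X × (Y ⧸ W₂)) (E A ((B + A.comp φ' - φ'.comp D).comp t) (W₂.mapQ W₂ D h'.1)) else 0) =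
        if ∀ d : W₂, A (φ d) + B d = φ (D.restrict h d) then
          s A * (ev Φ W₂ (D.restrict h) *
            ev Ψ (X × (Y ⧸ W₂)) (E A ((B + A.comp φ' - φ'.comp D).comp t) (W₂.mapQ W₂ D h))) else 0 := by
      intro B
      by_cases hc : ∀ d : W₂, A (φ d) + B d = φ (D.restrict h d)
      · rw [dif_pos ((hiff B).mpr hc), if_pos hc]
      · rw [dif_neg (fun h' => hc ((hiff B).mp h')), if_neg hc, mul_zero]
    simp_rw [hsum]
    rw [← Finset.sum_filter]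
    refine Finset.sum_bij' (fun B _ => (B + A.comp φ' - φ'.comp D).comp t)
      (fun C _ => C.comp W₂.mkQ - A.comp φ' + φ'.comp D) (by simp) ?_ ?_ ?_ ?_
    · intro C _
      simp only [Finset.mem_filter, Finset.mem_univ, true_and]
      intro d
      have h0 : W₂.mkQ (d : Y) = 0 := by simp
      have h1 : φ' (d : Y) = φ d := hφ d
      have h2 : φ' (D d) = φ (D.restrict h d) := hφ (D.restrict h d)
      simp only [LinearMap.add_apply, LinearMap.sub_apply, LinearMap.comp_apply]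
      rw [h0, map_zero, h1, h2]
      abel
    · intro B hB
      simp only [Finset.mem_filter, Finset.mem_univ, true_and] at hB
      ext y
      have := C_t A B D W₂ h φ φ' hφ t ht hB y
      simp only [LinearMap.add_apply, LinearMap.sub_apply, LinearMap.comp_apply] at this ⊢
      rw [this]
      abel
    · intro C _
      have : C.comp W₂.mkQ - A.comp φ' + φ'.comp D + A.comp φ' - φ'.comp D = C.comp W₂.mkQ := by
        abel
      rw [this, LinearMap.comp_assoc, ht, LinearMap.comp_id]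
    · intro B _
      ring
  · rw [dif_neg h]
    apply Finset.sum_eq_zero
    intro A _
    apply Finset.sum_eq_zero
    intro B _
    rw [term_Gr hΦ hΨ A B D W₂ φ φ' hφ t ht, dif_neg (fun h' => h h'.1), mul_zero]

theorem W1_prodW (W₂ : Submodule F Y) : W1 (prodW (X := X) W₂) = ⊤ := by
  ext x
  simp [Submodule.mem_prod, LinearMap.inl]

theorem W1_Gr (W₂ : Submodule F Y) (φ : W₂ →ₗ[F] X) : W1 (Gr W₂ φ) = ⊥ := by
  ext x
  simp only [Submodule.mem_comap, Submodule.mem_bot]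
  rw [mem_Gr]
  constructor
  · rintro ⟨d, h1, h2⟩
    have hd : d = 0 := Subtype.ext (by simpa [LinearMap.inl] using h2)
    rw [← show φ d = x from h1, hd, map_zero]
  · rintro rfl
    exact ⟨0, by simp, by simp⟩

theorem eq_prodW (W : Submodule F (X × Y)) (h : W1 W = ⊤) :
    prodW (W.map (LinearMap.snd F X Y)) = W := by
  have hin : ∀ x : X, ((x, 0) : X × Y) ∈ W := by
    intro x
    have : x ∈ W1 W := by rw [h]; trivial
    exact this
  ext ⟨x, y⟩
  constructor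
  · rintro ⟨-, ⟨⟨x', y'⟩, hw, hy⟩⟩
    have hy' : y' = y := hy
    subst hy'
    have h1 : ((x - x', (0 : Y)) : X × Y) ∈ W := hin _
    have h2 := W.add_mem h1 hw
    simpa using h2
  · intro hw
    exact ⟨trivial, ⟨(x, y), hw, rfl⟩⟩

theorem prodW_inj {W₂ W₂' : Submodule F Y} (h : prodW (X := X) W₂ = prodW W₂') : W₂ = W₂' := by
  ext y
  have := SetLike.ext_iff.mp h ((0 : X), y)
  simpa [Submodule.mem_prod] using this

theorem exists_eq_Gr (W : Submodule F (X × Y)) (h : W1 W = ⊥) :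
    ∃ (W₂ : Submodule F Y) (φ : W₂ →ₗ[F] X), Gr W₂ φ = W := by
  classical
  let W₂ : Submodule F Y := W.map (LinearMap.snd F X Y)
  let f : W →ₗ[F] W₂ := LinearMap.codRestrict W₂ ((LinearMap.snd F X Y).comp W.subtype)
    (fun w => ⟨w.1, w.2, rfl⟩)
  have hbij : Function.Bijective f := by
    constructor
    · rw [← LinearMap.ker_eq_bot, LinearMap.ker_eq_bot']
      rintro ⟨⟨x, y⟩, hw⟩ hf
      have hy : y = 0 := congrArg Subtype.val hf
      subst hy
      have : x ∈ W1 W := hw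
      rw [h] at this
      have hx : x = 0 := this
      subst hx
      rfl
    · rintro ⟨_, w, hw, rfl⟩
      exact ⟨⟨w, hw⟩, rfl⟩
  let e := LinearEquiv.ofBijective f hbij
  refine ⟨W₂, (LinearMap.fst F X Y).comp (W.subtype.comp e.symm.toLinearMap), ?_⟩
  ext ⟨x, y⟩
  rw [mem_Gr]
  constructor
  · rintro ⟨d, h1, h2⟩
    have h3 : f (e.symm d) = d := e.apply_symm_apply d
    have h4 : ((e.symm d : W) : X × Y).2 = (d : Y) := congrArg Subtype.val h3
    have h5 : ((e.symm d : W) : X × Y) = (x, y) := Prod.ext h1 (h4.trans h2)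
    rw [← h5]
    exact (e.symm d).2
  · intro hw
    refine ⟨f ⟨(x, y), hw⟩, ?_, rfl⟩
    show ((e.symm (e ⟨(x, y), hw⟩) : W) : X × Y).1 = x
    rw [e.symm_apply_apply]

theorem Gr_inj {W₂ W₂' : Submodule F Y} {φ : W₂ →ₗ[F] X} {φ' : W₂' →ₗ[F] X}
    (h : Gr W₂ φ = Gr W₂' φ') : (⟨W₂, φ⟩ : Σ W : Submodule F Y, W →ₗ[F] X) = ⟨W₂', φ'⟩ := by
  have h1 : W₂ = W₂' := by
    ext y
    constructor
    · intro hy
      have : ((φ ⟨y, hy⟩, y) : X × Y) ∈ Gr W₂ φ := mem_Gr.mpr ⟨⟨y, hy⟩, rfl, rfl⟩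
      rw [h] at this
      obtain ⟨d, _, h3⟩ := mem_Gr.mp this
      have h3' : (d : Y) = y := h3
      rw [← h3']
      exact d.2
    · intro hy
      have : ((φ' ⟨y, hy⟩, y) : X × Y) ∈ Gr W₂' φ' := mem_Gr.mpr ⟨⟨y, hy⟩, rfl, rfl⟩
      rw [← h] at this
      obtain ⟨d, _, h3⟩ := mem_Gr.mp this
      have h3' : (d : Y) = y := h3
      rw [← h3']
      exact d.2
  subst h1
  congr 1
  ext d
  have : ((φ d, (d : Y)) : X × Y) ∈ Gr W₂ φ := mem_Gr.mpr ⟨d, rfl, rfl⟩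
  rw [h] at this
  obtain ⟨d', h2, h3⟩ := mem_Gr.mp this
  have : d' = d := Subtype.ext h3
  subst this
  exact h2.symm

/-- The splitting of the sum over subspaces. -/
theorem sum_T_split [Nontrivial X] {s : (X →ₗ[F] X) → ℂ} (hs : Hcusp s) {Φ Ψ : Fam F}
    (hΦ : IsCl Φ) (hΨ : IsCl Ψ) (D : Y →ₗ[F] Y) :
    ∑ W : Submodule F (X × Y), T s Φ Ψ D W =
      ∑ W₂ : Submodule F Y, T s Φ Ψ D (prodW W₂) +
        ∑ x : (Σ W₂ : Submodule F Y, W₂ →ₗ[F] X), T s Φ Ψ D (Gr x.1 x.2) := by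
  classical
  rw [← Finset.sum_filter_add_sum_filter_not Finset.univ (fun W : Submodule F (X × Y) => W1 W = ⊤)]
  congr 1
  · symm
    refine Finset.sum_bij (fun W₂ _ => prodW W₂) (by simp only [Finset.mem_filter, Finset.mem_univ, true_and]; intro W₂ _; exact W1_prodW W₂) ?_ ?_ (by simp)
    · intro a _ b _ h
      exact prodW_inj h
    · intro W hW
      simp only [Finset.mem_filter, Finset.mem_univ, true_and] at hW
      exact ⟨W.map (LinearMap.snd F X Y), Finset.mem_univ _, eq_prodW W hW⟩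
  · rw [← Finset.sum_filter_add_sum_filter_not _ (fun W : Submodule F (X × Y) => W1 W = ⊥)]
    have h0 : ∑ x ∈ ((Finset.univ.filter (fun W : Submodule F (X × Y) => ¬ W1 W = ⊤)).filter
        (fun W => ¬ W1 W = ⊥)), T s Φ Ψ D x = 0 := by
      apply Finset.sum_eq_zero
      intro W hW
      simp only [Finset.mem_filter, Finset.mem_univ, true_and] at hW
      exact T_eq_zero hs hΦ hΨ D W hW.2 hW.1
    rw [h0, add_zero]
    symm
    refine Finset.sum_bij (fun x _ => Gr x.1 x.2) ?_ ?_ ?_ (by simp)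
    · intro x _
      simp only [Finset.mem_filter, Finset.mem_univ, true_and]
      rw [W1_Gr]
      exact ⟨bot_ne_top, rfl⟩
    · rintro ⟨a, a'⟩ _ ⟨b, b'⟩ _ h
      exact Gr_inj h
    · intro W hW
      simp only [Finset.mem_filter, Finset.mem_univ, true_and] at hW
      obtain ⟨W₂, φ, h⟩ := exists_eq_Gr W hW.2
      exact ⟨⟨W₂, φ⟩, Finset.mem_univ _, h⟩

/-- Independence of the model of `Y`. -/
theorem dN_congr {Y' : Type u} [AddCommGroup Y'] [Module F Y'] [Module.Finite F Y']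
    (s : (X →ₗ[F] X) → ℂ) {Φ : Fam F} (hΦ : IsCl Φ) (e : Y ≃ₗ[F] Y') (D : Y →ₗ[F] Y)
    (D' : Y' →ₗ[F] Y') (he : ∀ y, e (D y) = D' (e y)) : dN s Φ D = dN s Φ D' := by
  classical
  let eB : (Y →ₗ[F] X) ≃ (Y' →ₗ[F] X) :=
    { toFun := fun B => B.comp e.symm.toLinearMap
      invFun := fun B => B.comp e.toLinearMap
      left_inv := by intro B; ext y; simp
      right_inv := by intro B; ext y; simp }
  unfold dN
  rw [Nat.card_congr eB, dS_eq_sum, dS_eq_sum]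
  congr 1
  refine Finset.sum_congr rfl fun A _ => ?_
  refine Fintype.sum_equiv eB _ _ ?_
  intro B
  congr 1
  refine ev_congr hΦ (LinearEquiv.prodCongr (LinearEquiv.refl F X) e) _ _ ?_
  rintro ⟨x, y⟩
  apply Prod.ext
  · simp [eB]
  · simp [he]

theorem isCl_dFam (s : (X →ₗ[F] X) → ℂ) {Φ : Fam F} (hΦ : IsCl Φ) : IsCl (dFam s Φ) := by
  intro n P M
  unfold dFam
  symm
  have h1 : (P : Matrix (Fin n) (Fin n) F) * ((P⁻¹ : GL (Fin n) F) : Matrix (Fin n) (Fin n) F) = 1 := by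
    simp
  have h2 : ((P⁻¹ : GL (Fin n) F) : Matrix (Fin n) (Fin n) F) * (P : Matrix (Fin n) (Fin n) F) = 1 := by
    simp
  refine dN_congr s hΦ (LinearEquiv.ofLinearMap (Matrix.toLin' (P : Matrix (Fin n) (Fin n) F))
    (Matrix.toLin' ((P⁻¹ : GL (Fin n) F) : Matrix (Fin n) (Fin n) F))
    (by rw [← Matrix.toLin'_mul, h1, Matrix.toLin'_one])
    (by rw [← Matrix.toLin'_mul, h2, Matrix.toLin'_one])) _ _ ?_
  intro v
  simp only [LinearEquiv.coe_ofLinearMap, Matrix.toLin'_apply, Matrix.mulVec_mulVec]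
  congr 1
  rw [Matrix.mul_assoc, Matrix.mul_assoc, h2, Matrix.mul_one]

theorem ev_dFam (s : (X →ₗ[F] X) → ℂ) {Φ : Fam F} (hΦ : IsCl Φ) (D : Y →ₗ[F] Y) :
    ev (dFam s Φ) Y D = dN s Φ D := by
  classical
  unfold ev dFam
  symm
  refine dN_congr s hΦ (finBasis F Y).equivFun _ _ ?_
  intro v
  rw [Matrix.toLin'_apply]
  ext i
  have := LinearMap.toMatrix_mulVec_repr (finBasis F Y) (finBasis F Y) D v
  simp only [Basis.equivFun_apply]
  rw [this]

/-- The Leibniz rule. -/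
theorem leibniz [Nontrivial X] {s : (X →ₗ[F] X) → ℂ} (hs : Hcusp s) {Φ Ψ : Fam F}
    (hΦ : IsCl Φ) (hΨ : IsCl Ψ) (D : Y →ₗ[F] Y) :
    dN s (hall Φ Ψ) D = pev (dFam s Φ) Ψ Y D + pev Φ (dFam s Ψ) Y D := by
  classical
  unfold dN
  rw [dS_hall s hΦ hΨ, sum_T_split hs hΦ hΨ, mul_add]
  congr 1
  · rw [pev_eq_sum]
    simp_rw [T_prodW s hΦ hΨ]
    rw [sum_dite_subtype (fun W₂ : Submodule F Y => W₂ ≤ W₂.comap D), Finset.mul_sum]
    refine Finset.sum_congr rfl fun W _ => ?_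
    rw [ev_dFam s hΦ]
    unfold dN
    rw [card_hom_split (X := X) W.1]
    have h1 : (Nat.card (W.1 →ₗ[F] X) : ℂ) ≠ 0 := by
      exact_mod_cast Nat.card_pos.ne'
    have h2 : (Nat.card ((Y ⧸ W.1) →ₗ[F] X) : ℂ) ≠ 0 := by
      exact_mod_cast Nat.card_pos.ne'
    push_cast
    field_simp
  · rw [pev_eq_sum, Fintype.sum_sigma]
    have h1 : ∀ W₂ : Submodule F Y, ∑ φ : W₂ →ₗ[F] X, T s Φ Ψ D (Gr W₂ φ) =
        if h : W₂ ≤ W₂.comap D then
          (Nat.card (W₂ →ₗ[F] X) : ℂ) * (ev Φ W₂ (D.restrict h) * dS s Ψ (W₂.mapQ W₂ D h))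
        else 0 := by
      intro W₂
      simp_rw [T_Gr s hΦ hΨ]
      by_cases h : W₂ ≤ W₂.comap D
      · simp only [dif_pos h]
        rw [Finset.sum_const, Finset.card_univ, nsmul_eq_mul, Nat.card_eq_fintype_card]
      · simp [dif_neg h]
    simp_rw [h1]
    rw [sum_dite_subtype (fun W₂ : Submodule F Y => W₂ ≤ W₂.comap D), Finset.mul_sum]
    refine Finset.sum_congr rfl fun W _ => ?_
    rw [ev_dFam s hΨ]
    unfold dN
    rw [card_hom_split (X := X) W.1]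
    have h1 : (Nat.card (W.1 →ₗ[F] X) : ℂ) ≠ 0 := by
      exact_mod_cast Nat.card_pos.ne'
    have h2 : (Nat.card ((Y ⧸ W.1) →ₗ[F] X) : ℂ) ≠ 0 := by
      exact_mod_cast Nat.card_pos.ne'
    push_cast
    field_simp

/-- The Leibniz rule for families. -/
theorem dFam_hall [Nontrivial X] {s : (X →ₗ[F] X) → ℂ} (hs : Hcusp s) {Φ Ψ : Fam F}
    (hΦ : IsCl Φ) (hΨ : IsCl Ψ) (n : ℕ) (M : Matrix (Fin n) (Fin n) F) :
    dFam s (hall Φ Ψ) n M = hall (dFam s Φ) Ψ n M + hall Φ (dFam s Ψ) n M :=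
  leibniz hs hΦ hΨ _

end Cfsg.Agent.Lib.GLH.Leibniz3
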