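import Cfsg.Agent.Lib.GLH.Defs
import Mathlib

/-!
# The degree of a cuspidal class function on `GL_n(F)`.

`degree_of_cusp`: `χ 1 = whit ψ₀ χ * ∏_{1 ≤ i < n} (q ^ i - 1)` for cuspidal class functions.
Also `card_U`: `|U_n| = ∏_{1 ≤ i < n} q ^ i`.
-/

set_option autoImplicit false
set_option linter.unusedSectionVars false

namespace Cfsg.Agent.Lib.GLH.Mirabolic

open Matrix Cfsg.Agent.Lib.GLH.Defs
open scoped ComplexConjugate

universe u

variable {F : Type u} [Field F]

/-- Matrices `[[1, B], [0, D]]` with `D` upper unitriangular of size `n - c`. -/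
def InR {n : ℕ} (c : ℕ) (g : Matrix (Fin n) (Fin n) F) : Prop :=
  (∀ i j : Fin n, j.val < c → g i j = (1 : Matrix (Fin n) (Fin n) F) i j) ∧
  (∀ i j : Fin n, c ≤ j.val → j ≤ i → g i j = (1 : Matrix (Fin n) (Fin n) F) i j)

/-- The sum of the super-diagonal entries in columns `≥ c`. -/
def supc {n : ℕ} (c : ℕ) (g : Matrix (Fin n) (Fin n) F) : F :=
  ∑ i : Fin n, if h : i.val + 1 < n ∧ c ≤ i.val + 1 then g i ⟨i.val + 1, h.1⟩ else 0

lemma supc_one {n : ℕ} (g : Matrix (Fin n) (Fin n) F) : supc 1 g = sup g := by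
  unfold supc sup
  refine Finset.sum_congr rfl fun i _ => ?_
  by_cases h : i.val + 1 < n
  · rw [dif_pos ⟨h, by omega⟩, dif_pos h]
  · rw [dif_neg (fun h' => h h'.1), dif_neg h]

lemma supc_succ {n c : ℕ} (hc0 : 0 < c) (hc : c < n) (g : Matrix (Fin n) (Fin n) F) :
    supc c g = g ⟨c - 1, by omega⟩ ⟨c, hc⟩ + supc (c + 1) g := by
  classical
  unfold supc
  have key : ∀ i : Fin n, (if h : i.val + 1 < n ∧ c ≤ i.val + 1 then g i ⟨i.val + 1, h.1⟩ else 0) =
      (if i = ⟨c - 1, by omega⟩ then g ⟨c - 1, by omega⟩ ⟨c, hc⟩ else 0) +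
      (if h : i.val + 1 < n ∧ c + 1 ≤ i.val + 1 then g i ⟨i.val + 1, h.1⟩ else 0) := by
    intro i
    by_cases hi : i = ⟨c - 1, by omega⟩
    · subst hi
      have h1 : (c - 1) + 1 = c := by omega
      rw [dif_pos (by simp only []; omega), if_pos rfl, dif_neg (by simp only []; omega), add_zero]
      congr 2
    · rw [if_neg hi, zero_add]
      have hne : i.val ≠ c - 1 := fun h => hi (Fin.ext h)
      by_cases h : i.val + 1 < n ∧ c ≤ i.val + 1
      · rw [dif_pos h, dif_pos ⟨h.1, by omega⟩]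
      · rw [dif_neg h, dif_neg (fun h' => h ⟨h'.1, by omega⟩)]
  simp_rw [key]
  rw [Finset.sum_add_distrib, Finset.sum_ite_eq']
  simp

/-- Entries of `g * x` for `x` in `N n c`, first `c` columns. -/
lemma mul_N_col {n c : ℕ} {x : Matrix (Fin n) (Fin n) F}
    (hx : ∀ i j : Fin n, ¬ (i.val < c ∧ c ≤ j.val) → x i j = (1 : Matrix (Fin n) (Fin n) F) i j)
    (g : Matrix (Fin n) (Fin n) F) (i j : Fin n) (hj : j.val < c) : (g * x) i j = g i j := by
  have : (g * x) i j = (g * (1 : Matrix (Fin n) (Fin n) F)) i j := by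
    rw [Matrix.mul_apply, Matrix.mul_apply]
    refine Finset.sum_congr rfl fun k _ => ?_
    rw [hx k j (by omega)]
  rw [this, Matrix.mul_one]

/-- Entries of `g * x` for `x` in `N n c`, when the row vanishes on the first `c` columns. -/
lemma mul_N_low {n c : ℕ} {x : Matrix (Fin n) (Fin n) F}
    (hx : ∀ i j : Fin n, ¬ (i.val < c ∧ c ≤ j.val) → x i j = (1 : Matrix (Fin n) (Fin n) F) i j)
    (g : Matrix (Fin n) (Fin n) F) (i j : Fin n) (h0 : ∀ k : Fin n, k.val < c → g i k = 0) :
    (g * x) i j = g i j := by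
  have : (g * x) i j = (g * (1 : Matrix (Fin n) (Fin n) F)) i j := by
    rw [Matrix.mul_apply, Matrix.mul_apply]
    refine Finset.sum_congr rfl fun k _ => ?_
    by_cases hk : k.val < c
    · rw [h0 k hk, zero_mul, zero_mul]
    · rw [hx k j (by omega)]
  rw [this, Matrix.mul_one]

lemma InR.low {n c : ℕ} {g : Matrix (Fin n) (Fin n) F} (hg : InR c g) (i k : Fin n) (hi : c ≤ i.val)
    (hk : k.val < c) : g i k = 0 := by
  rw [hg.1 i k hk, Matrix.one_apply_ne]
  intro h; subst h; omega

lemma inR_mul_N {n c : ℕ} {x : Matrix (Fin n) (Fin n) F}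
    (hx : ∀ i j : Fin n, ¬ (i.val < c ∧ c ≤ j.val) → x i j = (1 : Matrix (Fin n) (Fin n) F) i j)
    (g : Matrix (Fin n) (Fin n) F) : InR c (g * x) ↔ InR c g := by
  constructor
  · intro h
    have h1 : ∀ i j : Fin n, j.val < c → g i j = (1 : Matrix (Fin n) (Fin n) F) i j := by
      intro i j hj
      rw [← mul_N_col hx g i j hj]; exact h.1 i j hj
    refine ⟨h1, fun i j hj hji => ?_⟩
    rw [← mul_N_low hx g i j]
    · exact h.2 i j hj hji
    · intro k hk
      rw [h1 i k hk, Matrix.one_apply_ne]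
      intro h'; subst h'
      have : j.val ≤ i.val := hji
      omega
  · intro h
    refine ⟨fun i j hj => ?_, fun i j hj hji => ?_⟩
    · rw [mul_N_col hx g i j hj]; exact h.1 i j hj
    · rw [mul_N_low hx g i j]
      · exact h.2 i j hj hji
      · intro k hk
        have : j.val ≤ i.val := hji
        exact h.low i k (by omega) hk

lemma supc_mul_N {n c : ℕ} {x : Matrix (Fin n) (Fin n) F}
    (hx : ∀ i j : Fin n, ¬ (i.val < c ∧ c ≤ j.val) → x i j = (1 : Matrix (Fin n) (Fin n) F) i j)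
    {g : Matrix (Fin n) (Fin n) F} (hg : InR c g) : supc (c + 1) (g * x) = supc (c + 1) g := by
  unfold supc
  refine Finset.sum_congr rfl fun i _ => ?_
  by_cases h : i.val + 1 < n ∧ c + 1 ≤ i.val + 1
  · rw [dif_pos h, dif_pos h]
    exact mul_N_low hx g _ _ (fun k hk => hg.low i k (by omega) hk)
  · rw [dif_neg h, dif_neg h]


section sums

variable {n : ℕ} (ψ₀ : AddChar F ℂ) (χ : GL (Fin n) F → ℂ)

open Classical in
/-- The partial Whittaker sum `S(c) = ∑_{g ∈ R(c)} conj (ψ_c g) χ g`. -/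
noncomputable def S [Fintype (GL (Fin n) F)] (c : ℕ) : ℂ :=
  ∑ g : GL (Fin n) F, if InR c (g : Matrix (Fin n) (Fin n) F) then
    conj (ψ₀ (supc c (g : Matrix (Fin n) (Fin n) F))) * χ g else 0

variable {ψ₀ χ}

open Classical in
/-- `T(0) = 0` by cuspidality. -/
lemma T_zero [Fintype (GL (Fin n) F)] {c : ℕ} (hc0 : 0 < c) (hc : c < n) (hχ : Cusp χ) :
    (∑ g : GL (Fin n) F, if InR c (g : Matrix (Fin n) (Fin n) F) then
      conj (ψ₀ (supc (c + 1) (g : Matrix (Fin n) (Fin n) F))) * χ g else 0) = 0 := by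
  set φ : GL (Fin n) F → ℂ := fun g => if InR c (g : Matrix (Fin n) (Fin n) F) then
    conj (ψ₀ (supc (c + 1) (g : Matrix (Fin n) (Fin n) F))) else 0 with hφ
  have hφx : ∀ (g x : GL (Fin n) F), x ∈ N (F := F) n c → φ (g * x) = φ g := by
    intro g x hx
    have hx' : ∀ i j : Fin n, ¬ (i.val < c ∧ c ≤ j.val) →
        (x : Matrix (Fin n) (Fin n) F) i j = (1 : Matrix (Fin n) (Fin n) F) i j := hx
    simp only [hφ, Units.val_mul]
    by_cases hg : InR c (g : Matrix (Fin n) (Fin n) F)
    · rw [if_pos hg, if_pos ((inR_mul_N hx' _).2 hg), supc_mul_N hx' hg]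
    · rw [if_neg hg, if_neg (fun h => hg ((inR_mul_N hx' _).1 h))]
  have hA : (∑ g : GL (Fin n) F, if InR c (g : Matrix (Fin n) (Fin n) F) then
      conj (ψ₀ (supc (c + 1) (g : Matrix (Fin n) (Fin n) F))) * χ g else 0) =
      ∑ g : GL (Fin n) F, φ g * χ g := by
    refine Finset.sum_congr rfl fun g _ => ?_
    simp only [hφ]
    split_ifs <;> simp
  rw [hA]
  set A := ∑ g : GL (Fin n) F, φ g * χ g with hAdef
  letI : Fintype (N (F := F) n c) := Fintype.ofFinite _
  have hx1 : ∀ x : N (F := F) n c, A = ∑ g : GL (Fin n) F, φ g * χ (g * x) := by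
    intro x
    rw [hAdef, ← Equiv.sum_comp (Equiv.mulRight (x : GL (Fin n) F))]
    refine Finset.sum_congr rfl fun g _ => ?_
    simp only [Equiv.coe_mulRight]
    rw [hφx g x x.2]
  have hsum : (Fintype.card (N (F := F) n c) : ℂ) * A = 0 := by
    calc (Fintype.card (N (F := F) n c) : ℂ) * A = ∑ _x : N (F := F) n c, A := by
          simp [Finset.card_univ]
      _ = ∑ x : N (F := F) n c, ∑ g : GL (Fin n) F, φ g * χ (g * x) :=
          Finset.sum_congr rfl fun x _ => hx1 x
      _ = ∑ g : GL (Fin n) F, φ g * ∑ x : N (F := F) n c, χ (g * x) := by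
          rw [Finset.sum_comm]
          refine Finset.sum_congr rfl fun g _ => ?_
          rw [Finset.mul_sum]
      _ = 0 := by
          refine Finset.sum_eq_zero fun g _ => ?_
          by_cases hg : InR c (g : Matrix (Fin n) (Fin n) F)
          · have := hχ c hc0 hc g (fun i j hi hj => hg.low i j hi hj)
            rw [finsum_eq_sum_of_fintype] at this
            rw [this, mul_zero]
          · simp only [hφ]
            rw [if_neg hg, zero_mul]
  have hne : (Fintype.card (N (F := F) n c) : ℂ) ≠ 0 := by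
    haveI : Nonempty (N (F := F) n c) := ⟨⟨1, fun i j _ => by simp⟩⟩
    exact_mod_cast Fintype.card_ne_zero
  exact (mul_eq_zero.mp hsum).resolve_left hne

end sums


section block

lemma sum_fin_lt {n c : ℕ} (hc : c ≤ n) {R : Type*} [AddCommMonoid R] (f : Fin n → R)
    (hf : ∀ k : Fin n, c ≤ k.val → f k = 0) :
    ∑ k : Fin n, f k = ∑ k : Fin c, f (Fin.castLE hc k) := by
  classical
  have := Finset.sum_map Finset.univ (Fin.castLEEmb hc) f
  simp only [Fin.castLEEmb_apply] at this
  rw [← this]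
  symm
  apply Finset.sum_subset (Finset.subset_univ _)
  intro k _ hk
  apply hf
  by_contra h
  push Not at h
  apply hk
  simp only [Finset.mem_map, Finset.mem_univ, true_and, Fin.castLEEmb_apply]
  exact ⟨⟨k, h⟩, rfl⟩

/-- The block matrix `[[A, 0], [0, 1]]`. -/
def blk (n : ℕ) {c : ℕ} (A : Matrix (Fin c) (Fin c) F) : Matrix (Fin n) (Fin n) F :=
  fun i j => if h : i.val < c ∧ j.val < c then A ⟨i, h.1⟩ ⟨j, h.2⟩ else
    (1 : Matrix (Fin n) (Fin n) F) i j

variable {n c : ℕ}

lemma blk_mul_low (A : Matrix (Fin c) (Fin c) F) (g : Matrix (Fin n) (Fin n) F) (i j : Fin n)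
    (hi : c ≤ i.val) : (blk n A * g) i j = g i j := by
  have : (blk n A * g) i j = ((1 : Matrix (Fin n) (Fin n) F) * g) i j := by
    rw [Matrix.mul_apply, Matrix.mul_apply]
    refine Finset.sum_congr rfl fun k _ => ?_
    unfold blk
    rw [dif_neg (by omega)]
  rw [this, Matrix.one_mul]

lemma blk_mul_top (hc : c ≤ n) (A : Matrix (Fin c) (Fin c) F) (g : Matrix (Fin n) (Fin n) F)
    (i j : Fin n) (hi : i.val < c) :
    (blk n A * g) i j = ∑ k : Fin c, A ⟨i, hi⟩ k * g (Fin.castLE hc k) j := by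
  rw [Matrix.mul_apply, sum_fin_lt hc]
  · refine Finset.sum_congr rfl fun k _ => ?_
    unfold blk
    rw [dif_pos ⟨hi, by simp⟩]
    rfl
  · intro k hk
    unfold blk
    rw [dif_neg (by omega), Matrix.one_apply_ne, zero_mul]
    intro h; subst h; omega

lemma mul_blk_right (A : Matrix (Fin c) (Fin c) F) (g : Matrix (Fin n) (Fin n) F) (i j : Fin n)
    (hj : c ≤ j.val) : (g * blk n A) i j = g i j := by
  have : (g * blk n A) i j = (g * (1 : Matrix (Fin n) (Fin n) F)) i j := by
    rw [Matrix.mul_apply, Matrix.mul_apply]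
    refine Finset.sum_congr rfl fun k _ => ?_
    unfold blk
    rw [dif_neg (by omega)]
  rw [this, Matrix.mul_one]

lemma mul_blk_left (hc : c ≤ n) (A : Matrix (Fin c) (Fin c) F) (g : Matrix (Fin n) (Fin n) F)
    (i j : Fin n) (hj : j.val < c) :
    (g * blk n A) i j = ∑ k : Fin c, g i (Fin.castLE hc k) * A k ⟨j, hj⟩ := by
  rw [Matrix.mul_apply, sum_fin_lt hc]
  · refine Finset.sum_congr rfl fun k _ => ?_
    unfold blk
    rw [dif_pos ⟨by simp, hj⟩]
    rfl
  · intro k hk
    unfold blk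
    rw [dif_neg (by omega), Matrix.one_apply_ne, mul_zero]
    intro h; subst h; omega

lemma blk_one (hc : c ≤ n) : blk n (1 : Matrix (Fin c) (Fin c) F) = 1 := by
  ext i j
  unfold blk
  by_cases h : i.val < c ∧ j.val < c
  · rw [dif_pos h]
    by_cases hij : i = j
    · subst hij; simp
    · rw [Matrix.one_apply_ne hij, Matrix.one_apply_ne]
      intro h'; exact hij (Fin.ext (by simpa using h'))
  · rw [dif_neg h]

lemma blk_mul (hc : c ≤ n) (A B : Matrix (Fin c) (Fin c) F) :
    blk n (A * B) = blk n A * blk n B := by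
  ext i j
  by_cases hi : i.val < c
  · rw [blk_mul_top hc A _ i j hi]
    by_cases hj : j.val < c
    · unfold blk
      rw [dif_pos ⟨hi, hj⟩, Matrix.mul_apply]
      refine Finset.sum_congr rfl fun k _ => ?_
      rw [dif_pos ⟨by simp, hj⟩]
      rfl
    · have hne : i ≠ j := by intro h; subst h; exact hj hi
      unfold blk
      rw [dif_neg (by omega), Matrix.one_apply_ne hne]
      refine (Finset.sum_eq_zero fun k _ => ?_).symm
      rw [dif_neg (by simp; omega), Matrix.one_apply_ne, mul_zero]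
      intro h
      have := congrArg Fin.val h
      simp at this
      omega
  · rw [blk_mul_low _ _ _ _ (by omega)]
    unfold blk
    rw [dif_neg (by omega), dif_neg (by omega)]

/-- The block embedding on units. -/
def blkU (hc : c ≤ n) (A : GL (Fin c) F) : GL (Fin n) F where
  val := blk n (A : Matrix (Fin c) (Fin c) F)
  inv := blk n ((A⁻¹ : GL (Fin c) F) : Matrix (Fin c) (Fin c) F)
  val_inv := by rw [← blk_mul hc, Units.mul_inv, blk_one hc]
  inv_val := by rw [← blk_mul hc, Units.inv_mul, blk_one hc]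

lemma blkU_inv (hc : c ≤ n) (A : GL (Fin c) F) : (blkU hc A)⁻¹ = blkU hc A⁻¹ := by
  apply Units.ext
  rfl

lemma blkU_inv_inv (hc : c ≤ n) (A : GL (Fin c) F) :
    (((blkU hc A)⁻¹ : GL (Fin n) F) : Matrix (Fin n) (Fin n) F) =
      blk n ((A⁻¹ : GL (Fin c) F) : Matrix (Fin c) (Fin c) F) := rfl

/-- The conjugate `h g h⁻¹`, entries outside the top rows of the first `c` columns. -/
lemma conj_low (A B : Matrix (Fin c) (Fin c) F) (g : Matrix (Fin n) (Fin n) F) (i j : Fin n)
    (hi : c ≤ i.val) (hj : c ≤ j.val) : (blk n A * g * blk n B) i j = g i j := by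
  rw [mul_blk_right _ _ _ _ hj, blk_mul_low _ _ _ _ hi]

lemma conj_top (hc : c ≤ n) (A B : Matrix (Fin c) (Fin c) F) (g : Matrix (Fin n) (Fin n) F)
    (i j : Fin n) (hi : i.val < c) (hj : c ≤ j.val) :
    (blk n A * g * blk n B) i j = ∑ k : Fin c, A ⟨i, hi⟩ k * g (Fin.castLE hc k) j := by
  rw [mul_blk_right _ _ _ _ hj, blk_mul_top hc _ _ _ _ hi]

lemma conj_col (hc : c ≤ n) (A : GL (Fin c) F) {g : Matrix (Fin n) (Fin n) F}
    (hg : InR c g) (i j : Fin n) (hj : j.val < c) :
    (blk n (A : Matrix (Fin c) (Fin c) F) * g *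
      blk n ((A⁻¹ : GL (Fin c) F) : Matrix (Fin c) (Fin c) F)) i j =
      (1 : Matrix (Fin n) (Fin n) F) i j := by
  rw [mul_blk_left hc _ _ _ _ hj]
  by_cases hi : i.val < c
  · have key : ∀ k : Fin c, (blk n (A : Matrix (Fin c) (Fin c) F) * g) i (Fin.castLE hc k) =
        (A : Matrix (Fin c) (Fin c) F) ⟨i, hi⟩ k := by
      intro k
      rw [blk_mul_top hc _ _ _ _ hi]
      rw [Finset.sum_eq_single k]
      · rw [hg.1 _ _ (by simp), Matrix.one_apply_eq, mul_one]
      · intro l _ hl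
        rw [hg.1 _ _ (by simp), Matrix.one_apply_ne, mul_zero]
        intro h; exact hl (by simpa using h)
      · simp
    simp_rw [key]
    have h2 : ((A : Matrix (Fin c) (Fin c) F) * ((A⁻¹ : GL (Fin c) F) : Matrix (Fin c) (Fin c) F))
        ⟨i, hi⟩ ⟨j, hj⟩ = (1 : Matrix (Fin c) (Fin c) F) ⟨i, hi⟩ ⟨j, hj⟩ := by
      rw [Units.mul_inv]
    rw [Matrix.mul_apply] at h2
    rw [h2]
    by_cases hij : i = j
    · subst hij; simp
    · rw [Matrix.one_apply_ne hij, Matrix.one_apply_ne]
      intro h'; exact hij (Fin.ext (by simpa using h'))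
  · have key : ∀ k : Fin c, (blk n (A : Matrix (Fin c) (Fin c) F) * g) i (Fin.castLE hc k) = 0 := by
      intro k
      rw [blk_mul_low _ _ _ _ (by omega)]
      exact hg.low _ _ (by omega) (by simp)
    simp_rw [key, zero_mul]
    rw [Finset.sum_const_zero, Matrix.one_apply_ne]
    intro h; subst h; exact hi hj

lemma inR_conj (hc : c ≤ n) (A : GL (Fin c) F) {g : Matrix (Fin n) (Fin n) F} (hg : InR c g) :
    InR c (blk n (A : Matrix (Fin c) (Fin c) F) * g *
      blk n ((A⁻¹ : GL (Fin c) F) : Matrix (Fin c) (Fin c) F)) := by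
  refine ⟨fun i j hj => conj_col hc A hg i j hj, fun i j hj hji => ?_⟩
  have : j.val ≤ i.val := hji
  rw [conj_low _ _ _ _ _ (by omega) hj]
  exact hg.2 i j hj hji

lemma supc_conj (A B : Matrix (Fin c) (Fin c) F) (g : Matrix (Fin n) (Fin n) F) :
    supc (c + 1) (blk n A * g * blk n B) = supc (c + 1) g := by
  unfold supc
  refine Finset.sum_congr rfl fun i _ => ?_
  by_cases h : i.val + 1 < n ∧ c + 1 ≤ i.val + 1
  · rw [dif_pos h, dif_pos h]
    exact conj_low _ _ _ _ _ (by omega) (by simp; omega)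
  · rw [dif_neg h, dif_neg h]

/-- The pairing `v · (top of column c)`. -/
def dot (hc : c < n) (v : Fin c → F) (g : Matrix (Fin n) (Fin n) F) : F :=
  ∑ i : Fin c, v i * g (Fin.castLE hc.le i) ⟨c, hc⟩

lemma dot_conj (hc : c < n) (v : Fin c → F) (A B : Matrix (Fin c) (Fin c) F)
    (g : Matrix (Fin n) (Fin n) F) : dot hc v (blk n A * g * blk n B) = dot hc (v ᵥ* A) g := by
  unfold dot
  have : ∀ i : Fin c, (blk n A * g * blk n B) (Fin.castLE hc.le i) ⟨c, hc⟩ =
      ∑ k : Fin c, A i k * g (Fin.castLE hc.le k) ⟨c, hc⟩ := by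
    intro i
    rw [conj_top hc.le _ _ _ _ _ (by simp) (by simp)]
    rfl
  simp_rw [this, Finset.mul_sum, Matrix.vecMul, dotProduct, Finset.sum_mul]
  rw [Finset.sum_comm]
  refine Finset.sum_congr rfl fun k _ => Finset.sum_congr rfl fun i _ => ?_
  ring

lemma exists_vecMul_eq {c : ℕ} {v w : Fin c → F} (hv : v ≠ 0) (hw : w ≠ 0) :
    ∃ A : GL (Fin c) F, v ᵥ* (A : Matrix (Fin c) (Fin c) F) = w := by
  classical
  let f := (LinearEquiv.toSpanNonzeroSingleton F (Fin c → F) v hv).symm ≪≫ₗ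
    LinearEquiv.toSpanNonzeroSingleton F (Fin c → F) w hw
  obtain ⟨g, hg⟩ := Submodule.exists_linearEquiv_restrict_eq f
  have hgv : g v = w := by
    have h1 := hg ⟨v, Submodule.mem_span_singleton_self v⟩
    have h2 : f ⟨v, Submodule.mem_span_singleton_self v⟩ =
        ⟨w, Submodule.mem_span_singleton_self w⟩ := by
      have : (LinearEquiv.toSpanNonzeroSingleton F (Fin c → F) v hv).symm
          ⟨v, Submodule.mem_span_singleton_self v⟩ = 1 := by
        rw [LinearEquiv.symm_apply_eq]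
        ext
        simp
      simp only [f, LinearEquiv.trans_apply, this]
      ext
      simp
    rw [h2] at h1
    exact h1.symm
  have hdet : IsUnit (LinearMap.toMatrix' (g : (Fin c → F) →ₗ[F] (Fin c → F))).det := by
    rw [LinearMap.det_toMatrix']
    exact LinearEquiv.isUnit_det' g
  refine ⟨Matrix.GeneralLinearGroup.mk'' ((LinearMap.toMatrix' (g : (Fin c → F) →ₗ[F] (Fin c → F)))ᵀ)
    (by rw [Matrix.det_transpose]; exact hdet), ?_⟩
  simp only [Matrix.GeneralLinearGroup.val_mk'']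
  rw [Matrix.vecMul_transpose, LinearMap.toMatrix'_mulVec]
  exact hgv

end block


section main

variable {n c : ℕ} {ψ₀ : AddChar F ℂ} {χ : GL (Fin n) F → ℂ}

open Classical in
/-- The auxiliary sums `T(v)`. -/
noncomputable def T [Fintype (GL (Fin n) F)] (ψ₀ : AddChar F ℂ) (χ : GL (Fin n) F → ℂ) (hc : c < n)
    (v : Fin c → F) : ℂ :=
  ∑ g : GL (Fin n) F, if InR c (g : Matrix (Fin n) (Fin n) F) then
    conj (ψ₀ (dot hc v (g : Matrix (Fin n) (Fin n) F))) *
      (conj (ψ₀ (supc (c + 1) (g : Matrix (Fin n) (Fin n) F))) * χ g) else 0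

open Classical in
lemma T_conj [Fintype (GL (Fin n) F)] (hc : c < n) (hcl : Cfsg.IsClassFunction _ χ) (v : Fin c → F)
    (A : GL (Fin c) F) : T ψ₀ χ hc v = T ψ₀ χ hc (v ᵥ* (A : Matrix (Fin c) (Fin c) F)) := by
  unfold T
  rw [← Equiv.sum_comp (MulAut.conj (blkU hc.le A)).toEquiv]
  refine Finset.sum_congr rfl fun g _ => ?_
  have hval : (((MulAut.conj (blkU hc.le A)).toEquiv g : GL (Fin n) F) : Matrix (Fin n) (Fin n) F) =
      blk n (A : Matrix (Fin c) (Fin c) F) * (g : Matrix (Fin n) (Fin n) F) *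
        blk n ((A⁻¹ : GL (Fin c) F) : Matrix (Fin c) (Fin c) F) := by
    simp only [MulEquiv.toEquiv_eq_coe, EquivLike.coe_coe, MulAut.conj_apply, Units.val_mul]
    rfl
  have hχ' : χ ((MulAut.conj (blkU hc.le A)).toEquiv g) = χ g := by
    simp only [MulEquiv.toEquiv_eq_coe, EquivLike.coe_coe, MulAut.conj_apply]
    exact hcl g _
  have hiff : InR c (blk n (A : Matrix (Fin c) (Fin c) F) * (g : Matrix (Fin n) (Fin n) F) *
        blk n ((A⁻¹ : GL (Fin c) F) : Matrix (Fin c) (Fin c) F)) ↔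
      InR c (g : Matrix (Fin n) (Fin n) F) := by
    refine ⟨fun h => ?_, fun h => inR_conj hc.le A h⟩
    have := inR_conj hc.le A⁻¹ h
    have e1 : blk n (((A⁻¹ : GL (Fin c) F)) : Matrix (Fin c) (Fin c) F) *
        (blk n (A : Matrix (Fin c) (Fin c) F) * (g : Matrix (Fin n) (Fin n) F) *
        blk n ((A⁻¹ : GL (Fin c) F) : Matrix (Fin c) (Fin c) F)) *
        blk n (((A⁻¹ : GL (Fin c) F)⁻¹ : GL (Fin c) F) : Matrix (Fin c) (Fin c) F) =
        (g : Matrix (Fin n) (Fin n) F) := by
      have h1 : blk n (((A⁻¹ : GL (Fin c) F)) : Matrix (Fin c) (Fin c) F) *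
          blk n (A : Matrix (Fin c) (Fin c) F) = 1 := by
        rw [← blk_mul hc.le, Units.inv_mul, blk_one hc.le]
      have h2 : blk n ((A⁻¹ : GL (Fin c) F) : Matrix (Fin c) (Fin c) F) *
          blk n (((A⁻¹ : GL (Fin c) F)⁻¹ : GL (Fin c) F) : Matrix (Fin c) (Fin c) F) = 1 := by
        rw [← blk_mul hc.le, Units.mul_inv, blk_one hc.le]
      calc _ = (blk n (((A⁻¹ : GL (Fin c) F)) : Matrix (Fin c) (Fin c) F) *
            blk n (A : Matrix (Fin c) (Fin c) F)) * (g : Matrix (Fin n) (Fin n) F) *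
            (blk n ((A⁻¹ : GL (Fin c) F) : Matrix (Fin c) (Fin c) F) *
            blk n (((A⁻¹ : GL (Fin c) F)⁻¹ : GL (Fin c) F) : Matrix (Fin c) (Fin c) F)) := by
            simp only [Matrix.mul_assoc]
        _ = _ := by rw [h1, h2, Matrix.one_mul, Matrix.mul_one]
    rwa [e1] at this
  simp only [hval]
  by_cases hg : InR c (g : Matrix (Fin n) (Fin n) F)
  · rw [if_pos (hiff.2 hg), if_pos hg, dot_conj, supc_conj, hχ']
  · rw [if_neg (fun h => hg (hiff.1 h)), if_neg hg]

open Classical in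
lemma T_single [Fintype (GL (Fin n) F)] (hc0 : 0 < c) (hc : c < n) :
    T ψ₀ χ hc (Pi.single ⟨c - 1, by omega⟩ 1) = S ψ₀ χ c := by
  unfold T S
  refine Finset.sum_congr rfl fun g _ => ?_
  by_cases hg : InR c (g : Matrix (Fin n) (Fin n) F)
  · rw [if_pos hg, if_pos hg, supc_succ hc0 hc, AddChar.map_add_eq_mul, map_mul, mul_assoc]
    congr 3
    unfold dot
    rw [Finset.sum_eq_single ⟨c - 1, by omega⟩]
    · simp
    · intro b _ hb
      simp [hb]
    · simp
  · rw [if_neg hg, if_neg hg]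

lemma inR_succ_iff {c : ℕ} (hc : c < n) (g : Matrix (Fin n) (Fin n) F) :
    InR (c + 1) g ↔ InR c g ∧ ∀ i : Fin c, g (Fin.castLE hc.le i) ⟨c, hc⟩ = 0 := by
  constructor
  · intro h
    refine ⟨⟨fun i j hj => h.1 i j (by omega), fun i j hj hji => ?_⟩, fun i => ?_⟩
    · by_cases hjc : j.val < c + 1
      · exact h.1 i j hjc
      · exact h.2 i j (by omega) hji
    · rw [h.1 _ _ (by simp), Matrix.one_apply_ne]
      intro h'
      have := congrArg Fin.val h'
      simp at this
      omega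
  · rintro ⟨h, h0⟩
    refine ⟨fun i j hj => ?_, fun i j hj hji => h.2 i j (by omega) hji⟩
    by_cases hjc : j.val < c
    · exact h.1 i j hjc
    · have hjv : j = ⟨c, hc⟩ := Fin.ext (by simp; omega)
      subst hjv
      by_cases hi : i.val < c
      · have := h0 ⟨i, hi⟩
        rw [Matrix.one_apply_ne]
        · exact this
        · intro h'
          have := congrArg Fin.val h'
          simp at this
          omega
      · exact h.2 i _ (by simp) (Fin.le_def.2 (by simp only []; omega))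

open Classical in
lemma sum_dot_char [Fintype F] (hψ : ψ₀ ≠ 1) (a : Fin c → F) :
    (∑ v : Fin c → F, conj (ψ₀ (∑ i, v i * a i))) =
      if a = 0 then ((Fintype.card F : ℂ) ^ c) else 0 := by
  split_ifs with ha
  · subst ha
    simp [Finset.card_univ]
  · rw [← map_sum]
    have : (∑ v : Fin c → F, ψ₀ (∑ i, v i * a i)) = 0 := by
      let f : (Fin c → F) →+ F :=
        { toFun := fun v => ∑ i, v i * a i
          map_zero' := by simp
          map_add' := fun x y => by simp [add_mul, Finset.sum_add_distrib] }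
      have hne : ψ₀.compAddMonoidHom f ≠ 1 := by
        obtain ⟨k, hk⟩ : ∃ k, a k ≠ 0 := by
          by_contra h
          push Not at h
          exact ha (funext h)
        obtain ⟨x, hx⟩ : ∃ x, ψ₀ x ≠ 1 := by
          by_contra h
          push Not at h
          exact hψ (by ext y; simpa using h y)
        intro h1
        apply hx
        have := DFunLike.congr_fun h1 (Pi.single k (x / a k))
        simp only [AddChar.compAddMonoidHom_apply, AddChar.one_apply] at this
        have e : f (Pi.single k (x / a k)) = x := by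
          show ∑ i, (Pi.single k (x / a k) : Fin c → F) i * a i = x
          rw [Finset.sum_eq_single k]
          · simp [hk]
          · intro b _ hb
            simp [hb]
          · simp
        rwa [e] at this
      exact AddChar.sum_eq_zero_of_ne_one hne
    rw [this, map_zero]

open Classical in
/-- The key recursion `q^c S(c+1) = (q^c - 1) S(c)`. -/
theorem S_step [Fintype F] [Fintype (GL (Fin n) F)] (hc0 : 0 < c) (hc : c < n) (hψ : ψ₀ ≠ 1)
    (hcl : Cfsg.IsClassFunction _ χ) (hχ : Cusp χ) :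
    (Fintype.card F : ℂ) ^ c * S ψ₀ χ (c + 1) =
      ((Fintype.card F : ℂ) ^ c - 1) * S ψ₀ χ c := by
  set e : Fin c → F := Pi.single ⟨c - 1, by omega⟩ 1 with he
  have he0 : e ≠ 0 := by
    intro h
    have := congrFun h ⟨c - 1, by omega⟩
    simp [he] at this
  have hT : ∀ v : Fin c → F, T ψ₀ χ hc v = if v = 0 then 0 else S ψ₀ χ c := by
    intro v
    split_ifs with hv
    · subst hv
      have := T_zero (ψ₀ := ψ₀) hc0 hc hχ
      rw [← this]
      unfold T dot
      refine Finset.sum_congr rfl fun g _ => ?_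
      simp
    · obtain ⟨A, hA⟩ := exists_vecMul_eq hv he0
      rw [T_conj hc hcl v A, hA, he, T_single hc0 hc]
  have h1 : ∑ v : Fin c → F, T ψ₀ χ hc v = ((Fintype.card F : ℂ) ^ c - 1) * S ψ₀ χ c := by
    simp_rw [hT]
    rw [Finset.sum_ite, Finset.sum_const_zero, zero_add, Finset.sum_const, nsmul_eq_mul]
    congr 1
    rw [Finset.filter_ne', Finset.card_erase_of_mem (Finset.mem_univ _), Finset.card_univ]
    simp only [Fintype.card_pi, Finset.prod_const, Finset.card_univ, Fintype.card_fin]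
    rw [Nat.cast_sub (Nat.one_le_pow _ _ Fintype.card_pos)]
    simp
  have h2 : ∑ v : Fin c → F, T ψ₀ χ hc v = (Fintype.card F : ℂ) ^ c * S ψ₀ χ (c + 1) := by
    unfold T S
    rw [Finset.sum_comm, Finset.mul_sum]
    refine Finset.sum_congr rfl fun g _ => ?_
    by_cases hg : InR c (g : Matrix (Fin n) (Fin n) F)
    · simp_rw [if_pos hg]
      rw [← Finset.sum_mul]
      unfold dot
      rw [sum_dot_char hψ]
      by_cases h0 : ∀ i : Fin c, (g : Matrix (Fin n) (Fin n) F) (Fin.castLE hc.le i) ⟨c, hc⟩ = 0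
      · have h00 : (fun i : Fin c =>
            (g : Matrix (Fin n) (Fin n) F) (Fin.castLE hc.le i) ⟨c, hc⟩) = 0 := funext h0
        rw [if_pos h00, if_pos ((inR_succ_iff hc _).2 ⟨hg, h0⟩)]
      · have h00 : ¬ (fun i : Fin c =>
            (g : Matrix (Fin n) (Fin n) F) (Fin.castLE hc.le i) ⟨c, hc⟩) = 0 :=
          fun h => h0 (fun i => congrFun h i)
        rw [if_neg h00, if_neg (fun h => h0 ((inR_succ_iff hc _).1 h).2), zero_mul, mul_zero]
    · simp_rw [if_neg hg]
      rw [if_neg (fun h => hg ((inR_succ_iff hc _).1 h).1)]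
      simp
  rw [← h2, h1]


lemma S_one_eq [Fintype F] [Fintype (GL (Fin n) F)] :
    S ψ₀ χ 1 = ∑ᶠ u : U (F := F) n, conj (psi ψ₀ ((u : GL (Fin n) F) : Matrix (Fin n) (Fin n) F)) *
      χ (u : GL (Fin n) F) := by
  classical
  haveI : Fintype (U (F := F) n) := Fintype.ofFinite _
  rw [finsum_eq_sum_of_fintype]
  unfold S
  have hiff : ∀ g : GL (Fin n) F, InR 1 (g : Matrix (Fin n) (Fin n) F) ↔ g ∈ U (F := F) n := by
    intro g
    show _ ↔ IsU (g : Matrix (Fin n) (Fin n) F)
    constructor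
    · intro h i j hj
      by_cases hj0 : j.val < 1
      · exact h.1 i j hj0
      · exact h.2 i j (by omega) hj
    · intro h
      refine ⟨fun i j hj => h i j ?_, fun i j _ hji => h i j hji⟩
      exact Fin.le_def.2 (by omega)
  simp_rw [hiff, supc_one]
  rw [← Finset.sum_filter, ← Finset.sum_coe_sort]
  refine Finset.sum_bij' (fun x _ => ⟨x.1, (Finset.mem_filter.1 x.2).2⟩)
    (fun u _ => ⟨u.1, Finset.mem_filter.2 ⟨Finset.mem_univ _, u.2⟩⟩) ?_ ?_ ?_ ?_ ?_
  · intros; simp
  · intros; simp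
  · intros; rfl
  · intros; rfl
  · intros; rfl

lemma S_top [Fintype (GL (Fin n) F)] : S ψ₀ χ n = χ 1 := by
  classical
  unfold S
  have hiff : ∀ g : GL (Fin n) F, InR n (g : Matrix (Fin n) (Fin n) F) ↔ g = 1 := by
    intro g
    constructor
    · intro h
      apply Units.ext
      ext i j
      exact h.1 i j j.2
    · rintro rfl
      exact ⟨fun _ _ _ => rfl, fun _ _ _ _ => rfl⟩
  simp_rw [hiff]
  rw [Finset.sum_ite_eq' Finset.univ (1 : GL (Fin n) F), if_pos (Finset.mem_univ _)]
  have : supc n ((1 : GL (Fin n) F) : Matrix (Fin n) (Fin n) F) = 0 := by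
    unfold supc
    refine Finset.sum_eq_zero fun i _ => ?_
    rw [dif_neg]
    omega
  rw [this, AddChar.map_zero_eq_one, map_one, one_mul]

/-- `|U_n| = ∏_{1 ≤ i < n} q ^ i`. -/
theorem card_U [Fintype F] (n : ℕ) :
    Nat.card (U (F := F) n) = ∏ i ∈ Finset.Ico 1 n, Fintype.card F ^ i := by
  classical
  have hdet : ∀ M : Matrix (Fin n) (Fin n) F, IsU M → IsUnit M.det := by
    intro M hM
    have hb : M.BlockTriangular id := by
      intro i j hij
      have hij' : j < i := hij
      rw [hM i j hij'.le]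
      exact Matrix.one_apply_ne hij'.ne'
    rw [Matrix.det_of_isUpperTriangular hb]
    have : ∏ i, M i i = 1 := by
      refine Finset.prod_eq_one fun i _ => ?_
      rw [hM i i le_rfl, Matrix.one_apply_eq]
    rw [this]
    exact isUnit_one
  let mk : ({p : Fin n × Fin n // p.1 < p.2} → F) → Matrix (Fin n) (Fin n) F := fun w i j =>
    if h : i < j then w ⟨(i, j), h⟩ else (1 : Matrix (Fin n) (Fin n) F) i j
  have hmk : ∀ w, IsU (mk w) := by
    intro w i j hji
    simp only [mk]
    rw [dif_neg (not_lt.2 hji)]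
  let e : U (F := F) n ≃ ({p : Fin n × Fin n // p.1 < p.2} → F) :=
    { toFun := fun u p => ((u : GL (Fin n) F) : Matrix (Fin n) (Fin n) F) p.1.1 p.1.2
      invFun := fun w => ⟨Matrix.GeneralLinearGroup.mk'' (mk w) (hdet _ (hmk w)), by
        show IsU _
        simpa using hmk w⟩
      left_inv := by
        intro u
        apply Subtype.ext
        apply Units.ext
        ext i j
        change mk (fun p => ((u : GL (Fin n) F) : Matrix (Fin n) (Fin n) F) p.1.1 p.1.2) i j = _
        simp only [mk]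
        by_cases h : i < j
        · rw [dif_pos h]
        · rw [dif_neg h]
          exact (u.2 i j (not_lt.1 h)).symm
      right_inv := by
        intro w
        funext p
        change mk w p.1.1 p.1.2 = _
        simp only [mk]
        rw [dif_pos p.2] }
  rw [Nat.card_congr e, Nat.card_eq_fintype_card, Fintype.card_fun, Finset.prod_pow_eq_pow_sum]
  congr 1
  rw [Fintype.card_subtype, Finset.card_filter, Fintype.sum_prod_type, Finset.sum_comm]
  have h1 : ∀ j : Fin n, (∑ i : Fin n, if (i, j).1 < (i, j).2 then 1 else 0) = j.val := by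
    intro j
    rw [← Finset.card_filter]
    have : (Finset.univ.filter (fun x : Fin n => (x, j).1 < (x, j).2)) = Finset.Iio j := by
      ext; simp
    rw [this, Fin.card_Iio]
  simp_rw [h1]
  rw [Fin.sum_univ_eq_sum_range (fun i => i) n]
  rcases Nat.eq_zero_or_pos n with rfl | hn
  · simp
  · rw [Finset.range_eq_Ico, Finset.sum_eq_sum_Ico_succ_bot hn]
    simp

open Classical in
/-- The degree of a cuspidal class function. -/
theorem degree_of_cusp [Fintype F] {n : ℕ} (hn : 1 ≤ n) (ψ₀ : AddChar F ℂ) (hψ : ψ₀ ≠ 1)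
    {χ : GL (Fin n) F → ℂ} (hcl : Cfsg.IsClassFunction _ χ) (hχ : Cusp χ) :
    χ 1 = whit ψ₀ χ * ∏ i ∈ Finset.Ico 1 n, ((Fintype.card F : ℂ) ^ i - 1) := by
  haveI : Fintype (GL (Fin n) F) := Fintype.ofFinite _
  have key : ∀ m : ℕ, 1 ≤ m → m ≤ n →
      (∏ i ∈ Finset.Ico 1 m, (Fintype.card F : ℂ) ^ i) * S ψ₀ χ m =
        (∏ i ∈ Finset.Ico 1 m, ((Fintype.card F : ℂ) ^ i - 1)) * S ψ₀ χ 1 := by
    intro m hm
    induction m, hm using Nat.le_induction with
    | base => intro _; simp
    | succ m hm ih =>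
      intro hmn
      rw [Finset.prod_Ico_succ_top hm, Finset.prod_Ico_succ_top hm, mul_assoc,
        S_step (by omega) (by omega) hψ hcl hχ, mul_comm (_ - 1) (S ψ₀ χ m), ← mul_assoc, ih (by omega)]
      ring
  have h := key n hn le_rfl
  rw [S_top] at h
  have hU : (Nat.card (U (F := F) n) : ℂ) = ∏ i ∈ Finset.Ico 1 n, (Fintype.card F : ℂ) ^ i := by
    rw [card_U]
    push_cast
    rfl
  have hU0 : (Nat.card (U (F := F) n) : ℂ) ≠ 0 := by
    haveI : Nonempty (U (F := F) n) := ⟨1⟩
    exact_mod_cast Nat.card_pos.ne'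
  rw [← hU, S_one_eq] at h
  unfold whit
  apply mul_left_cancel₀ hU0
  rw [h]
  field_simp

end main

end Cfsg.Agent.Lib.GLH.Mirabolic
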