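import Mathlib.FieldTheory.Finite.Extension
import Mathlib.RingTheory.Polynomial.Basic
import Mathlib.RingTheory.Polynomial.UniqueFactorization
import Mathlib.Data.Multiset.Interval
import Mathlib.GroupTheory.SpecificGroups.Cyclic
import Mathlib.FieldTheory.IntermediateField.Adjoin.Algebra
import Mathlib.FieldTheory.Minpoly.Field
import Mathlib.Algebra.Polynomial.FieldDivision
import Mathlib.RingTheory.IntegralClosure.IsIntegralClosure.Basic
import Mathlib.RingTheory.PowerBasis

/-!
# Counting irreducible polynomials over a finite field, for S2442.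

* `Irr0 F`: monic irreducible polynomials other than `X`.
* `card_multiset_weight`: multisets of those of total degree `n` correspond to monic polynomials
  of degree `n` not divisible by `X`, so there are `(q - 1) q ^ (n - 1)` of them.
* `card_fiber_of_multiset_counts`: if two weighted sets have the same number of multisets of each
  weight then they have the same number of elements of each weight.
* `totient_div_le`: there are at least `φ(q ^ n - 1) / n` elements of `Irr0 F` of degree `n`.
-/

set_option autoImplicit false

namespace Cfsg.Agent.Lib.GLH.PolyCount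

open Polynomial

/-- Monic irreducible polynomials other than `X`. -/
abbrev Irr0 (F : Type*) [Field F] := {f : Polynomial F // f.Monic ∧ Irreducible f ∧ f ≠ Polynomial.X}

section Count

variable {F : Type*} [Field F]

lemma Irr0.coeff_zero_ne (f : Irr0 F) : f.1.coeff 0 ≠ 0 := by
  intro h
  have hd : (X : F[X]) ∣ f.1 := Polynomial.X_dvd_iff.2 h
  have ha : Associated (X : F[X]) f.1 := (Polynomial.irreducible_X.dvd_irreducible_iff_associated f.2.2.1).1 hd
  exact f.2.2.2 (eq_of_monic_of_associated monic_X f.2.1 ha).symm

/-- Monic polynomials of degree `n` with non-zero constant coefficient. -/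
abbrev MonicNZ (F : Type*) [Field F] (n : ℕ) :=
  {f : Polynomial F // (f.Monic ∧ f.natDegree = n) ∧ f.coeff 0 ≠ 0}

lemma prod_monic (s : Multiset (Irr0 F)) : (s.map fun f => (f.1 : F[X])).prod.Monic := by
  apply Polynomial.monic_multiset_prod_of_monic
  intro f _
  exact f.2.1

lemma prod_natDegree (s : Multiset (Irr0 F)) :
    (s.map fun f => (f.1 : F[X])).prod.natDegree = (s.map fun f => f.1.natDegree).sum := by
  have := Polynomial.natDegree_multiset_prod_of_monic (s.map fun f => (f.1 : F[X])) (by
    intro g hg
    obtain ⟨f, _, rfl⟩ := Multiset.mem_map.1 hg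
    exact f.2.1)
  rw [this, Multiset.map_map]
  rfl

lemma prod_coeff_zero (s : Multiset (Irr0 F)) : (s.map fun f => (f.1 : F[X])).prod.coeff 0 ≠ 0 := by
  rw [Polynomial.coeff_zero_eq_eval_zero, Polynomial.eval_multiset_prod]
  apply Multiset.prod_ne_zero
  intro h
  obtain ⟨g, hg, h0⟩ := Multiset.mem_map.1 h
  obtain ⟨f, _, rfl⟩ := Multiset.mem_map.1 hg
  apply Irr0.coeff_zero_ne f
  rw [Polynomial.coeff_zero_eq_eval_zero]
  exact h0

lemma prod_injective : Function.Injective
    (fun s : Multiset (Irr0 F) => (s.map fun f => (f.1 : F[X])).prod) := by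
  classical
  intro s t h
  have key : ∀ s : Multiset (Irr0 F),
      UniqueFactorizationMonoid.normalizedFactors ((s.map fun f => (f.1 : F[X])).prod)
        = s.map fun f => (f.1 : F[X]) := by
    intro s
    rw [UniqueFactorizationMonoid.normalizedFactors_prod_eq]
    · rw [Multiset.map_map]
      apply Multiset.map_congr rfl
      intro f _
      exact Polynomial.Monic.normalize_eq_self f.2.1
    · intro p hp
      obtain ⟨f, _, rfl⟩ := Multiset.mem_map.1 hp
      exact f.2.2.1
  have h' : (s.map fun f => (f.1 : F[X])) = t.map fun f => (f.1 : F[X]) := by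
    rw [← key s, ← key t]
    exact congrArg _ h
  exact Multiset.map_injective Subtype.val_injective h'

lemma prod_surjective (f : F[X]) (hm : f.Monic) (h0 : f.coeff 0 ≠ 0) :
    ∃ s : Multiset (Irr0 F), (s.map fun f => (f.1 : F[X])).prod = f := by
  classical
  have hf : f ≠ 0 := hm.ne_zero
  have hmem : ∀ p ∈ UniqueFactorizationMonoid.normalizedFactors f,
      p.Monic ∧ Irreducible p ∧ p ≠ X := by
    intro p hp
    have hir := UniqueFactorizationMonoid.irreducible_of_normalized_factor p hp
    refine ⟨?_, hir, ?_⟩
    · have := UniqueFactorizationMonoid.normalize_normalized_factor p hp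
      rw [← this]
      exact Polynomial.monic_normalize hir.ne_zero
    · rintro rfl
      apply h0
      exact Polynomial.X_dvd_iff.1 (UniqueFactorizationMonoid.dvd_of_mem_normalizedFactors hp)
  let s0 := (UniqueFactorizationMonoid.normalizedFactors f).attach.map
    (fun p => (⟨p.1, hmem p.1 p.2⟩ : Irr0 F))
  refine ⟨s0, ?_⟩
  have hs0 : (s0.map fun f => (f.1 : F[X])) = UniqueFactorizationMonoid.normalizedFactors f := by
    simp only [s0, Multiset.map_map, Function.comp_def]
    exact Multiset.attach_map_val _
  rw [hs0]
  have ha := UniqueFactorizationMonoid.prod_normalizedFactors hf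
  refine eq_of_monic_of_associated ?_ hm ha
  have := Polynomial.monic_multiset_prod_of_monic (UniqueFactorizationMonoid.normalizedFactors f) id
    (fun p hp => (hmem p hp).1)
  simpa using this

/-- Multisets of weight `n` and monic polynomials of degree `n` with non-zero constant coefficient. -/
noncomputable def multisetEquiv (n : ℕ) :
    {s : Multiset (Irr0 F) // (s.map fun f => f.1.natDegree).sum = n} ≃ MonicNZ F n :=
  Equiv.ofBijective
    (fun s => ⟨(s.1.map fun f => (f.1 : F[X])).prod,
      ⟨prod_monic s.1, (prod_natDegree s.1).trans s.2⟩, prod_coeff_zero s.1⟩)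
    (by
      constructor
      · intro a b h
        apply Subtype.ext
        apply prod_injective
        exact congrArg Subtype.val h
      · rintro ⟨f, ⟨hm, hd⟩, h0⟩
        obtain ⟨s, hs⟩ := prod_surjective f hm h0
        refine ⟨⟨s, ?_⟩, Subtype.ext hs⟩
        rw [← prod_natDegree, hs, hd])

lemma card_monicNZ [Fintype F] (n : ℕ) (hn : 1 ≤ n) :
    Nat.card (MonicNZ F n) = (Fintype.card F - 1) * Fintype.card F ^ (n - 1) := by
  classical
  obtain ⟨m, rfl⟩ : ∃ m, n = m + 1 := ⟨n - 1, by omega⟩
  simp only [Nat.add_sub_cancel]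
  -- coefficients
  let e0 : {p : F[X] // p.Monic ∧ p.natDegree = m + 1} ≃ (Fin (m + 1) → F) :=
    (monicEquivDegreeLT (m + 1)).trans (degreeLTEquiv F (m + 1)).toEquiv
  have he0 : ∀ p : {p : F[X] // p.Monic ∧ p.natDegree = m + 1}, e0 p 0 = p.1.coeff 0 := by
    intro p
    show p.1.eraseLead.coeff 0 = p.1.coeff 0
    rw [Polynomial.eraseLead_coeff_of_ne]
    rw [p.2.2]
    simp
  let e1 : MonicNZ F (m + 1) ≃ {c : Fin (m + 1) → F // c 0 ≠ 0} :=
    { toFun := fun f => ⟨e0 ⟨f.1, f.2.1⟩, by rw [he0]; exact f.2.2⟩
      invFun := fun c => ⟨(e0.symm c.1).1, (e0.symm c.1).2, by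
        have := he0 (e0.symm c.1)
        rw [Equiv.apply_symm_apply] at this
        rw [← this]; exact c.2⟩
      left_inv := by
        rintro ⟨f, hf, h0⟩
        apply Subtype.ext
        simp
      right_inv := by
        rintro ⟨c, hc⟩
        apply Subtype.ext
        simp }
  let e2 : {c : Fin (m + 1) → F // c 0 ≠ 0} ≃ {x : F // x ≠ 0} × (Fin m → F) :=
    { toFun := fun c => (⟨c.1 0, c.2⟩, Fin.tail c.1)
      invFun := fun p => ⟨Fin.cons p.1.1 p.2, by simpa using p.1.2⟩
      left_inv := by
        rintro ⟨c, hc⟩
        apply Subtype.ext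
        simp [Fin.cons_self_tail]
      right_inv := by
        rintro ⟨⟨x, hx⟩, c⟩
        simp }
  rw [Nat.card_congr (e1.trans e2), Nat.card_prod, Nat.card_fun, Nat.card_eq_fintype_card,
    Nat.card_eq_fintype_card, Nat.card_fin]
  congr 1
  rw [Fintype.card_subtype_compl]
  simp

theorem card_multiset_weight (F : Type*) [Field F] [Fintype F] (n : ℕ) (hn : 1 ≤ n) :
    Nat.card {s : Multiset (Irr0 F) // (s.map fun f => f.1.natDegree).sum = n}
      = (Fintype.card F - 1) * Fintype.card F ^ (n - 1) := by
  rw [Nat.card_congr (multisetEquiv n)]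
  exact card_monicNZ n hn

end Count

section Fiber

variable {C : Type*} (w : C → ℕ)

lemma sum_eq_zero_iff_of_pos (hw : ∀ c, 0 < w c) (s : Multiset C) (h : (s.map w).sum = 0) : s = 0 := by
  induction s using Multiset.induction_on with
  | empty => rfl
  | cons a s _ =>
    exfalso
    have := hw a
    simp at h
    omega

lemma card_le_sum_of_pos (hw : ∀ c, 0 < w c) (s : Multiset C) : s.card ≤ (s.map w).sum := by
  induction s using Multiset.induction_on with
  | empty => simp
  | cons a s ih =>
    have := hw a
    simp
    omega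

lemma le_sum_of_mem {s : Multiset C} {a : C} (h : a ∈ s) : w a ≤ (s.map w).sum := by
  obtain ⟨t, rfl⟩ := Multiset.exists_cons_of_mem h
  simp

lemma finite_multiset_weight (hw : ∀ c, 0 < w c) (hf : ∀ n, Finite {c // w c = n}) (n : ℕ) :
    Finite {s : Multiset C // (s.map w).sum = n} := by
  classical
  have hT : Set.Finite {c | w c ≤ n} := by
    have : {c | w c ≤ n} = ⋃ k ∈ Finset.range (n + 1), {c | w c = k} := by
      ext c
      simp [Nat.lt_succ_iff]
    rw [this]
    apply Set.Finite.biUnion (Finset.finite_toSet _)
    intro k _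
    exact Set.finite_coe_iff.1 (hf k)
  let T : Finset C := hT.toFinset
  have hsub : {s : Multiset C | (s.map w).sum = n} ⊆ Set.Iic (n • T.val) := by
    intro s hs
    simp only [Set.mem_setOf_eq] at hs
    simp only [Set.mem_Iic]
    rw [Multiset.le_iff_count]
    intro a
    rw [Multiset.count_nsmul]
    by_cases ha : a ∈ s
    · have h1 : a ∈ T := by
        simp only [T, Set.Finite.mem_toFinset, Set.mem_setOf_eq]
        rw [← hs]
        exact le_sum_of_mem w ha
      have h2 : Multiset.count a T.val = 1 := Multiset.count_eq_one_of_mem T.nodup h1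
      rw [h2, mul_one]
      calc Multiset.count a s ≤ s.card := Multiset.count_le_card a s
        _ ≤ (s.map w).sum := card_le_sum_of_pos w hw s
        _ = n := hs
    · rw [Multiset.count_eq_zero_of_notMem ha]
      exact Nat.zero_le _
  have : Set.Finite {s : Multiset C | (s.map w).sum = n} := (Set.finite_Iic _).subset hsub
  exact this

/-- A multiset of weight `n` is a singleton of weight `n` or has all elements of weight `< n`. -/
lemma card_multiset_split (hw : ∀ c, 0 < w c) (hf : ∀ n, Finite {c // w c = n}) (n : ℕ) :
    Nat.card {s : Multiset C // (s.map w).sum = n}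
      = Nat.card {c // w c = n} +
        Nat.card {s : Multiset {c // w c < n} // (s.map fun c => w c.1).sum = n} := by
  classical
  have := finite_multiset_weight w hw hf n
  let φ : {c // w c = n} ⊕ {s : Multiset {c // w c < n} // (s.map fun c => w c.1).sum = n} →
      {s : Multiset C // (s.map w).sum = n} :=
    Sum.elim (fun c => ⟨{c.1}, by simp [c.2]⟩)
      (fun s => ⟨s.1.map Subtype.val, by rw [Multiset.map_map]; exact s.2⟩)
  have hinj : Function.Injective φ := by
    rintro (⟨c, hc⟩ | ⟨s, hs⟩) (⟨d, hd⟩ | ⟨t, ht⟩) h
    · have h' : ({c} : Multiset C) = {d} := congrArg Subtype.val h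
      have : c = d := by simpa using h'
      subst this
      rfl
    · exfalso
      have h' : ({c} : Multiset C) = t.map Subtype.val := congrArg Subtype.val h
      have hm : c ∈ t.map Subtype.val := by rw [← h']; simp
      obtain ⟨x, _, rfl⟩ := Multiset.mem_map.1 hm
      have := x.2
      omega
    · exfalso
      have h' : s.map Subtype.val = ({d} : Multiset C) := congrArg Subtype.val h
      have hm : d ∈ s.map Subtype.val := by rw [h']; simp
      obtain ⟨x, _, rfl⟩ := Multiset.mem_map.1 hm
      have := x.2
      omega
    · have h' : s.map Subtype.val = t.map Subtype.val := congrArg Subtype.val h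
      have : s = t := Multiset.map_injective Subtype.val_injective h'
      subst this
      rfl
  have hsurj : Function.Surjective φ := by
    rintro ⟨s, hs⟩
    by_cases hall : ∀ c ∈ s, w c < n
    · lift s to Multiset {c // w c < n} using hall
      refine ⟨Sum.inr ⟨s, ?_⟩, rfl⟩
      rw [Multiset.map_map] at hs
      exact hs
    · push Not at hall
      obtain ⟨c, hc, hcn⟩ := hall
      obtain ⟨t, rfl⟩ := Multiset.exists_cons_of_mem hc
      simp only [Multiset.map_cons, Multiset.sum_cons] at hs
      have hc' : w c = n := by omega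
      have ht : (t.map w).sum = 0 := by omega
      have ht0 := sum_eq_zero_iff_of_pos w hw t ht
      subst ht0
      exact ⟨Sum.inl ⟨c, hc'⟩, rfl⟩
  have hfin2 : Finite {s : Multiset {c // w c < n} // (s.map fun c => w c.1).sum = n} :=
    Finite.of_injective (fun s => φ (Sum.inr s)) (fun a b h => Sum.inr_injective (hinj h))
  have := hf n
  have hb := Nat.card_congr (Equiv.ofBijective φ ⟨hinj, hsurj⟩)
  rw [← hb, Nat.card_sum]

end Fiber

theorem card_fiber_of_multiset_counts {C C' : Type*} (w : C → ℕ) (w' : C' → ℕ)
    (hw : ∀ c, 0 < w c) (hw' : ∀ c, 0 < w' c)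
    (hf : ∀ n, Finite {c // w c = n}) (hf' : ∀ n, Finite {c // w' c = n})
    (h : ∀ n, Nat.card {s : Multiset C // (s.map w).sum = n} =
      Nat.card {s : Multiset C' // (s.map w').sum = n}) (n : ℕ) :
    Nat.card {c // w c = n} = Nat.card {c // w' c = n} := by
  classical
  induction n using Nat.strong_induction_on with
  | _ n ih =>
    -- a weight preserving equivalence below `n`
    have hE : ∀ y : Fin n, Nonempty ({x : {c // w c < n} // (⟨w x.1, x.2⟩ : Fin n) = y} ≃
        {x : {c // w' c < n} // (⟨w' x.1, x.2⟩ : Fin n) = y}) := by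
      intro y
      have e1 : {x : {c // w c < n} // (⟨w x.1, x.2⟩ : Fin n) = y} ≃ {c // w c = y.1} :=
        { toFun := fun x => ⟨x.1.1, by simpa [Fin.ext_iff] using x.2⟩
          invFun := fun c => ⟨⟨c.1, by rw [c.2]; exact y.2⟩, by simp [Fin.ext_iff, c.2]⟩
          left_inv := fun x => by simp
          right_inv := fun c => by simp }
      have e2 : {x : {c // w' c < n} // (⟨w' x.1, x.2⟩ : Fin n) = y} ≃ {c // w' c = y.1} :=
        { toFun := fun x => ⟨x.1.1, by simpa [Fin.ext_iff] using x.2⟩
          invFun := fun c => ⟨⟨c.1, by rw [c.2]; exact y.2⟩, by simp [Fin.ext_iff, c.2]⟩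
          left_inv := fun x => by simp
          right_inv := fun c => by simp }
      have := hf y.1
      have := hf' y.1
      obtain ⟨e3⟩ := (Finite.card_eq).1 (ih y.1 y.2)
      exact ⟨e1.trans (e3.trans e2.symm)⟩
    let e := fun y => (hE y).some
    let E : {c // w c < n} ≃ {c // w' c < n} :=
      (Equiv.sigmaFiberEquiv (fun x : {c // w c < n} => (⟨w x.1, x.2⟩ : Fin n))).symm.trans
        ((Equiv.sigmaCongrRight e).trans
          (Equiv.sigmaFiberEquiv (fun x : {c // w' c < n} => (⟨w' x.1, x.2⟩ : Fin n))))
    have hEw : ∀ x, w' (E x).1 = w x.1 := by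
      intro x
      have : (⟨w' (E x).1, (E x).2⟩ : Fin n) = ⟨w x.1, x.2⟩ :=
        (e ⟨w x.1, x.2⟩ ⟨x, rfl⟩).2
      exact congrArg Fin.val this
    have hM : Nat.card {s : Multiset {c // w c < n} // (s.map fun c => w c.1).sum = n} =
        Nat.card {s : Multiset {c // w' c < n} // (s.map fun c => w' c.1).sum = n} := by
      apply Nat.card_congr
      refine Equiv.subtypeEquiv
        { toFun := Multiset.map E
          invFun := Multiset.map E.symm
          left_inv := fun s => by simp
          right_inv := fun s => by simp } ?_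
      intro s
      simp only [Equiv.coe_fn_mk, Multiset.map_map, Function.comp_def, hEw]
    have h1 := card_multiset_split w hw hf n
    have h2 := card_multiset_split w' hw' hf' n
    have h3 := h n
    omega

section Totient

variable (F : Type*) [Field F] [Fintype F]

lemma finite_irr_degree (n : ℕ) : Finite {f : Irr0 F // f.1.natDegree = n} := by
  classical
  let e0 : {p : F[X] // p.Monic ∧ p.natDegree = n} ≃ (Fin n → F) :=
    (monicEquivDegreeLT n).trans (degreeLTEquiv F n).toEquiv
  refine Finite.of_injective (fun f => e0 ⟨f.1.1, f.1.2.1, f.2⟩) ?_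
  intro a b h
  have := e0.injective h
  have h' : a.1.1 = b.1.1 := by
    have h2 := congrArg (fun x : {p : F[X] // p.Monic ∧ p.natDegree = n} => x.1) this
    exact h2
  exact Subtype.ext (Subtype.ext h')

theorem totient_div_le (n : ℕ) (hn : 1 ≤ n) :
    Nat.totient (Fintype.card F ^ n - 1) / n ≤ Nat.card {f : Irr0 F // f.1.natDegree = n} := by
  classical
  obtain ⟨p, hp⟩ := CharP.exists F
  have : Fact p.Prime := ⟨CharP.char_is_prime F p⟩
  have : NeZero n := ⟨by omega⟩
  let K := FiniteField.Extension F p n
  have : Fintype K := Fintype.ofFinite K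
  have hKcard : Fintype.card K = Fintype.card F ^ n := by
    rw [Fintype.card_eq_nat_card, FiniteField.natCard_extension, Nat.card_eq_fintype_card]
  have hUcard : Fintype.card Kˣ = Fintype.card F ^ n - 1 := by
    rw [Fintype.card_units, hKcard]
  have hfr : Module.finrank F K = n := FiniteField.finrank_extension F p n
  -- the generators
  let G := {a : Kˣ // orderOf a = Fintype.card Kˣ}
  have hGcard : Fintype.card G = Nat.totient (Fintype.card F ^ n - 1) := by
    rw [← hUcard, Fintype.card_subtype]
    exact IsCyclic.card_orderOf_eq_totient dvd_rfl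
  have hint : ∀ x : K, IsIntegral F x := fun x => Algebra.IsIntegral.isIntegral x
  have htop : ∀ a : G, IntermediateField.adjoin F {((a.1 : Kˣ) : K)} = ⊤ := by
    intro a
    rw [eq_top_iff]
    intro x _
    by_cases hx : x = 0
    · rw [hx]; exact zero_mem _
    · have hz : Subgroup.zpowers a.1 = ⊤ := by
        apply Subgroup.eq_top_of_card_eq
        rw [Nat.card_zpowers, a.2, Nat.card_eq_fintype_card]
      have hm : Units.mk0 x hx ∈ Subgroup.zpowers a.1 := by rw [hz]; trivial
      obtain ⟨k, hk⟩ := Subgroup.mem_zpowers_iff.1 hm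
      have hxk : x = ((a.1 : Kˣ) : K) ^ k := by
        have := congrArg (Units.val) hk
        simpa using this.symm
      rw [hxk]
      exact zpow_mem (IntermediateField.mem_adjoin_simple_self F _) k
  have hdeg : ∀ a : G, (minpoly F ((a.1 : Kˣ) : K)).natDegree = n := by
    intro a
    rw [← IntermediateField.adjoin.finrank (hint _), htop a, IntermediateField.finrank_top', hfr]
  let φ : G → {f : Irr0 F // f.1.natDegree = n} := fun a =>
    ⟨⟨minpoly F ((a.1 : Kˣ) : K), minpoly.monic (hint _), minpoly.irreducible (hint _), by
      intro h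
      have h0 := minpoly.aeval F ((a.1 : Kˣ) : K)
      rw [h] at h0
      simp at h0⟩, hdeg a⟩
  have := finite_irr_degree F n
  have : Fintype {f : Irr0 F // f.1.natDegree = n} := Fintype.ofFinite _
  rw [Nat.card_eq_fintype_card, ← hGcard]
  apply Nat.div_le_of_le_mul
  have := Finset.card_le_mul_card_image_of_maps_to (s := (Finset.univ : Finset G))
    (t := (Finset.univ : Finset {f : Irr0 F // f.1.natDegree = n})) (f := φ)
    (fun _ _ => Finset.mem_univ _) n ?_
  · simpa using this
  · intro b _
    -- fibres inject in the roots of `b`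
    have hb0 : (b.1.1.map (algebraMap F K)) ≠ 0 :=
      Polynomial.map_ne_zero b.1.2.1.ne_zero
    let R := (b.1.1.map (algebraMap F K)).roots.toFinset
    have hR : R.card ≤ n := by
      calc R.card ≤ (b.1.1.map (algebraMap F K)).roots.card := Multiset.toFinset_card_le _
        _ ≤ (b.1.1.map (algebraMap F K)).natDegree := Polynomial.card_roots' _
        _ = n := by
          rw [Polynomial.natDegree_map, b.2]
    refine le_trans ?_ hR
    apply Finset.card_le_card_of_injOn (fun a : G => ((a.1 : Kˣ) : K))
    · intro a ha
      have ha' : φ a = b := by simpa using ha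
      have hb : b.1.1 = minpoly F ((a.1 : Kˣ) : K) := by rw [← ha']
      simp only [R, Finset.mem_coe, Multiset.mem_toFinset]
      rw [Polynomial.mem_roots hb0, Polynomial.IsRoot.def, Polynomial.eval_map_algebraMap, hb]
      exact minpoly.aeval F _
    · intro a _ a' _ h
      apply Subtype.ext
      exact Units.ext h

end Totient

end Cfsg.Agent.Lib.GLH.PolyCount
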