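import Cfsg.Agent.Lib.GLH.RodierC

/-!
# Rodier's computation: the Whittaker functional is multiplicative on Hall products.

`whitF_hall`: `whitF ψ₀ n (hall Φ Ψ) = ∑_{a + b = n} whitF ψ₀ a Φ * whitF ψ₀ b Ψ`.
-/

set_option autoImplicit false
set_option linter.unusedSectionVars false
set_option linter.style.haveILetI false

namespace Cfsg.Agent.Lib.GLH.Rodier

open Matrix Module Cfsg.Agent.Lib.GLH.Defs Cfsg.Agent.Lib.GLH.Ev Cfsg.Agent.Lib.GLH.RodierA
  Cfsg.Agent.Lib.GLH.RodierB Cfsg.Agent.Lib.GLH.RodierC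
open scoped ComplexConjugate

universe u

variable {F : Type u} [Field F]

section blocks

variable {a b : ℕ}

/-- The upper right block vanishes. -/
def StP (u : Matrix (Fin (b + a)) (Fin (b + a)) F) : Prop :=
  ∀ (x : Fin b) (y : Fin a), u (Fin.castAdd a x) (Fin.natAdd b y) = 0

/-- The upper left block. -/
def bl₁ (u : Matrix (Fin (b + a)) (Fin (b + a)) F) : Matrix (Fin b) (Fin b) F :=
  u.submatrix (Fin.castAdd a) (Fin.castAdd a)

/-- The lower right block. -/
def bl₂ (u : Matrix (Fin (b + a)) (Fin (b + a)) F) : Matrix (Fin a) (Fin a) F :=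
  u.submatrix (Fin.natAdd b) (Fin.natAdd b)

/-- The block diagonal matrix. -/
def dg (u₁ : Matrix (Fin b) (Fin b) F) (u₂ : Matrix (Fin a) (Fin a) F) :
    Matrix (Fin (b + a)) (Fin (b + a)) F :=
  Matrix.of fun i j =>
    Fin.addCases (motive := fun _ => F)
      (fun x => Fin.addCases (motive := fun _ => F) (fun y => u₁ x y) (fun _ => 0) j)
      (fun x => Fin.addCases (motive := fun _ => F) (fun _ => 0) (fun y => u₂ x y) j) i

@[simp] lemma dg_11 (u₁ : Matrix (Fin b) (Fin b) F) (u₂ : Matrix (Fin a) (Fin a) F) (x y : Fin b) :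
    dg u₁ u₂ (Fin.castAdd a x) (Fin.castAdd a y) = u₁ x y := by
  simp [dg]

@[simp] lemma dg_12 (u₁ : Matrix (Fin b) (Fin b) F) (u₂ : Matrix (Fin a) (Fin a) F) (x : Fin b)
    (y : Fin a) : dg u₁ u₂ (Fin.castAdd a x) (Fin.natAdd b y) = 0 := by
  simp [dg]

@[simp] lemma dg_21 (u₁ : Matrix (Fin b) (Fin b) F) (u₂ : Matrix (Fin a) (Fin a) F) (x : Fin a)
    (y : Fin b) : dg u₁ u₂ (Fin.natAdd b x) (Fin.castAdd a y) = 0 := by
  simp [dg]

@[simp] lemma dg_22 (u₁ : Matrix (Fin b) (Fin b) F) (u₂ : Matrix (Fin a) (Fin a) F) (x y : Fin a) :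
    dg u₁ u₂ (Fin.natAdd b x) (Fin.natAdd b y) = u₂ x y := by
  simp [dg]

lemma isU_bl₁ {u : Matrix (Fin (b + a)) (Fin (b + a)) F} (hu : IsU u) : IsU (bl₁ u) := by
  classical
  intro x y hyx
  have h1 : Fin.castAdd a y ≤ Fin.castAdd a x := hyx
  show u _ _ = _
  rw [hu _ _ h1]
  by_cases hxy : x = y
  · subst hxy; simp
  · rw [Matrix.one_apply_ne hxy, Matrix.one_apply_ne]
    intro hh
    exact hxy (Fin.castAdd_injective _ _ hh)

lemma isU_bl₂ {u : Matrix (Fin (b + a)) (Fin (b + a)) F} (hu : IsU u) : IsU (bl₂ u) := by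
  classical
  intro x y hyx
  have h1 : Fin.natAdd b y ≤ Fin.natAdd b x :=
    Fin.le_def.2 (Nat.add_le_add_left (Fin.le_def.1 hyx) b)
  show u _ _ = _
  rw [hu _ _ h1]
  by_cases hxy : x = y
  · subst hxy; simp
  · rw [Matrix.one_apply_ne hxy, Matrix.one_apply_ne]
    intro hh
    exact hxy (Fin.natAdd_injective _ _ hh)

lemma one_12 (x : Fin b) (y : Fin a) :
    (1 : Matrix (Fin (b + a)) (Fin (b + a)) F) (Fin.castAdd a x) (Fin.natAdd b y) = 0 := by
  classical
  apply Matrix.one_apply_ne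
  intro hh
  have := congrArg Fin.val hh
  simp at this
  omega

lemma one_21 (x : Fin a) (y : Fin b) :
    (1 : Matrix (Fin (b + a)) (Fin (b + a)) F) (Fin.natAdd b x) (Fin.castAdd a y) = 0 := by
  classical
  apply Matrix.one_apply_ne
  intro hh
  have := congrArg Fin.val hh
  simp at this
  omega

lemma one_11 (x y : Fin b) :
    (1 : Matrix (Fin (b + a)) (Fin (b + a)) F) (Fin.castAdd a x) (Fin.castAdd a y) =
      (1 : Matrix (Fin b) (Fin b) F) x y := by
  classical
  by_cases hxy : x = y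
  · subst hxy; simp
  · rw [Matrix.one_apply_ne hxy, Matrix.one_apply_ne]
    intro hh
    exact hxy (Fin.castAdd_injective _ _ hh)

lemma one_22 (x y : Fin a) :
    (1 : Matrix (Fin (b + a)) (Fin (b + a)) F) (Fin.natAdd b x) (Fin.natAdd b y) =
      (1 : Matrix (Fin a) (Fin a) F) x y := by
  classical
  by_cases hxy : x = y
  · subst hxy; simp
  · rw [Matrix.one_apply_ne hxy, Matrix.one_apply_ne]
    intro hh
    exact hxy (Fin.natAdd_injective _ _ hh)

lemma isU_dg {u₁ : Matrix (Fin b) (Fin b) F} {u₂ : Matrix (Fin a) (Fin a) F} (h1 : IsU u₁)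
    (h2 : IsU u₂) : IsU (dg u₁ u₂) := by
  intro i j hji
  induction i using Fin.addCases with
  | left x =>
    induction j using Fin.addCases with
    | left y =>
      rw [dg_11, one_11]
      exact h1 x y hji
    | right y =>
      exfalso
      have h3 : b + y.val ≤ x.val := Fin.le_def.1 hji
      have := x.2
      omega
  | right x =>
    induction j using Fin.addCases with
    | left y =>
      rw [dg_21, one_21]
    | right y =>
      rw [dg_22, one_22]
      exact h2 x y (Fin.le_def.2 (Nat.le_of_add_le_add_left (Fin.le_def.1 hji)))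

lemma ext_blocks {u v : Matrix (Fin (b + a)) (Fin (b + a)) F}
    (h11 : ∀ x y, u (Fin.castAdd a x) (Fin.castAdd a y) = v (Fin.castAdd a x) (Fin.castAdd a y))
    (h12 : ∀ x y, u (Fin.castAdd a x) (Fin.natAdd b y) = v (Fin.castAdd a x) (Fin.natAdd b y))
    (h21 : ∀ x y, u (Fin.natAdd b x) (Fin.castAdd a y) = v (Fin.natAdd b x) (Fin.castAdd a y))
    (h22 : ∀ x y, u (Fin.natAdd b x) (Fin.natAdd b y) = v (Fin.natAdd b x) (Fin.natAdd b y)) :
    u = v := by
  ext i j
  induction i using Fin.addCases with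
  | left x =>
    induction j using Fin.addCases with
    | left y => exact h11 x y
    | right y => exact h12 x y
  | right x =>
    induction j using Fin.addCases with
    | left y => exact h21 x y
    | right y => exact h22 x y

lemma mulVec_castAdd (u : Matrix (Fin (b + a)) (Fin (b + a)) F) (hu : StP u) (v : Fin (b + a) → F)
    (x : Fin b) : (u *ᵥ v) (Fin.castAdd a x) = (bl₁ u *ᵥ fun y => v (Fin.castAdd a y)) x := by
  simp only [Matrix.mulVec, dotProduct, bl₁, Matrix.submatrix_apply]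
  rw [Fin.sum_univ_add]
  simp [hu x]

lemma mulVec_natAdd (u : Matrix (Fin (b + a)) (Fin (b + a)) F) (hu : IsU u) (v : Fin (b + a) → F)
    (x : Fin a) : (u *ᵥ v) (Fin.natAdd b x) = (bl₂ u *ᵥ fun y => v (Fin.natAdd b y)) x := by
  simp only [Matrix.mulVec, dotProduct, bl₂, Matrix.submatrix_apply]
  rw [Fin.sum_univ_add]
  have : ∀ y : Fin b, u (Fin.natAdd b x) (Fin.castAdd a y) = 0 := by
    intro y
    rw [hu _ _ (by simp only [Fin.le_def, Fin.val_castAdd, Fin.val_natAdd]; have := y.2; omega),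
      one_21]
  simp [this]

lemma le_comap_top_iff (u : Matrix (Fin (b + a)) (Fin (b + a)) F) :
    Top (F := F) (b + a) b ≤ (Top (F := F) (b + a) b).comap (Matrix.toLin' u) ↔ StP u := by
  classical
  constructor
  · intro h x y
    have hmem : cv (F := F) (Fin.natAdd b y) ∈ Top (F := F) (b + a) b := by
      intro i hi
      apply cv_ne
      rintro rfl
      simp at hi
    have := h hmem (Fin.castAdd a x) (by simp)
    rw [Matrix.toLin'_apply, Matrix.mulVec_single_one] at this
    simpa using this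
  · intro hu v hv i hi
    rw [Matrix.toLin'_apply]
    have hix : i = Fin.castAdd a ⟨i.val, hi⟩ := Fin.ext rfl
    rw [hix, mulVec_castAdd u hu]
    have : (fun y : Fin b => v (Fin.castAdd a y)) = 0 := by
      funext y
      exact hv _ (by simp)
    rw [this, Matrix.mulVec_zero]
    rfl

lemma sup_block {u : Matrix (Fin (b + a)) (Fin (b + a)) F} (hu : StP u) :
    sup u = sup (bl₁ u) + sup (bl₂ u) := by
  classical
  unfold sup
  rw [Fin.sum_univ_add]
  congr 1
  · apply Finset.sum_congr rfl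
    intro x _
    by_cases hx : x.val + 1 < b
    · rw [dif_pos hx, dif_pos (by simp only [Fin.val_castAdd]; omega)]
      rfl
    · rw [dif_neg hx]
      split_ifs with h1
      · have hx' : x.val + 1 = b := by have := x.2; omega
        simp only [Fin.val_castAdd] at h1
        have ha : 0 < a := by omega
        have : (⟨(Fin.castAdd a x).val + 1, h1⟩ : Fin (b + a)) = Fin.natAdd b ⟨0, ha⟩ :=
          Fin.ext (by simp [hx'])
        rw [this]
        exact hu x ⟨0, ha⟩
      · rfl
  · apply Finset.sum_congr rfl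
    intro y _
    by_cases hy : y.val + 1 < a
    · rw [dif_pos hy, dif_pos (by simp only [Fin.val_natAdd]; omega)]
      show u _ _ = u _ _
      congr 1
    · rw [dif_neg hy, dif_neg (by simp only [Fin.val_natAdd]; omega)]

end blocks

section main

variable [Fintype F] {a b : ℕ}

lemma U_ext {n : ℕ} {u v : U (F := F) n} (h : mat u = mat v) : u = v :=
  Subtype.ext (Units.ext h)

/-- The block decomposition of the stabilizer of the top subspace. -/
noncomputable def stEquiv :
    {u : U (F := F) (b + a) // StP (mat u)} ≃ U (F := F) b × U (F := F) a where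
  toFun u := (mkU (bl₁ (mat u.1)) (isU_bl₁ (isU_mat u.1)), mkU (bl₂ (mat u.1)) (isU_bl₂ (isU_mat u.1)))
  invFun p := ⟨mkU (dg (mat p.1) (mat p.2)) (isU_dg (isU_mat p.1) (isU_mat p.2)), fun x y => dg_12 _ _ x y⟩
  left_inv := by
    rintro ⟨u, hu⟩
    apply Subtype.ext
    apply U_ext
    apply ext_blocks
    · intro x y
      exact dg_11 _ _ x y
    · intro x y
      exact (dg_12 _ _ x y).trans (hu x y).symm
    · intro x y
      refine (dg_21 _ _ x y).trans ?_
      rw [isU_mat u _ _ (by simp only [Fin.le_def, Fin.val_castAdd, Fin.val_natAdd]; have := y.2; omega),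
        one_21]
    · intro x y
      exact dg_22 _ _ x y
  right_inv := by
    rintro ⟨u₁, u₂⟩
    apply Prod.ext
    · apply U_ext
      ext x y
      exact dg_11 _ _ x y
    · apply U_ext
      ext x y
      exact dg_22 _ _ x y

lemma psi_block (ψ₀ : AddChar F ℂ) {u : Matrix (Fin (b + a)) (Fin (b + a)) F} (hu : StP u) :
    psi ψ₀ u = psi ψ₀ (bl₁ u) * psi ψ₀ (bl₂ u) := by
  unfold psi
  rw [sup_block hu, AddChar.map_add_eq_mul]

lemma ev_toLin' {Φ : Fam F} (hΦ : IsCl Φ) {m : ℕ} (M : Matrix (Fin m) (Fin m) F) :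
    ev Φ (Fin m → F) (Matrix.toLin' M) = Φ m M := by
  rw [ev_eq_of_basis hΦ (Pi.basisFun F (Fin m))]
  congr 1
  rw [LinearMap.toMatrix_eq_toMatrix', LinearMap.toMatrix'_toLin']

/-- Coordinates on the top subspace. -/
noncomputable def topCoord : Top (F := F) (b + a) b ≃ₗ[F] (Fin a → F) where
  toFun v := fun y => v.1 (Fin.natAdd b y)
  map_add' := by intros; rfl
  map_smul' := by intros; rfl
  invFun z := ⟨Fin.addCases (motive := fun _ => F) (fun _ => 0) z, by
    intro i hi
    have hix : i = Fin.castAdd a ⟨i.val, hi⟩ := Fin.ext rfl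
    rw [hix, Fin.addCases_left]⟩
  left_inv := by
    rintro ⟨v, hv⟩
    apply Subtype.ext
    funext i
    induction i using Fin.addCases with
    | left x =>
      simp only [Fin.addCases_left]
      exact (hv _ (by simp)).symm
    | right y => simp
  right_inv := by
    intro z
    funext y
    simp

/-- The projection onto the first coordinates. -/
noncomputable def proj₁ : (Fin (b + a) → F) →ₗ[F] (Fin b → F) where
  toFun v := fun x => v (Fin.castAdd a x)
  map_add' := by intros; rfl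
  map_smul' := by intros; rfl

lemma ker_proj₁ : Top (F := F) (b + a) b = LinearMap.ker (proj₁ (F := F) (a := a) (b := b)) := by
  ext v
  rw [LinearMap.mem_ker]
  constructor
  · intro hv
    funext x
    exact hv _ (by simp)
  · intro hv i hi
    have hix : i = Fin.castAdd a ⟨i.val, hi⟩ := Fin.ext rfl
    rw [hix]
    exact congrFun hv _

lemma proj₁_surj : Function.Surjective (proj₁ (F := F) (a := a) (b := b)) := by
  intro z
  refine ⟨Fin.addCases (motive := fun _ => F) z (fun _ => 0), ?_⟩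
  funext x
  simp [proj₁]

/-- Coordinates on the quotient by the top subspace. -/
noncomputable def quotCoord : ((Fin (b + a) → F) ⧸ Top (F := F) (b + a) b) ≃ₗ[F] (Fin b → F) :=
  (Submodule.quotEquivOfEq _ _ ker_proj₁).trans
    (LinearMap.quotKerEquivOfSurjective _ proj₁_surj)

lemma quotCoord_mk (v : Fin (b + a) → F) :
    quotCoord (F := F) (a := a) (b := b) (Submodule.Quotient.mk v) = fun x => v (Fin.castAdd a x) := by
  rfl

lemma tau_top {Φ Ψ : Fam F} (hΦ : IsCl Φ) (hΨ : IsCl Ψ) {u : Matrix (Fin (b + a)) (Fin (b + a)) F}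
    (hU : IsU u) (hu : StP u) :
    tauL Φ Ψ (Top (F := F) (b + a) b) (Matrix.toLin' u) = Φ a (bl₂ u) * Ψ b (bl₁ u) := by
  classical
  unfold tauL
  rw [dif_pos ((le_comap_top_iff u).2 hu)]
  congr 1
  · rw [← ev_toLin' hΦ]
    apply ev_congr hΦ topCoord
    intro v
    funext y
    show (Matrix.toLin' u v.1) (Fin.natAdd b y) = (Matrix.toLin' (bl₂ u)) (fun y => v.1 (Fin.natAdd b y)) y
    rw [Matrix.toLin'_apply, Matrix.toLin'_apply, mulVec_natAdd u hU]
  · rw [← ev_toLin' hΨ]
    apply ev_congr hΨ quotCoord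
    intro v
    induction v using Submodule.Quotient.induction_on with
    | H v =>
      funext x
      show (Matrix.toLin' u v) (Fin.castAdd a x) = (Matrix.toLin' (bl₁ u)) (fun y => v (Fin.castAdd a y)) x
      rw [Matrix.toLin'_apply, Matrix.toLin'_apply, mulVec_castAdd u hu]

lemma whitF_eq (ψ₀ : AddChar F ℂ) (Φ : Fam F) (m : ℕ) :
    whitF ψ₀ m Φ = (Nat.card (U (F := F) m) : ℂ)⁻¹ *
      ∑ u : U (F := F) m, conj (psi ψ₀ (mat u)) * Φ m (mat u) := by
  unfold whitF whit
  rw [finsum_eq_sum_of_fintype]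

lemma card_U_ne (m : ℕ) : (Nat.card (U (F := F) m) : ℂ) ≠ 0 := by
  exact_mod_cast Nat.card_pos.ne'

theorem T_top {Φ Ψ : Fam F} (hΦ : IsCl Φ) (hΨ : IsCl Ψ) (ψ₀ : AddChar F ℂ) :
    T ψ₀ Φ Ψ (Top (F := F) (b + a) b) =
      (Nat.card (U (F := F) a) : ℂ) * (Nat.card (U (F := F) b) : ℂ) *
        (whitF ψ₀ a Φ * whitF ψ₀ b Ψ) := by
  classical
  have h1 : T ψ₀ Φ Ψ (Top (F := F) (b + a) b) =
      ∑ u : {u : U (F := F) (b + a) // StP (mat u)},
        conj (psi ψ₀ (mat u.1)) * tauL Φ Ψ (Top (F := F) (b + a) b) (Matrix.toLin' (mat u.1)) := by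
    unfold T
    rw [← Finset.sum_filter_of_ne (s := Finset.univ) (p := fun u : U (F := F) (b + a) => StP (mat u))]
    · exact Finset.sum_subtype _ (by simp) _
    · intro u _ hne
      by_contra hu
      apply hne
      unfold tauL
      rw [dif_neg (fun h => hu ((le_comap_top_iff _).1 h)), mul_zero]
  have hdg1 : ∀ p : U (F := F) b × U (F := F) a, bl₁ (dg (mat p.1) (mat p.2)) = mat p.1 := by
    intro p
    ext x y
    exact dg_11 _ _ x y
  have hdg2 : ∀ p : U (F := F) b × U (F := F) a, bl₂ (dg (mat p.1) (mat p.2)) = mat p.2 := by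
    intro p
    ext x y
    exact dg_22 _ _ x y
  have h2 : T ψ₀ Φ Ψ (Top (F := F) (b + a) b) =
      ∑ p : U (F := F) b × U (F := F) a,
        (conj (psi ψ₀ (mat p.2)) * Φ a (mat p.2)) * (conj (psi ψ₀ (mat p.1)) * Ψ b (mat p.1)) := by
    rw [h1, ← Equiv.sum_comp (stEquiv (F := F) (a := a) (b := b)).symm]
    apply Finset.sum_congr rfl
    intro p _
    have hm : mat ((stEquiv (F := F) (a := a) (b := b)).symm p).1 = dg (mat p.1) (mat p.2) := rfl
    have hU : IsU (dg (mat p.1) (mat p.2)) := isU_dg (isU_mat p.1) (isU_mat p.2)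
    have hSt : StP (dg (mat p.1) (mat p.2)) := fun x y => dg_12 _ _ x y
    rw [hm, psi_block ψ₀ hSt, tau_top hΦ hΨ hU hSt, hdg1, hdg2, map_mul]
    ring
  rw [h2, Fintype.sum_prod_type, whitF_eq, whitF_eq]
  have ha := card_U_ne (F := F) a
  have hb := card_U_ne (F := F) b
  have h3 : (∑ x : U (F := F) b, ∑ y : U (F := F) a,
      (conj (psi ψ₀ (mat y)) * Φ a (mat y)) * (conj (psi ψ₀ (mat x)) * Ψ b (mat x))) =
      (∑ y : U (F := F) a, conj (psi ψ₀ (mat y)) * Φ a (mat y)) *
        (∑ x : U (F := F) b, conj (psi ψ₀ (mat x)) * Ψ b (mat x)) := by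
    rw [Finset.sum_mul_sum, Finset.sum_comm]
  simp only at h3 ⊢
  rw [h3]
  field_simp

lemma card_stab {n : ℕ} (h : b + a = n) :
    Nat.card {g : U (F := F) n // (Top (F := F) n b).map (Matrix.toLin' (mat g)) = Top n b} =
      Nat.card (U (F := F) b) * Nat.card (U (F := F) a) := by
  subst h
  rw [← Nat.card_prod]
  refine Nat.card_congr (Equiv.trans (Equiv.subtypeEquivRight ?_) (stEquiv (F := F) (a := a) (b := b)))
  intro g
  constructor
  · intro hg
    apply (le_comap_top_iff _).1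
    intro v hv
    rw [← hg]
    exact ⟨v, hv, rfl⟩
  · intro hg
    have hle := (le_comap_top_iff _).2 hg
    apply Submodule.eq_of_le_of_finrank_eq
    · rintro _ ⟨v, hv, rfl⟩
      exact hle hv
    · rw [finrank_map_mat]

/-- One term of the Rodier sum. -/
theorem term {Φ Ψ : Fam F} (hΦ : IsCl Φ) (hΨ : IsCl Ψ) (ψ₀ : AddChar F ℂ) {n : ℕ} (h : b + a = n) :
    (Nat.card (U (F := F) n) : ℂ)⁻¹ *
      (∑ W : Submodule F (Fin n → F), if finrank F W = a ∧ W ⊓ Flag n b = ⊥ then T ψ₀ Φ Ψ W else 0) =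
      whitF ψ₀ a Φ * whitF ψ₀ b Ψ := by
  have h2 := sum_orbit hΦ hΨ ψ₀ (show a + b = n by omega)
  rw [card_stab h, Nat.cast_mul] at h2
  subst h
  rw [T_top hΦ hΨ ψ₀] at h2
  have hn := card_U_ne (F := F) (b + a)
  have ha := card_U_ne (F := F) a
  have hb := card_U_ne (F := F) b
  rw [inv_mul_eq_div, div_eq_iff hn]
  have h3 : (∑ W : Submodule F (Fin (b + a) → F),
      if finrank F W = a ∧ W ⊓ Flag (b + a) b = ⊥ then T ψ₀ Φ Ψ W else 0) *
      ((Nat.card (U (F := F) b) : ℂ) * (Nat.card (U (F := F) a) : ℂ)) =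
      (whitF ψ₀ a Φ * whitF ψ₀ b Ψ * (Nat.card (U (F := F) (b + a)) : ℂ)) *
      ((Nat.card (U (F := F) b) : ℂ) * (Nat.card (U (F := F) a) : ℂ)) := by
    rw [h2]
    ring
  exact mul_right_cancel₀ (mul_ne_zero hb ha) h3

end main

/-- **Rodier**: the Whittaker functional is multiplicative on Hall products. -/
theorem whitF_hall [Fintype F] (ψ₀ : AddChar F ℂ) (hψ : ψ₀ ≠ 1) {Φ Ψ : Fam F} (hΦ : IsCl Φ)
    (hΨ : IsCl Ψ) (n : ℕ) :
    whitF ψ₀ n (hall Φ Ψ) =
      ∑ p ∈ Finset.antidiagonal n, whitF ψ₀ p.1 Φ * whitF ψ₀ p.2 Ψ := by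
  classical
  rw [whitF_hall_eq]
  have key : ∀ W : Submodule F (Fin n → F), T ψ₀ Φ Ψ W =
      ∑ p ∈ Finset.antidiagonal n,
        if finrank F W = p.1 ∧ W ⊓ Flag n p.2 = ⊥ then T ψ₀ Φ Ψ W else 0 := by
    intro W
    have hW : finrank F W ≤ n := by
      have := Submodule.finrank_le W
      simpa using this
    rw [Finset.sum_eq_single (finrank F W, n - finrank F W)]
    · by_cases hmeet : W ⊓ Flag n (n - finrank F W) = ⊥
      · rw [if_pos ⟨rfl, hmeet⟩]
      · rw [if_neg (fun h => hmeet h.2)]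
        exact T_eq_zero_of_meet ψ₀ hψ Φ Ψ W (by omega) hmeet
    · rintro ⟨a, b⟩ hp hne
      rw [Finset.mem_antidiagonal] at hp
      simp only at hp
      rw [if_neg]
      rintro ⟨h1, _⟩
      apply hne
      simp only at h1
      subst h1
      simp only [Prod.mk.injEq, true_and]
      omega
    · intro hnot
      exfalso
      apply hnot
      rw [Finset.mem_antidiagonal]
      simp only
      omega
  calc (Nat.card (U (F := F) n) : ℂ)⁻¹ * ∑ W : Submodule F (Fin n → F), T ψ₀ Φ Ψ W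
      = (Nat.card (U (F := F) n) : ℂ)⁻¹ * ∑ W : Submodule F (Fin n → F),
          ∑ p ∈ Finset.antidiagonal n,
            if finrank F W = p.1 ∧ W ⊓ Flag n p.2 = ⊥ then T ψ₀ Φ Ψ W else 0 := by
        congr 1
        exact Finset.sum_congr rfl (fun W _ => key W)
    _ = ∑ p ∈ Finset.antidiagonal n, (Nat.card (U (F := F) n) : ℂ)⁻¹ *
          ∑ W : Submodule F (Fin n → F),
            if finrank F W = p.1 ∧ W ⊓ Flag n p.2 = ⊥ then T ψ₀ Φ Ψ W else 0 := by
        rw [Finset.sum_comm, Finset.mul_sum]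
    _ = ∑ p ∈ Finset.antidiagonal n, whitF ψ₀ p.1 Φ * whitF ψ₀ p.2 Ψ := by
        apply Finset.sum_congr rfl
        intro p hp
        rw [Finset.mem_antidiagonal] at hp
        exact term hΦ hΨ ψ₀ (by omega)

end Cfsg.Agent.Lib.GLH.Rodier
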