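import Cfsg.Agent.Lib.GLH.Hecke
import Cfsg.Agent.Lib.GLH.Adjoint
import Cfsg.Agent.Lib.GLH.Bridge
import Cfsg.Agent.Lib.GLH.CuspS
import Cfsg.Agent.Lib.GLH.Leibniz3
import Cfsg.Agent.Lib.GLH.Rodier
import Cfsg.Agent.Lib.GLH.Mirabolic
import Cfsg.Agent.Lib.GLH.PolyCount
import Cfsg.Agent.Lib.Char.Complete

/-!
# Assembly, part 1: the commutative monoid of class families, products of cuspidal characters,
their Whittaker functional and the unique generic constituent.
-/

set_option autoImplicit false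
set_option linter.unusedSectionVars false
set_option linter.style.haveILetI false

namespace Cfsg.Agent.Lib.GLH.Count1

open Matrix Module Cfsg
open Cfsg.Agent.Lib.GLH Defs Ev HallAssoc HallComm Der Leibniz1 Leibniz3
open Cfsg.Agent.Lib.Char.Basic Cfsg.Agent.Lib.Char.Ortho Cfsg.Agent.Lib.Char.Complete
open scoped ComplexConjugate

universe u

variable {F : Type u} [Field F]

section Fam
variable [Fintype F]

/-- Restriction of a family to `GL_a`. -/
def Fa (Φ : Fam F) (a : ℕ) : GL (Fin a) F → ℂ := fun g => Φ a (g : Matrix (Fin a) (Fin a) F)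

lemma famOf_same {n : ℕ} (χ : GL (Fin n) F → ℂ) (M : Matrix (Fin n) (Fin n) F) :
    famOf χ n M = ext0 χ M := by
  simp [famOf]

lemma famOf_ne {n m : ℕ} (χ : GL (Fin n) F → ℂ) (h : m ≠ n) (M : Matrix (Fin m) (Fin m) F) :
    famOf χ m M = 0 := by
  simp [famOf, h]

lemma ext0_coe {n : ℕ} (χ : GL (Fin n) F → ℂ) (g : GL (Fin n) F) :
    ext0 χ (g : Matrix (Fin n) (Fin n) F) = χ g := by
  classical
  unfold ext0
  rw [dif_pos g.isUnit]
  congr 1
  exact Units.ext rfl

lemma ext0_nonunit {n : ℕ} (χ : GL (Fin n) F → ℂ) {M : Matrix (Fin n) (Fin n) F} (h : ¬ IsUnit M) :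
    ext0 χ M = 0 := by
  classical
  unfold ext0
  rw [dif_neg h]

lemma Fa_famOf {n : ℕ} (χ : GL (Fin n) F → ℂ) : Fa (famOf χ) n = χ := by
  funext g
  unfold Fa
  rw [famOf_same, ext0_coe]

end Fam

/-- The commutative monoid of class families under the Hall product. -/
def Cl (F : Type u) [Field F] := {Φ : Fam F // IsCl Φ}

variable [Fintype F]

noncomputable instance : CommMonoid (Cl F) where
  mul a b := ⟨hall a.1 b.1, isCl_hall a.2 b.2⟩
  one := ⟨unitFam, isCl_unit⟩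
  mul_assoc a b c := Subtype.ext (hall_assoc a.2 b.2 c.2)
  one_mul a := Subtype.ext (hall_unit_left a.2)
  mul_one a := Subtype.ext (hall_unit_right a.2)
  mul_comm a b := Subtype.ext (hall_comm a.2 b.2)

lemma Cl.mul_val (a b : Cl F) : (a * b).1 = hall a.1 b.1 := rfl
lemma Cl.one_val : (1 : Cl F).1 = unitFam := rfl

theorem good_unit : Good (unitFam : Fam F) 0 where
  cl := isCl_unit
  homog n hn M := by simp [unitFam, hn]
  nonunit n M hM := by
    by_cases hn : n = 0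
    · subst hn
      exact absurd (by rw [Subsingleton.elim M 1]; exact isUnit_one) hM
    · simp [unitFam, hn]
  char := by
    have : (fun g : GL (Fin 0) F => (unitFam : Fam F) 0 (g : Matrix (Fin 0) (Fin 0) F)) = fun _ => 1 := by
      funext g
      simp [unitFam]
    rw [this]
    exact isCharacter_one

/-- The cuspidal irreducible characters, in all sizes. -/
abbrev CC (F : Type u) [Field F] [Fintype F] :=
  Σ n : ℕ, {χ : IrrCharacter (GL (Fin n) F) // 0 < n ∧ IsCusp χ.1}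

/-- The size of a cuspidal character. -/
def wC (c : CC F) : ℕ := c.1

/-- The underlying function. -/
def chi (c : CC F) : GL (Fin c.1) F → ℂ := c.2.1.1

theorem chi_irr (c : CC F) : IsIrrCharacter _ (chi c) := c.2.1.2

theorem good_chi (c : CC F) : Good (famOf (chi c)) c.1 :=
  Adjoint.good_famOf (isCharacter_of_isIrrCharacter (chi_irr c))

/-- A cuspidal character as an element of the monoid. -/
noncomputable def famC (c : CC F) : Cl F := ⟨famOf (chi c), (good_chi c).cl⟩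

/-- The product attached to a multiset of cuspidal characters. -/
noncomputable def Th (s : Multiset (CC F)) : Cl F := (s.map famC).prod

/-- Total size. -/
def wt (s : Multiset (CC F)) : ℕ := (s.map wC).sum

@[simp] lemma Th_zero : Th (0 : Multiset (CC F)) = 1 := by simp [Th]
@[simp] lemma Th_cons (c : CC F) (s : Multiset (CC F)) : Th (c ::ₘ s) = famC c * Th s := by simp [Th]
lemma Th_add (s t : Multiset (CC F)) : Th (s + t) = Th s * Th t := by simp [Th]
@[simp] lemma wt_zero : wt (0 : Multiset (CC F)) = 0 := by simp [wt]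
@[simp] lemma wt_cons (c : CC F) (s : Multiset (CC F)) : wt (c ::ₘ s) = c.1 + wt s := by simp [wt, wC]
lemma wt_add (s t : Multiset (CC F)) : wt (s + t) = wt s + wt t := by simp [wt]

theorem good_Th (s : Multiset (CC F)) : Good (Th s).1 (wt s) := by
  induction s using Multiset.induction_on with
  | empty =>
    rw [Th_zero, wt_zero]
    exact good_unit
  | cons c s ih =>
    rw [Th_cons, wt_cons, Cl.mul_val]
    exact (good_chi c).hall ih

theorem wt_eq_zero {s : Multiset (CC F)} (h : wt s = 0) : s = 0 := by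
  induction s using Multiset.induction_on with
  | empty => rfl
  | cons c s ih =>
    rw [wt_cons] at h
    have := c.2.2.1
    omega

section Whit
variable (ψ₀ : AddChar F ℂ)

noncomputable local instance instFU {n : ℕ} : Fintype (U (F := F) n) := Fintype.ofFinite _

lemma whit_eq_sum {n : ℕ} (f : GL (Fin n) F → ℂ) :
    whit ψ₀ f = (Nat.card (U (F := F) n) : ℂ)⁻¹ *
      ∑ u : U (F := F) n, conj (psi ψ₀ ((u : GL (Fin n) F) : Matrix (Fin n) (Fin n) F)) * f (u : GL (Fin n) F) := by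
  unfold whit
  rw [finsum_eq_sum_of_fintype]

lemma whit_sum_smul {n : ℕ} {ι : Type*} [Fintype ι] (c : ι → ℂ) (f : ι → GL (Fin n) F → ℂ) :
    whit ψ₀ (∑ i, c i • f i) = ∑ i, c i * whit ψ₀ (f i) := by
  simp only [whit_eq_sum, Finset.sum_apply, Pi.smul_apply, smul_eq_mul, Finset.mul_sum]
  rw [Finset.sum_comm]
  refine Finset.sum_congr rfl fun i _ => ?_
  refine Finset.sum_congr rfl fun u _ => ?_
  ring

lemma whitF_eq (Φ : Fam F) (a : ℕ) : whitF ψ₀ a Φ = whit ψ₀ (Fa Φ a) := rfl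

lemma whitF_of_ne {Φ : Fam F} {a m : ℕ} (h : Good Φ a) (hm : m ≠ a) : whitF ψ₀ m Φ = 0 := by
  rw [whitF_eq, whit_eq_sum]
  have : ∀ u : U (F := F) m, Fa Φ m (u : GL (Fin m) F) = 0 := fun u => h.homog m hm _
  simp [this]

theorem whitF_hall_good (hψ : ψ₀ ≠ 1) {Φ Ψ : Fam F} {a b : ℕ} (hΦ : Good Φ a) (hΨ : Good Ψ b) :
    whitF ψ₀ (a + b) (hall Φ Ψ) = whitF ψ₀ a Φ * whitF ψ₀ b Ψ := by
  rw [Rodier.whitF_hall ψ₀ hψ hΦ.cl hΨ.cl]
  rw [Finset.sum_eq_single (a, b)]
  · intro p hp hne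
    by_cases h1 : p.1 = a
    · have h2 : p.2 ≠ b := by
        intro h2
        exact hne (Prod.ext h1 h2)
      rw [whitF_of_ne ψ₀ hΨ h2, mul_zero]
    · rw [whitF_of_ne ψ₀ hΦ h1, zero_mul]
  · intro h
    exact absurd (Finset.HasAntidiagonal.mem_antidiagonal.mpr (show (a, b).1 + (a, b).2 = a + b from rfl)) h

theorem whitF_unit : whitF ψ₀ 0 (unitFam : Fam F) = 1 := by
  rw [whitF_eq, whit_eq_sum]
  have hsub : Subsingleton (U (F := F) 0) := by
    constructor
    intro a b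
    apply Subtype.ext
    apply Units.ext
    exact Subsingleton.elim _ _
  have h1 : Nat.card (U (F := F) 0) = 1 := Nat.card_eq_one_iff_unique.mpr ⟨hsub, ⟨1⟩⟩
  rw [h1, Fintype.sum_subsingleton _ (1 : U (F := F) 0)]
  simp [Fa, unitFam, psi, sup]

theorem whit_chi (hψ : ψ₀ ≠ 1) (c : CC F) : whit ψ₀ (chi c) = 1 := by
  have hcl : IsClassFunction _ (chi c) := isClassFunction_of_isIrrCharacter (chi_irr c)
  have hd := Mirabolic.degree_of_cusp (n := c.1) c.2.2.1 ψ₀ hψ hcl
    (Bridge.cusp_of_isCusp hcl c.2.2.2)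
  have hne := irr_one_ne_zero (chi_irr c)
  rw [hd] at hne
  have h0 : whit ψ₀ (chi c) ≠ 0 := fun h => hne (by rw [h, zero_mul])
  exact (Hecke.whit_eq_zero_or_one ψ₀ hψ c.2.1).resolve_left h0

theorem whitF_Th (hψ : ψ₀ ≠ 1) (s : Multiset (CC F)) : whitF ψ₀ (wt s) (Th s).1 = 1 := by
  induction s using Multiset.induction_on with
  | empty =>
    rw [Th_zero, wt_zero]
    exact whitF_unit ψ₀
  | cons c s ih =>
    rw [Th_cons, wt_cons, Cl.mul_val]
    have := whitF_hall_good ψ₀ hψ (good_chi c) (good_Th s)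
    show whitF ψ₀ (c.1 + wt s) (hall (famOf (chi c)) (Th s).1) = 1
    rw [this, ih, mul_one, whitF_eq, Fa_famOf, whit_chi ψ₀ hψ]

end Whit

section Gen
variable (ψ₀ : AddChar F ℂ)

noncomputable local instance instFG {n : ℕ} : Fintype (GL (Fin n) F) := Fintype.ofFinite _

noncomputable local instance instFI {n : ℕ} : Fintype (IrrCharacter (GL (Fin n) F)) :=
  haveI := finite_irrCharacter (G := GL (Fin n) F)
  Fintype.ofFinite _

theorem inner_nat {Φ : Fam F} {n : ℕ} (hΦ : Good Φ n) (χ : IrrCharacter (GL (Fin n) F)) :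
    ∃ k : ℕ, classInner (Fa Φ n) χ.1 = k :=
  exists_nat_classInner hΦ.char (isCharacter_of_isIrrCharacter χ.2)

/-- The unique generic constituent. -/
theorem exists_gen (hψ : ψ₀ ≠ 1) {Φ : Fam F} {a : ℕ} (hΦ : Good Φ a) (hw : whit ψ₀ (Fa Φ a) = 1) :
    ∃ χ : IrrCharacter (GL (Fin a) F), whit ψ₀ χ.1 = 1 ∧ classInner (Fa Φ a) χ.1 ≠ 0 ∧
      ∀ χ' : IrrCharacter (GL (Fin a) F), whit ψ₀ χ'.1 = 1 → classInner (Fa Φ a) χ'.1 ≠ 0 → χ' = χ := by
  classical
  obtain ⟨m, hm⟩ := exists_nat_combination hΦ.char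
  have hin : ∀ χ : IrrCharacter (GL (Fin a) F), classInner (Fa Φ a) χ.1 = m χ := by
    intro χ
    have : Fa Φ a = ∑ j, m j • (j : GL (Fin a) F → ℂ) := hm
    rw [this]
    exact classInner_of_nat_combination m χ
  have hsum : whit ψ₀ (Fa Φ a) = ∑ χ : IrrCharacter (GL (Fin a) F), (m χ : ℂ) * whit ψ₀ χ.1 := by
    have h2 : Fa Φ a = ∑ χ : IrrCharacter (GL (Fin a) F), (m χ : ℂ) • (χ.1 : GL (Fin a) F → ℂ) := by
      have : Fa Φ a = ∑ j, m j • (j : GL (Fin a) F → ℂ) := hm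
      rw [this]
      refine Finset.sum_congr rfl fun j _ => ?_
      funext g
      simp
    rw [h2, whit_sum_smul]
  let v : IrrCharacter (GL (Fin a) F) → ℕ := fun χ => m χ * (if whit ψ₀ χ.1 = 1 then 1 else 0)
  have hv : ∀ χ : IrrCharacter (GL (Fin a) F), (m χ : ℂ) * whit ψ₀ χ.1 = (v χ : ℂ) := by
    intro χ
    rcases Hecke.whit_eq_zero_or_one ψ₀ hψ χ with h | h
    · simp [v, h]
    · simp [v, h]
  have hone : ∑ χ, v χ = 1 := by
    have : ((∑ χ, v χ : ℕ) : ℂ) = 1 := by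
      push_cast
      rw [← Finset.sum_congr rfl (fun χ _ => hv χ), ← hsum, hw]
    exact_mod_cast this
  obtain ⟨χ, hχ⟩ : ∃ χ, v χ ≠ 0 := by
    by_contra hc
    push Not at hc
    rw [Finset.sum_eq_zero (fun χ _ => hc χ)] at hone
    exact absurd hone (by norm_num)
  have hother : ∀ χ', χ' ≠ χ → v χ' = 0 := by
    intro χ' hne
    by_contra hc
    have h1 : v χ + v χ' ≤ ∑ χ, v χ := by
      rw [← Finset.add_sum_erase Finset.univ v (Finset.mem_univ χ)]
      have : v χ' ≤ ∑ x ∈ Finset.univ.erase χ, v x :=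
        Finset.single_le_sum (f := v) (fun _ _ => Nat.zero_le _) (Finset.mem_erase.mpr ⟨hne, Finset.mem_univ _⟩)
      omega
    omega
  have hχ1 : m χ ≠ 0 ∧ whit ψ₀ χ.1 = 1 := by
    simp only [v] at hχ
    by_cases h : whit ψ₀ χ.1 = 1
    · refine ⟨?_, h⟩
      intro h0
      simp [h0] at hχ
    · simp [h] at hχ
  refine ⟨χ, hχ1.2, ?_, ?_⟩
  · rw [hin]
    exact_mod_cast hχ1.1
  · intro χ' h1 h2
    by_contra hne
    have := hother χ' hne
    simp only [v, h1, if_true, mul_one] at this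
    rw [hin, this] at h2
    simp at h2

/-- Expansion of a good family in irreducible characters. -/
theorem good_expand {Ψ : Fam F} {b : ℕ} (hΨ : Good Ψ b) :
    ∃ m : IrrCharacter (GL (Fin b) F) → ℕ,
      (∀ χ : IrrCharacter (GL (Fin b) F), classInner (Fa Ψ b) χ.1 = m χ) ∧
      Ψ = ∑ χ : IrrCharacter (GL (Fin b) F), (m χ : ℂ) • famOf χ.1 := by
  classical
  obtain ⟨m, hm⟩ := exists_nat_combination hΨ.char
  have hin : ∀ χ : IrrCharacter (GL (Fin b) F), classInner (Fa Ψ b) χ.1 = m χ := by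
    intro χ
    have : Fa Ψ b = ∑ j, m j • (j : GL (Fin b) F → ℂ) := hm
    rw [this]
    exact classInner_of_nat_combination m χ
  refine ⟨m, hin, ?_⟩
  funext n M
  by_cases hn : n = b
  · subst hn
    by_cases hM : IsUnit M
    · obtain ⟨g, rfl⟩ := hM
      have h1 : Ψ n (g : Matrix (Fin n) (Fin n) F) = Fa Ψ n g := rfl
      have : Fa Ψ n g = (∑ j, m j • (j : GL (Fin n) F → ℂ)) g := by
        have h2 : Fa Ψ n = ∑ j, m j • (j : GL (Fin n) F → ℂ) := hm
        rw [h2]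
      rw [h1, this]
      simp only [Finset.sum_apply, Pi.smul_apply, smul_eq_mul, famOf_same, ext0_coe]
      refine Finset.sum_congr rfl fun j _ => ?_
      simp
    · rw [hΨ.nonunit n M hM]
      simp only [Finset.sum_apply, Pi.smul_apply, smul_eq_mul, famOf_same, ext0_nonunit _ hM, mul_zero,
        Finset.sum_const_zero]
  · rw [hΨ.homog n hn M]
    simp only [Finset.sum_apply, Pi.smul_apply, smul_eq_mul, famOf_ne _ hn, mul_zero,
      Finset.sum_const_zero]

omit [Fintype F] in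
lemma ev_sum_smul {V : Type u} [AddCommGroup V] [Module F V] [Module.Finite F V] {ι : Type*}
    [Fintype ι] (c : ι → ℂ) (Ψ : ι → Fam F) (g : V →ₗ[F] V) :
    ev (∑ i, c i • Ψ i) V g = ∑ i, c i * ev (Ψ i) V g := by
  simp [ev, Finset.sum_apply]

lemma hall_sum_right (Φ : Fam F) {ι : Type*} [Fintype ι] (c : ι → ℂ) (Ψ : ι → Fam F) :
    hall Φ (∑ i, c i • Ψ i) = ∑ i, c i • hall Φ (Ψ i) := by
  funext n M
  simp only [Finset.sum_apply, Pi.smul_apply, smul_eq_mul]
  unfold hall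
  simp only [pev_eq_sum, ev_sum_smul, Finset.mul_sum]
  rw [Finset.sum_comm]
  refine Finset.sum_congr rfl fun i _ => ?_
  refine Finset.sum_congr rfl fun W _ => ?_
  ring

lemma hall_smul_right (Φ Ψ : Fam F) (c : ℂ) : hall Φ (c • Ψ) = c • hall Φ Ψ := by
  funext n M
  simp only [Pi.smul_apply, smul_eq_mul]
  unfold hall
  simp only [pev_eq_sum, Finset.mul_sum]
  refine Finset.sum_congr rfl fun W _ => ?_
  have : ev (c • Ψ) ((Fin n → F) ⧸ W.1) (W.1.mapQ W.1 (Matrix.toLin' M) W.2) =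
      c * ev Ψ ((Fin n → F) ⧸ W.1) (W.1.mapQ W.1 (Matrix.toLin' M) W.2) := rfl
  rw [this]
  ring

lemma hall_smul_left (Φ Ψ : Fam F) (c : ℂ) : hall (c • Φ) Ψ = c • hall Φ Ψ := by
  funext n M
  simp only [Pi.smul_apply, smul_eq_mul]
  unfold hall
  simp only [pev_eq_sum, Finset.mul_sum]
  refine Finset.sum_congr rfl fun W _ => ?_
  have : ev (c • Φ) W.1 ((Matrix.toLin' M).restrict W.2) =
      c * ev Φ W.1 ((Matrix.toLin' M).restrict W.2) := rfl
  rw [this]
  ring

lemma hall_add_left (Φ Φ' Ψ : Fam F) : hall (Φ + Φ') Ψ = hall Φ Ψ + hall Φ' Ψ := by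
  funext n M
  simp only [Pi.add_apply]
  unfold hall
  simp only [pev_eq_sum, ← Finset.sum_add_distrib]
  refine Finset.sum_congr rfl fun W _ => ?_
  have : ev (Φ + Φ') W.1 ((Matrix.toLin' M).restrict W.2) =
      ev Φ W.1 ((Matrix.toLin' M).restrict W.2) + ev Φ' W.1 ((Matrix.toLin' M).restrict W.2) := rfl
  rw [this]
  ring

lemma Fa_sum_smul {n : ℕ} {ι : Type*} [Fintype ι] (c : ι → ℂ) (Ψ : ι → Fam F) :
    Fa (∑ i, c i • Ψ i) n = ∑ i, c i • Fa (Ψ i) n := by
  funext g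
  simp [Fa, Finset.sum_apply]

/-- A constituent of `Φ ∘ χ₁`, for `χ₁` a constituent of `Ψ`, is a constituent of `Φ ∘ Ψ`. -/
theorem constituent_right {Φ Ψ : Fam F} {a b n : ℕ} (h : a + b = n) (hΦ : Good Φ a) (hΨ : Good Ψ b)
    (χ₁ : IrrCharacter (GL (Fin b) F)) (hχ₁ : classInner (Fa Ψ b) χ₁.1 ≠ 0)
    (ξ : IrrCharacter (GL (Fin n) F)) (hξ : classInner (Fa (hall Φ (famOf χ₁.1)) n) ξ.1 ≠ 0) :
    classInner (Fa (hall Φ Ψ) n) ξ.1 ≠ 0 := by
  classical
  subst h
  obtain ⟨m, hm1, hm2⟩ := good_expand hΨ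
  have hk : ∀ χ : IrrCharacter (GL (Fin b) F), ∃ k : ℕ, classInner (Fa (hall Φ (famOf χ.1)) (a + b)) ξ.1 = k := by
    intro χ
    exact inner_nat (hΦ.hall (Adjoint.good_famOf (isCharacter_of_isIrrCharacter χ.2))) ξ
  choose k hk using hk
  rw [hm2, hall_sum_right, Fa_sum_smul, classInner_sum_left]
  simp only [classInner_smul_left, hk]
  have hcast : ∑ χ : IrrCharacter (GL (Fin b) F), (m χ : ℂ) * (k χ : ℂ) =
      ((∑ χ, m χ * k χ : ℕ) : ℂ) := by
    push_cast
    rfl
  rw [hcast]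
  have h1 : m χ₁ ≠ 0 := by
    intro h0
    apply hχ₁
    rw [hm1, h0]
    simp
  have h2 : k χ₁ ≠ 0 := by
    intro h0
    apply hξ
    rw [hk, h0]
    simp
  have h3 : 0 < ∑ χ, m χ * k χ :=
    lt_of_lt_of_le (Nat.mul_pos (Nat.pos_of_ne_zero h1) (Nat.pos_of_ne_zero h2))
      (Finset.single_le_sum (f := fun χ => m χ * k χ) (fun _ _ => Nat.zero_le _) (Finset.mem_univ χ₁))
  exact_mod_cast h3.ne'

end Gen

end Cfsg.Agent.Lib.GLH.Count1
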