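import Cfsg.Agent.Lib.GLH.Count1

/-!
# Assembly, part 2: the derivation of a product of cuspidal characters; the adjunction.
-/

set_option autoImplicit false
set_option linter.unusedSectionVars false
set_option linter.style.haveILetI false

namespace Cfsg.Agent.Lib.GLH.Count2

open Matrix Module Cfsg
open Cfsg.Agent.Lib.GLH Defs Ev HallAssoc HallComm Der Leibniz1 Leibniz2 Leibniz3 Count1
open Cfsg.Agent.Lib.Char.Basic Cfsg.Agent.Lib.Char.Ortho Cfsg.Agent.Lib.Char.Complete
open scoped ComplexConjugate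

universe u

variable {F : Type u} [Field F] [Fintype F]

noncomputable local instance instFG {n : ℕ} : Fintype (GL (Fin n) F) := Fintype.ofFinite _

/-- The conjugate of a cuspidal character, as a function on endomorphisms. -/
noncomputable def sig (σ : CC F) : ((Fin σ.1 → F) →ₗ[F] (Fin σ.1 → F)) → ℂ :=
  fun A => conj (ev (famOf (chi σ)) (Fin σ.1 → F) A)

theorem hcusp_sig (σ : CC F) : Hcusp (sig σ) :=
  CuspS.hcusp_of_isCusp (good_chi σ).cl σ.2.2.2

theorem nontrivial_X (σ : CC F) : Nontrivial (Fin σ.1 → F) := by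
  haveI : Nonempty (Fin σ.1) := ⟨⟨0, σ.2.2.1⟩⟩
  infer_instance

/-- Value of `ev (famOf χ)` on a matrix. -/
theorem ev_famOf_toLin {n : ℕ} (χ : GL (Fin n) F → ℂ) (hχ : IsCl (famOf χ)) (M : Matrix (Fin n) (Fin n) F) :
    ev (famOf χ) (Fin n → F) (Matrix.toLin' M) = ext0 χ M := by
  rw [ev_std hχ, famOf_same]

/-- A sum over endomorphisms of a function vanishing off the invertible ones. -/
theorem sum_end_eq_sum_GL {n : ℕ} (f : ((Fin n → F) →ₗ[F] (Fin n → F)) → ℂ)
    (hf : ∀ M : Matrix (Fin n) (Fin n) F, ¬ IsUnit M → f (Matrix.toLin' M) = 0) :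
    ∑ A, f A = ∑ g : GL (Fin n) F, f (Matrix.toLin' (g : Matrix (Fin n) (Fin n) F)) := by
  classical
  have h1 : ∑ A, f A = ∑ M : Matrix (Fin n) (Fin n) F, f (Matrix.toLin' M) := by
    symm
    exact Fintype.sum_equiv (Matrix.toLin' (m := Fin n) (n := Fin n) (R := F)).toEquiv _ _ (fun _ => rfl)
  rw [h1]
  symm
  refine Finset.sum_of_injOn (fun g : GL (Fin n) F => (g : Matrix (Fin n) (Fin n) F)) ?_ ?_ ?_ ?_
  · intro a _ b _ h
    exact Units.ext h
  · intro a _
    exact Finset.mem_univ _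
  · intro M _ hM
    apply hf
    intro hu
    obtain ⟨g, rfl⟩ := hu
    exact hM ⟨g, Finset.mem_coe.mpr (Finset.mem_univ _), rfl⟩
  · intro g _
    rfl

theorem sum_end_famOf {n : ℕ} (χ ψ : GL (Fin n) F → ℂ) (hχ : IsCl (famOf χ)) (hψ : IsCl (famOf ψ)) :
    ∑ A : (Fin n → F) →ₗ[F] (Fin n → F),
      conj (ev (famOf χ) (Fin n → F) A) * ev (famOf ψ) (Fin n → F) A =
    ∑ g : GL (Fin n) F, conj (χ g) * ψ g := by
  rw [sum_end_eq_sum_GL]
  · refine Finset.sum_congr rfl fun g _ => ?_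
    rw [ev_famOf_toLin χ hχ, ev_famOf_toLin ψ hψ, ext0_coe, ext0_coe]
  · intro M hM
    rw [ev_famOf_toLin χ hχ, ext0_nonunit _ hM]
    simp

theorem subsingleton_hom0 (c : ℕ) : Subsingleton ((Fin 0 → F) →ₗ[F] (Fin c → F)) := by
  constructor
  intro a b
  refine LinearMap.ext fun x => ?_
  have : x = 0 := Subsingleton.elim _ _
  rw [this, map_zero, map_zero]

/-- `X × 0 ≃ X`. -/
def prod0Equiv (c : ℕ) : ((Fin c → F) × (Fin 0 → F)) ≃ₗ[F] (Fin c → F) where
  toFun p := p.1
  map_add' _ _ := rfl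
  map_smul' _ _ := rfl
  invFun x := (x, 0)
  left_inv p := Prod.ext rfl (Subsingleton.elim _ _)
  right_inv _ := rfl

/-- The derivation on a cuspidal character. -/
theorem dFam_famOf (σ τ : CC F) (n : ℕ) (M : Matrix (Fin n) (Fin n) F) :
    open Classical in
    dFam (sig σ) (famOf (chi τ)) n M =
      (if σ = τ then (Nat.card (GL (Fin σ.1) F) : ℂ) else 0) * unitFam n M := by
  classical
  unfold dFam dN
  rw [dS_eq_sum]
  by_cases h1 : σ.1 + n = τ.1
  · by_cases hn : n = 0
    · subst hn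
      obtain ⟨c, σ'⟩ := σ
      obtain ⟨d, τ'⟩ := τ
      simp only [add_zero] at h1
      subst h1
      haveI hsubs : Subsingleton ((Fin 0 → F) →ₗ[F] (Fin c → F)) := subsingleton_hom0 c
      have hcard : Nat.card ((Fin 0 → F) →ₗ[F] (Fin c → F)) = 1 :=
        Nat.card_eq_one_iff_unique.mpr ⟨hsubs, ⟨0⟩⟩
      rw [hcard]
      have hE : ∀ (A : (Fin c → F) →ₗ[F] (Fin c → F)) (B : (Fin 0 → F) →ₗ[F] (Fin c → F)),
          ev (famOf (chi ⟨c, τ'⟩)) ((Fin c → F) × (Fin 0 → F)) (E A B (Matrix.toLin' M)) =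
            ev (famOf (chi ⟨c, τ'⟩)) (Fin c → F) A := by
        intro A B
        refine ev_congr (good_chi ⟨c, τ'⟩).cl (prod0Equiv c) _ _ ?_
        intro v
        have : B v.2 = 0 := by
          have h0 : v.2 = 0 := Subsingleton.elim _ _
          rw [h0, map_zero]
        show A v.1 + B v.2 = A v.1
        rw [this, add_zero]
      have hsum : ∀ A : (Fin c → F) →ₗ[F] (Fin c → F),
          ∑ B : (Fin 0 → F) →ₗ[F] (Fin c → F), sig ⟨c, σ'⟩ A *
            ev (famOf (chi ⟨c, τ'⟩)) ((Fin c → F) × (Fin 0 → F)) (E A B (Matrix.toLin' M)) =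
            sig ⟨c, σ'⟩ A * ev (famOf (chi ⟨c, τ'⟩)) (Fin c → F) A := by
        intro A
        rw [Fintype.sum_subsingleton _ (0 : (Fin 0 → F) →ₗ[F] (Fin c → F)), hE]
      simp only [Nat.cast_one, inv_one, one_mul, hsum]
      have h2 := sum_end_famOf (chi ⟨c, σ'⟩) (chi ⟨c, τ'⟩) (good_chi ⟨c, σ'⟩).cl (good_chi ⟨c, τ'⟩).cl
      have h3 : ∑ A : (Fin c → F) →ₗ[F] (Fin c → F), sig ⟨c, σ'⟩ A * ev (famOf (chi ⟨c, τ'⟩)) (Fin c → F) A =
          ∑ g : GL (Fin c) F, conj (σ'.1.1 g) * τ'.1.1 g := h2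
      rw [h3]
      have h4 := classInner_irr τ'.1.2 σ'.1.2
      have h5 : ∑ g : GL (Fin c) F, conj (σ'.1.1 g) * τ'.1.1 g =
          (Nat.card (GL (Fin c) F) : ℂ) * classInner τ'.1.1 σ'.1.1 := by
        rw [classInner_def, ← mul_assoc, mul_inv_cancel₀ (card_ne_zero_complex), one_mul]
        refine Finset.sum_congr rfl fun g _ => ?_
        ring
      rw [h5, h4]
      have hu : (unitFam : Fam F) 0 M = 1 := by simp [unitFam]
      rw [hu, mul_one]
      by_cases he : τ' = σ'
      · subst he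
        simp
      · have h6 : τ'.1.1 ≠ σ'.1.1 := fun h => he (Subtype.ext (Subtype.ext h))
        have h7 : (⟨c, σ'⟩ : CC F) ≠ ⟨c, τ'⟩ := by
          intro h
          apply he
          have := eq_of_heq (Sigma.mk.inj_iff.mp h).2
          exact this.symm
        simp [h6, h7]
    · -- `n > 0`: cuspidality
      have h0 : ∀ A : (Fin σ.1 → F) →ₗ[F] (Fin σ.1 → F),
          ∑ B : (Fin n → F) →ₗ[F] (Fin σ.1 → F), sig σ A *
            ev (famOf (chi τ)) ((Fin σ.1 → F) × (Fin n → F)) (E A B (Matrix.toLin' M)) = 0 := by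
        intro A
        rw [← Finset.mul_sum]
        have h2 := τ.2.2.2 σ.1 n σ.2.2.1 (Nat.pos_of_ne_zero hn) h1 A (Matrix.toLin' M)
        rw [finsum_eq_sum_of_fintype] at h2
        have h3 : ∑ B : (Fin n → F) →ₗ[F] (Fin σ.1 → F),
            ev (famOf (chi τ)) ((Fin σ.1 → F) × (Fin n → F)) (E A B (Matrix.toLin' M)) = 0 := h2
        rw [h3, mul_zero]
      simp only [h0, Finset.sum_const_zero, mul_zero]
      have hu : (unitFam : Fam F) n M = 0 := by simp [unitFam, hn]
      rw [hu, mul_zero]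
  · have h0 : ∀ (A : (Fin σ.1 → F) →ₗ[F] (Fin σ.1 → F)) (B : (Fin n → F) →ₗ[F] (Fin σ.1 → F)),
        ev (famOf (chi τ)) ((Fin σ.1 → F) × (Fin n → F)) (E A B (Matrix.toLin' M)) = 0 := by
      intro A B
      unfold ev
      apply famOf_ne
      simpa using h1
    simp only [h0, mul_zero, Finset.sum_const_zero]
    by_cases he : σ = τ
    · subst he
      have hn : n ≠ 0 := by
        intro hn
        apply h1
        omega
      have hu : (unitFam : Fam F) n M = 0 := by simp [unitFam, hn]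
      rw [hu, mul_zero]
    · simp [he]

/-- The derivation kills the unit. -/
theorem dFam_unit (σ : CC F) (n : ℕ) (M : Matrix (Fin n) (Fin n) F) :
    dFam (sig σ) (unitFam : Fam F) n M = 0 := by
  unfold dFam dN
  rw [dS_eq_sum]
  have h0 : ∀ (A : (Fin σ.1 → F) →ₗ[F] (Fin σ.1 → F)) (B : (Fin n → F) →ₗ[F] (Fin σ.1 → F)),
      ev (unitFam : Fam F) ((Fin σ.1 → F) × (Fin n → F)) (E A B (Matrix.toLin' M)) = 0 := by
    intro A B
    rw [ev_unit]
    have : finrank F ((Fin σ.1 → F) × (Fin n → F)) = σ.1 + n := by simp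
    rw [this]
    have := σ.2.2.1
    rw [if_neg (by omega)]
  simp only [h0, mul_zero, Finset.sum_const_zero]

/-- The main formula: derivation of a product of cuspidal characters. -/
theorem dFam_Th (σ : CC F) (s : Multiset (CC F)) (n : ℕ) (M : Matrix (Fin n) (Fin n) F) :
    open Classical in
    dFam (sig σ) (Th s).1 n M =
      ((Nat.card (GL (Fin σ.1) F) : ℂ) * (s.count σ : ℂ)) * (Th (s.erase σ)).1 n M := by
  classical
  haveI := nontrivial_X σ
  induction s using Multiset.induction_on generalizing n M with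
  | empty =>
    rw [Th_zero]
    show dFam (sig σ) (unitFam : Fam F) n M = _
    rw [dFam_unit]
    simp
  | cons τ t ih =>
    rw [Th_cons, Cl.mul_val]
    show dFam (sig σ) (hall (famOf (chi τ)) (Th t).1) n M = _
    rw [dFam_hall (hcusp_sig σ) (good_chi τ).cl (Th t).2 n M]
    have h1 : dFam (sig σ) (famOf (chi τ)) =
        (if σ = τ then (Nat.card (GL (Fin σ.1) F) : ℂ) else 0) • (unitFam : Fam F) := by
      funext m N
      rw [dFam_famOf]
      rfl
    have h2 : dFam (sig σ) (Th t).1 =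
        ((Nat.card (GL (Fin σ.1) F) : ℂ) * (t.count σ : ℂ)) • (Th (t.erase σ)).1 := by
      funext m N
      rw [ih]
      rfl
    rw [h1, h2, hall_smul_left, hall_smul_right, hall_unit_left (Th t).2]
    simp only [Pi.smul_apply, smul_eq_mul]
    by_cases he : σ = τ
    · subst he
      rw [Multiset.count_cons_self, Multiset.erase_cons_head, if_pos rfl]
      by_cases hc : σ ∈ t
      · have h3 : hall (famOf (chi σ)) (Th (t.erase σ)).1 = (Th t).1 := by
          have : Th t = famC σ * Th (t.erase σ) := by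
            rw [← Th_cons, Multiset.cons_erase hc]
          rw [this]
          rfl
        rw [h3]
        push_cast
        ring
      · rw [Multiset.count_eq_zero_of_notMem hc]
        simp
    · rw [if_neg he, Multiset.count_cons_of_ne he, Multiset.erase_cons_tail _ (Ne.symm he)]
      have h3 : (Th (τ ::ₘ t.erase σ)).1 = hall (famOf (chi τ)) (Th (t.erase σ)).1 := by
        rw [Th_cons]
        rfl
      rw [h3]
      simp

theorem sum_GL_eq_inner {n : ℕ} (f χ : GL (Fin n) F → ℂ) :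
    ∑ g : GL (Fin n) F, f g * conj (χ g) = (Nat.card (GL (Fin n) F) : ℂ) * classInner f χ := by
  rw [classInner_def, ← mul_assoc, mul_inv_cancel₀ card_ne_zero_complex, one_mul]

/-- The adjunction formula. -/
theorem inner_hall_Th (σ : CC F) {b n : ℕ} (h : σ.1 + b = n) (χ₁ : IrrCharacter (GL (Fin b) F))
    (s : Multiset (CC F)) :
    open Classical in
    classInner (Fa (Th s).1 n) (Fa (hall (famOf (chi σ)) (famOf χ₁.1)) n) =
      (s.count σ : ℂ) * classInner (Fa (Th (s.erase σ)).1 b) χ₁.1 := by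
  classical
  subst h
  have hgχ := Adjoint.good_famOf (isCharacter_of_isIrrCharacter χ₁.2)
  have h1 := Adjoint.classInner_hall (a := σ.1) (b := b) (Ξ := (Th s).1) (Φ := famOf (chi σ))
    (Ψ := famOf χ₁.1) (Th s).2 (good_Th s).nonunit (good_chi σ) hgχ
  have h2 : classInner (Fa (Th s).1 (σ.1 + b)) (Fa (hall (famOf (chi σ)) (famOf χ₁.1)) (σ.1 + b)) =
      _ := h1
  rw [h2, finsum_eq_sum_of_fintype]
  have hD : ∀ D : (Fin b → F) →ₗ[F] (Fin b → F),
      dN (fun A : (Fin σ.1 → F) →ₗ[F] (Fin σ.1 → F) => conj (ev (famOf (chi σ)) (Fin σ.1 → F) A)) (Th s).1 D =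
        ((Nat.card (GL (Fin σ.1) F) : ℂ) * (s.count σ : ℂ)) * (Th (s.erase σ)).1 b (LinearMap.toMatrix' D) := by
    intro D
    have := dFam_Th σ s b (LinearMap.toMatrix' D)
    unfold dFam at this
    rw [Matrix.toLin'_toMatrix'] at this
    exact this
  simp_rw [hD]
  rw [sum_end_eq_sum_GL]
  · have h3 : ∀ g : GL (Fin b) F,
        ((Nat.card (GL (Fin σ.1) F) : ℂ) * (s.count σ : ℂ)) *
          (Th (s.erase σ)).1 b (LinearMap.toMatrix' (Matrix.toLin' (g : Matrix (Fin b) (Fin b) F))) *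
          conj (ev (famOf χ₁.1) (Fin b → F) (Matrix.toLin' (g : Matrix (Fin b) (Fin b) F))) =
        ((Nat.card (GL (Fin σ.1) F) : ℂ) * (s.count σ : ℂ)) *
          (Fa (Th (s.erase σ)).1 b g * conj (χ₁.1 g)) := by
      intro g
      rw [LinearMap.toMatrix'_toLin', ev_famOf_toLin _ hgχ.cl, ext0_coe, mul_assoc]
      rfl
    simp_rw [h3]
    rw [← Finset.mul_sum, sum_GL_eq_inner]
    have ha : (Nat.card (GL (Fin σ.1) F) : ℂ) ≠ 0 := card_ne_zero_complex
    have hb : (Nat.card (GL (Fin b) F) : ℂ) ≠ 0 := card_ne_zero_complex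
    field_simp
  · intro M hM
    rw [ev_famOf_toLin _ hgχ.cl, ext0_nonunit _ hM]
    simp

end Cfsg.Agent.Lib.GLH.Count2
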