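import Cfsg.Agent.Lib.GLH.Count2

/-!
# Assembly, part 3: generic characters are in bijection with multisets of cuspidal characters.
-/

set_option autoImplicit false
set_option linter.unusedSectionVars false
set_option linter.style.haveILetI false

namespace Cfsg.Agent.Lib.GLH.Count3

open Matrix Module Cfsg
open Cfsg.Agent.Lib.GLH Defs Ev HallAssoc HallComm Der Leibniz1 Leibniz2 Leibniz3 Count1 Count2
open Cfsg.Agent.Lib.Char.Basic Cfsg.Agent.Lib.Char.Ortho Cfsg.Agent.Lib.Char.Complete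
open scoped ComplexConjugate

universe u

variable {F : Type u} [Field F] [Fintype F]

noncomputable local instance instFG {n : ℕ} : Fintype (GL (Fin n) F) := Fintype.ofFinite _

noncomputable local instance instFI {n : ℕ} : Fintype (IrrCharacter (GL (Fin n) F)) :=
  haveI := finite_irrCharacter (G := GL (Fin n) F)
  Fintype.ofFinite _

variable (ψ₀ : AddChar F ℂ) (hψ : ψ₀ ≠ 1)

/-- `χ` is the generic constituent of the product attached to `s`. -/
def R {n : ℕ} (s : Multiset (CC F)) (χ : IrrCharacter (GL (Fin n) F)) : Prop :=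
  whit ψ₀ χ.1 = 1 ∧ classInner (Fa (Th s).1 n) χ.1 ≠ 0

include hψ

theorem good_Th' {n : ℕ} {s : Multiset (CC F)} (h : wt s = n) : Good (Th s).1 n := h ▸ good_Th s

theorem whit_Th' {n : ℕ} {s : Multiset (CC F)} (h : wt s = n) : whit ψ₀ (Fa (Th s).1 n) = 1 :=
  h ▸ whitF_Th ψ₀ hψ s

theorem exists_R {n : ℕ} {s : Multiset (CC F)} (h : wt s = n) :
    ∃ χ : IrrCharacter (GL (Fin n) F), R ψ₀ s χ := by
  obtain ⟨χ, h1, h2, _⟩ := exists_gen ψ₀ hψ (good_Th' ψ₀ hψ h) (whit_Th' ψ₀ hψ h)
  exact ⟨χ, h1, h2⟩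

theorem R_unique {n : ℕ} {s : Multiset (CC F)} (h : wt s = n) {χ χ' : IrrCharacter (GL (Fin n) F)}
    (h1 : R ψ₀ s χ) (h2 : R ψ₀ s χ') : χ = χ' := by
  obtain ⟨ξ, _, _, h3⟩ := exists_gen ψ₀ hψ (good_Th' ψ₀ hψ h) (whit_Th' ψ₀ hψ h)
  rw [h3 χ h1.1 h1.2, h3 χ' h2.1 h2.2]

omit hψ in
/-- Two characters with a common irreducible constituent are not orthogonal. -/
theorem inner_ne_zero_of_common {n : ℕ} {A B : GL (Fin n) F → ℂ} (hA : IsCharacter _ A)
    (hB : IsCharacter _ B) (χ : IrrCharacter (GL (Fin n) F)) (h1 : classInner A χ.1 ≠ 0)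
    (h2 : classInner B χ.1 ≠ 0) : classInner A B ≠ 0 := by
  classical
  rw [classInner_eq_sum (isClassFunction_of_isCharacter hB)]
  have hk : ∀ ξ : IrrCharacter (GL (Fin n) F), ∃ k : ℕ, classInner A ξ.1 * conj (classInner B ξ.1) = k := by
    intro ξ
    obtain ⟨a, ha⟩ := exists_nat_classInner hA (isCharacter_of_isIrrCharacter ξ.2)
    obtain ⟨b, hb⟩ := exists_nat_classInner hB (isCharacter_of_isIrrCharacter ξ.2)
    refine ⟨a * b, ?_⟩
    rw [ha, hb]
    simp
  choose k hk using hk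
  simp only [hk]
  have hpos : k χ ≠ 0 := by
    intro h0
    have := hk χ
    rw [h0] at this
    have h3 : classInner A χ.1 * conj (classInner B χ.1) ≠ 0 :=
      mul_ne_zero h1 ((map_ne_zero _).mpr h2)
    exact h3 (by simpa using this)
  have h3 : 0 < ∑ ξ, k ξ :=
    lt_of_lt_of_le (Nat.pos_of_ne_zero hpos)
      (Finset.single_le_sum (f := k) (fun _ _ => Nat.zero_le _) (Finset.mem_univ χ))
  have : ((∑ ξ, k ξ : ℕ) : ℂ) ≠ 0 := by exact_mod_cast h3.ne'
  simpa using this

/-- Injectivity. -/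
theorem R_inj (n : ℕ) : ∀ (s s' : Multiset (CC F)), wt s = n → wt s' = n →
    ∀ χ : IrrCharacter (GL (Fin n) F), R ψ₀ s χ → R ψ₀ s' χ → s = s' := by
  classical
  induction n using Nat.strong_induction_on with
  | _ n ih =>
    intro s s' hs hs' χ h1 h2
    induction s using Multiset.induction_on with
    | empty =>
      rw [wt_zero] at hs
      subst hs
      exact (wt_eq_zero hs').symm
    | cons σ s₁ _ =>
      rw [wt_cons] at hs
      have hσ := σ.2.2.1
      obtain ⟨χ₁, hχ₁⟩ := exists_R ψ₀ hψ (s := s₁) rfl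
      have hgs := good_chi σ
      have hgχ₁ : Good (famOf χ₁.1) (wt s₁) := Adjoint.good_famOf (isCharacter_of_isIrrCharacter χ₁.2)
      have hΨ₁ : Good (hall (famOf (chi σ)) (famOf χ₁.1)) n := hs ▸ hgs.hall hgχ₁
      have hw₁ : whit ψ₀ (Fa (hall (famOf (chi σ)) (famOf χ₁.1)) n) = 1 := by
        have h3 := whitF_hall_good ψ₀ hψ hgs hgχ₁
        rw [hs] at h3
        rw [← whitF_eq, h3, whitF_eq, whitF_eq, Fa_famOf, Fa_famOf, whit_chi ψ₀ hψ, hχ₁.1, mul_one]
      obtain ⟨ξ, hξ1, hξ2, _⟩ := exists_gen ψ₀ hψ hΨ₁ hw₁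
      have hgΘ := good_Th s₁
      have hξ3 : classInner (Fa (Th (σ ::ₘ s₁)).1 n) ξ.1 ≠ 0 := by
        rw [Th_cons]
        exact constituent_right hs hgs hgΘ χ₁ hχ₁.2 ξ hξ2
      have hξχ : ξ = χ := R_unique ψ₀ hψ (s := σ ::ₘ s₁) (by rw [wt_cons]; exact hs) ⟨hξ1, hξ3⟩ h1
      subst hξχ
      have h3 : classInner (Fa (Th s').1 n) (Fa (hall (famOf (chi σ)) (famOf χ₁.1)) n) ≠ 0 :=
        inner_ne_zero_of_common (good_Th' ψ₀ hψ hs').char hΨ₁.char ξ h2.2 hξ2
      have h4 := inner_hall_Th σ hs χ₁ s'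
      rw [h4] at h3
      have hc : s'.count σ ≠ 0 := by
        intro h0
        apply h3
        have h5 : (Multiset.count σ s' : ℂ) = 0 := by exact_mod_cast h0
        convert zero_mul _ using 2
      have hmem : σ ∈ s' := Multiset.count_ne_zero.mp hc
      have hcons : σ ::ₘ s'.erase σ = s' := Multiset.cons_erase hmem
      have hwt : wt (s'.erase σ) = wt s₁ := by
        have : wt (σ ::ₘ s'.erase σ) = n := by rw [hcons]; exact hs'
        rw [wt_cons] at this
        omega
      have h5 : classInner (Fa (Th (s'.erase σ)).1 (wt s₁)) χ₁.1 ≠ 0 := by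
        intro h0
        apply h3
        convert mul_zero _ using 2
      have h6 := ih (wt s₁) (by omega) s₁ (s'.erase σ) rfl hwt χ₁ hχ₁ ⟨hχ₁.1, h5⟩
      rw [h6, hcons]

/-- Surjectivity. -/
theorem R_surj (n : ℕ) : ∀ χ : IrrCharacter (GL (Fin n) F), whit ψ₀ χ.1 = 1 →
    ∃ s : Multiset (CC F), wt s = n ∧ R ψ₀ s χ := by
  classical
  induction n using Nat.strong_induction_on with
  | _ n ih =>
    intro χ hχ
    by_cases hn : n = 0
    · subst hn
      refine ⟨0, rfl, hχ, ?_⟩
      rw [Th_zero]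
      have hsub : Subsingleton (GL (Fin 0) F) := by
        constructor
        intro a b
        apply Units.ext
        exact Subsingleton.elim _ _
      have hcard : Nat.card (GL (Fin 0) F) = 1 := Nat.card_eq_one_iff_unique.mpr ⟨hsub, ⟨1⟩⟩
      rw [classInner_def, hcard, Fintype.sum_subsingleton _ (1 : GL (Fin 0) F)]
      have h1 : Fa ((1 : Cl F).1) 0 (1 : GL (Fin 0) F) = 1 := by
        show (unitFam : Fam F) 0 ((1 : GL (Fin 0) F) : Matrix (Fin 0) (Fin 0) F) = 1
        simp [unitFam]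
      rw [h1]
      simp only [Nat.cast_one, inv_one, one_mul, map_eq_zero, ne_eq]
      exact irr_one_ne_zero χ.2
    · by_cases hc : IsCusp χ.1
      · refine ⟨(⟨n, ⟨χ, Nat.pos_of_ne_zero hn, hc⟩⟩ : CC F) ::ₘ 0, by rw [wt_cons, wt_zero]; rfl, hχ, ?_⟩
        rw [Th_cons, Th_zero, mul_one]
        show classInner (Fa (famOf χ.1) n) χ.1 ≠ 0
        rw [Fa_famOf, classInner_self_of_isIrr χ.2]
        exact one_ne_zero
      · have hcl : IsClassFunction _ χ.1 := isClassFunction_of_isIrrCharacter χ.2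
        obtain ⟨a, b, σ, τ, ha, hb, hab, hne⟩ := Bridge.exists_irr_of_not_isCusp hcl hc
        subst hab
        have hgσ : Good (famOf σ.1) a := Adjoint.good_famOf (isCharacter_of_isIrrCharacter σ.2)
        have hgτ : Good (famOf τ.1) b := Adjoint.good_famOf (isCharacter_of_isIrrCharacter τ.2)
        have hgχ : Good (famOf χ.1) (a + b) := Adjoint.good_famOf (isCharacter_of_isIrrCharacter χ.2)
        have hin := Adjoint.classInner_hall (a := a) (b := b) (Ξ := famOf χ.1) (Φ := famOf σ.1)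
          (Ψ := famOf τ.1) hgχ.cl hgχ.nonunit hgσ hgτ
        have hin2 : classInner χ.1 (Fa (hall (famOf σ.1) (famOf τ.1)) (a + b)) ≠ 0 := by
          have h1 : Fa (famOf χ.1) (a + b) = χ.1 := Fa_famOf _
          have h2 : classInner (Fa (famOf χ.1) (a + b)) (Fa (hall (famOf σ.1) (famOf τ.1)) (a + b)) = _ := hin
          rw [h1] at h2
          rw [h2]
          apply mul_ne_zero _ hne
          apply inv_ne_zero
          exact mul_ne_zero card_ne_zero_complex card_ne_zero_complex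
        have hin3 : classInner (Fa (hall (famOf σ.1) (famOf τ.1)) (a + b)) χ.1 ≠ 0 := by
          rw [← classInner_conj]
          exact (map_ne_zero _).mpr hin2
        -- both factors are generic
        have hΦ₀ := hgσ.hall hgτ
        have hw : whit ψ₀ (Fa (hall (famOf σ.1) (famOf τ.1)) (a + b)) = whit ψ₀ σ.1 * whit ψ₀ τ.1 := by
          rw [← whitF_eq, whitF_hall_good ψ₀ hψ hgσ hgτ, whitF_eq, whitF_eq, Fa_famOf, Fa_famOf]
        have hw0 : whit ψ₀ (Fa (hall (famOf σ.1) (famOf τ.1)) (a + b)) ≠ 0 := by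
          obtain ⟨m, hm⟩ := exists_nat_combination hΦ₀.char
          have hm' : Fa (hall (famOf σ.1) (famOf τ.1)) (a + b) = ∑ j, m j • (j : GL (Fin (a + b)) F → ℂ) := hm
          have hmχ : classInner (Fa (hall (famOf σ.1) (famOf τ.1)) (a + b)) χ.1 = m χ := by
            rw [hm']
            exact classInner_of_nat_combination m χ
          have hsum : whit ψ₀ (Fa (hall (famOf σ.1) (famOf τ.1)) (a + b)) =
              ∑ ξ : IrrCharacter (GL (Fin (a + b)) F), (m ξ : ℂ) * whit ψ₀ ξ.1 := by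
            have h2 : Fa (hall (famOf σ.1) (famOf τ.1)) (a + b) =
                ∑ ξ : IrrCharacter (GL (Fin (a + b)) F), (m ξ : ℂ) • (ξ.1 : GL (Fin (a + b)) F → ℂ) := by
              rw [hm']
              refine Finset.sum_congr rfl fun j _ => ?_
              funext g
              simp
            rw [h2, whit_sum_smul]
          let v : IrrCharacter (GL (Fin (a + b)) F) → ℕ :=
            fun ξ => m ξ * (if whit ψ₀ ξ.1 = 1 then 1 else 0)
          have hv : ∀ ξ : IrrCharacter (GL (Fin (a + b)) F), (m ξ : ℂ) * whit ψ₀ ξ.1 = (v ξ : ℂ) := by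
            intro ξ
            rcases Hecke.whit_eq_zero_or_one ψ₀ hψ ξ with h | h
            · simp [v, h]
            · simp [v, h]
          rw [hsum, Finset.sum_congr rfl (fun ξ _ => hv ξ)]
          have hvχ : v χ ≠ 0 := by
            simp only [v, hχ, if_true, mul_one]
            intro h0
            apply hin3
            rw [hmχ, h0]
            simp
          have h3 : 0 < ∑ ξ, v ξ :=
            lt_of_lt_of_le (Nat.pos_of_ne_zero hvχ)
              (Finset.single_le_sum (f := v) (fun _ _ => Nat.zero_le _) (Finset.mem_univ χ))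
          have : ((∑ ξ, v ξ : ℕ) : ℂ) ≠ 0 := by exact_mod_cast h3.ne'
          simpa using this
        rw [hw] at hw0
        have hσ1 : whit ψ₀ σ.1 = 1 :=
          (Hecke.whit_eq_zero_or_one ψ₀ hψ σ).resolve_left (fun h => hw0 (by rw [h, zero_mul]))
        have hτ1 : whit ψ₀ τ.1 = 1 :=
          (Hecke.whit_eq_zero_or_one ψ₀ hψ τ).resolve_left (fun h => hw0 (by rw [h, mul_zero]))
        obtain ⟨s₁, hs₁, hR₁⟩ := ih a (by omega) σ hσ1
        obtain ⟨s₂, hs₂, hR₂⟩ := ih b (by omega) τ hτ1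
        have hg₁ : Good (Th s₁).1 a := good_Th' ψ₀ hψ hs₁
        have hg₂ : Good (Th s₂).1 b := good_Th' ψ₀ hψ hs₂
        have h1 : classInner (Fa (hall (famOf σ.1) (Th s₂).1) (a + b)) χ.1 ≠ 0 :=
          constituent_right rfl hgσ hg₂ τ hR₂.2 χ hin3
        have h2 : classInner (Fa (hall (Th s₂).1 (famOf σ.1)) (a + b)) χ.1 ≠ 0 := by
          rw [hall_comm hg₂.cl hgσ.cl]
          exact h1
        have h3 : classInner (Fa (hall (Th s₂).1 (Th s₁).1) (a + b)) χ.1 ≠ 0 :=
          constituent_right (by omega) hg₂ hg₁ σ hR₁.2 χ h2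
        refine ⟨s₂ + s₁, ?_, hχ, ?_⟩
        · rw [wt_add, hs₁, hs₂]
          omega
        · rw [Th_add]
          exact h3

/-- Multisets of cuspidal characters of total size `n` are in bijection with generic characters. -/
theorem card_multiset_eq_card_generic (n : ℕ) :
    Nat.card {s : Multiset (CC F) // wt s = n} =
      Nat.card {χ : IrrCharacter (GL (Fin n) F) // whit ψ₀ χ.1 = 1} := by
  classical
  have hex : ∀ s : {s : Multiset (CC F) // wt s = n}, ∃ χ : IrrCharacter (GL (Fin n) F), R ψ₀ s.1 χ :=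
    fun s => exists_R ψ₀ hψ s.2
  choose f hf using hex
  let g : {s : Multiset (CC F) // wt s = n} → {χ : IrrCharacter (GL (Fin n) F) // whit ψ₀ χ.1 = 1} :=
    fun s => ⟨f s, (hf s).1⟩
  refine Nat.card_eq_of_bijective g ⟨?_, ?_⟩
  · intro a b hab
    have h1 : f a = f b := congrArg Subtype.val hab
    apply Subtype.ext
    refine R_inj ψ₀ hψ n a.1 b.1 a.2 b.2 (f a) (hf a) ?_
    rw [h1]
    exact hf b
  · rintro ⟨χ, hχ⟩
    obtain ⟨s, hs, hR⟩ := R_surj ψ₀ hψ n χ hχ
    refine ⟨⟨s, hs⟩, ?_⟩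
    apply Subtype.ext
    exact R_unique ψ₀ hψ hs (hf ⟨s, hs⟩) hR

/-- Number of generic characters. -/
theorem card_generic {n : ℕ} (hn : 1 ≤ n) :
    Nat.card {χ : IrrCharacter (GL (Fin n) F) // whit ψ₀ χ.1 = 1} =
      (Fintype.card F - 1) * Fintype.card F ^ (n - 1) := by
  classical
  have h1 := Hecke.sum_whit_sq (F := F) hn ψ₀ hψ
  rw [finsum_eq_sum_of_fintype] at h1
  have h2 : ∀ χ : IrrCharacter (GL (Fin n) F), (whit ψ₀ χ.1) ^ 2 = if whit ψ₀ χ.1 = 1 then 1 else 0 := by
    intro χ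
    rcases Hecke.whit_eq_zero_or_one ψ₀ hψ χ with h | h
    · simp [h]
    · simp [h]
  simp only [h2] at h1
  rw [Finset.sum_boole] at h1
  have h3 : (Finset.univ.filter (fun χ : IrrCharacter (GL (Fin n) F) => whit ψ₀ χ.1 = 1)).card =
      Nat.card {χ : IrrCharacter (GL (Fin n) F) // whit ψ₀ χ.1 = 1} := by
    rw [Nat.card_eq_fintype_card, Fintype.card_subtype]
  rw [h3] at h1
  have hq : 1 ≤ Fintype.card F := Fintype.card_pos
  have h4 : ((Nat.card {χ : IrrCharacter (GL (Fin n) F) // whit ψ₀ χ.1 = 1} : ℕ) : ℂ) =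
      (((Fintype.card F - 1) * Fintype.card F ^ (n - 1) : ℕ) : ℂ) := by
    rw [h1]
    push_cast [Nat.cast_sub hq]
    ring
  exact_mod_cast h4

end Cfsg.Agent.Lib.GLH.Count3
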