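import Cfsg.Agent.Lib.GLH.Count3
import Mathlib.Analysis.Fourier.FiniteAbelian.PontryaginDuality

/-!
# Assembly, part 4: the number of cuspidal characters of `GL_n(F)`.
-/

set_option autoImplicit false
set_option linter.unusedSectionVars false
set_option linter.style.haveILetI false

namespace Cfsg.Agent.Lib.GLH.Count4

open Matrix Module Cfsg
open Cfsg.Agent.Lib.GLH Defs Ev HallAssoc HallComm Der Leibniz1 Leibniz2 Leibniz3 Count1 Count2 Count3
open Cfsg.Agent.Lib.Char.Basic Cfsg.Agent.Lib.Char.Ortho Cfsg.Agent.Lib.Char.Complete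
open Cfsg.Agent.Lib.GLH.PolyCount
open scoped ComplexConjugate

universe u

variable {F : Type u} [Field F] [Fintype F]

theorem exists_psi : ∃ ψ₀ : AddChar F ℂ, ψ₀ ≠ 1 := by
  classical
  obtain ⟨ψ, hψ⟩ := (AddChar.exists_apply_ne_zero (a := (1 : F))).mpr one_ne_zero
  refine ⟨ψ, ?_⟩
  rintro rfl
  exact hψ (by simp)

theorem card_sum_zero {C : Type*} (w : C → ℕ) (hw : ∀ c, 0 < w c) :
    Nat.card {s : Multiset C // (s.map w).sum = 0} = 1 := by
  have huniq : ∀ s : Multiset C, (s.map w).sum = 0 → s = 0 := by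
    intro s
    induction s using Multiset.induction_on with
    | empty => intro _; rfl
    | cons c s _ =>
      intro h
      simp only [Multiset.map_cons, Multiset.sum_cons] at h
      have := hw c
      omega
  refine Nat.card_eq_one_iff_unique.mpr ⟨?_, ⟨⟨0, by simp⟩⟩⟩
  constructor
  rintro ⟨a, ha⟩ ⟨b, hb⟩
  apply Subtype.ext
  exact (huniq a ha).trans (huniq b hb).symm

theorem wC_pos (c : CC F) : 0 < wC c := c.2.2.1

theorem deg_pos (f : Irr0 F) : 0 < f.1.natDegree := f.2.2.1.natDegree_pos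

theorem card_counts (n : ℕ) :
    Nat.card {s : Multiset (CC F) // (s.map wC).sum = n} =
      Nat.card {s : Multiset (Irr0 F) // (s.map fun f => f.1.natDegree).sum = n} := by
  by_cases hn : n = 0
  · subst hn
    rw [card_sum_zero wC wC_pos, card_sum_zero _ deg_pos]
  · obtain ⟨ψ₀, hψ⟩ := exists_psi (F := F)
    have h1 := card_multiset_eq_card_generic ψ₀ hψ n
    have h2 := card_generic ψ₀ hψ (n := n) (by omega)
    rw [card_multiset_weight F n (by omega), ← h2, ← h1]
    rfl

theorem card_fiber_eq (n : ℕ) :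
    Nat.card {c : CC F // wC c = n} =
      Nat.card {χ : IrrCharacter (GL (Fin n) F) // 0 < n ∧ IsCusp χ.1} := by
  symm
  refine Nat.card_eq_of_bijective (fun x => ⟨⟨n, x⟩, rfl⟩) ⟨?_, ?_⟩
  · intro a b h
    have h1 := congrArg Subtype.val h
    simpa using h1
  · rintro ⟨⟨m, y⟩, h⟩
    have h' : m = n := h
    subst h'
    exact ⟨y, rfl⟩

theorem finite_fiber (n : ℕ) : Finite {c : CC F // wC c = n} := by
  haveI := finite_irrCharacter (G := GL (Fin n) F)
  refine Finite.of_surjective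
    (fun x : {χ : IrrCharacter (GL (Fin n) F) // 0 < n ∧ IsCusp χ.1} => (⟨⟨n, x⟩, rfl⟩ : {c : CC F // wC c = n})) ?_
  rintro ⟨⟨m, y⟩, h⟩
  have h' : m = n := h
  subst h'
  exact ⟨y, rfl⟩

/-- The number of cuspidal irreducible characters is at least `φ(q^n - 1)/n`. -/
theorem main (n : ℕ) (hn : 1 ≤ n) :
    Nat.totient (Fintype.card F ^ n - 1) / n ≤
      Nat.card {χ : IrrCharacter (GL (Fin n) F) // 0 < n ∧ IsCusp χ.1} := by
  have h1 := totient_div_le F n hn
  have h2 := card_fiber_of_multiset_counts (wC (F := F)) (fun f : Irr0 F => f.1.natDegree) wC_pos deg_pos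
    finite_fiber (finite_irr_degree F) card_counts n
  rw [← card_fiber_eq, h2]
  exact h1

/-- The degree of a cuspidal character. -/
theorem degree_eq {n : ℕ} (hn : 0 < n) (χ : IrrCharacter (GL (Fin n) F)) (hc : IsCusp χ.1) :
    χ.1 1 = ∏ i ∈ Finset.Ico 1 n, ((Fintype.card F : ℂ) ^ i - 1) := by
  obtain ⟨ψ₀, hψ⟩ := exists_psi (F := F)
  have hcl : IsClassFunction _ χ.1 := isClassFunction_of_isIrrCharacter χ.2
  have hd := Mirabolic.degree_of_cusp (n := n) hn ψ₀ hψ hcl (Bridge.cusp_of_isCusp hcl hc)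
  have h1 := whit_chi ψ₀ hψ (⟨n, ⟨χ, hn, hc⟩⟩ : CC F)
  have h2 : whit ψ₀ χ.1 = 1 := h1
  rw [hd, h2, one_mul]

/-- The vanishing of the sums over unipotent radicals. -/
theorem sum_eq_zero {n : ℕ} (χ : IrrCharacter (GL (Fin n) F)) (hc : IsCusp χ.1) (m : ℕ) (hm : 0 < m)
    (hmn : m < n) [Fintype (GL (Fin n) F)] (P : GL (Fin n) F → Prop) [DecidablePred P]
    (hP : ∀ g, P g ↔ ∀ i j : Fin n, ¬ (i.val < m ∧ m ≤ j.val) →
      (g : Matrix (Fin n) (Fin n) F) i j = (1 : Matrix (Fin n) (Fin n) F) i j) :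
    (∑ g : GL (Fin n) F, if P g then χ.1 g else 0) = 0 := by
  classical
  have hcl : IsClassFunction _ χ.1 := isClassFunction_of_isIrrCharacter χ.2
  have h1 := Bridge.cusp_of_isCusp hcl hc m hm hmn 1 (by
    intro i j hi hj
    have : i ≠ j := by
      intro h
      subst h
      omega
    simp [Matrix.one_apply_ne this])
  have hfin : Finite (N (F := F) n m) := Subtype.finite
  haveI : Fintype (N (F := F) n m) := Fintype.ofFinite _
  rw [finsum_eq_sum_of_fintype] at h1
  simp only [one_mul] at h1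
  have h2 : (∑ g : GL (Fin n) F, if P g then χ.1 g else 0) =
      ∑ g : GL (Fin n) F, if h : g ∈ N (F := F) n m then χ.1 g else 0 := by
    refine Finset.sum_congr rfl fun g _ => ?_
    have : P g ↔ g ∈ N (F := F) n m := hP g
    by_cases h : g ∈ N (F := F) n m
    · rw [dif_pos h, if_pos (this.mpr h)]
    · rw [dif_neg h, if_neg (fun h' => h (this.mp h'))]
  rw [h2, sum_dite_subtype (fun g : GL (Fin n) F => g ∈ N (F := F) n m)]
  exact h1

end Cfsg.Agent.Lib.GLH.Count4
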