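import Cfsg.Prelude.Def_Characters
import Mathlib.LinearAlgebra.Matrix.GeneralLinearGroup.Defs
import Mathlib.LinearAlgebra.Matrix.ToLin
import Mathlib.LinearAlgebra.FiniteDimensional.Defs
import Mathlib.LinearAlgebra.Quotient.Basic
import Mathlib.Algebra.Group.AddChar
import Mathlib.Algebra.GroupWithZero.Units.Fintype
import Mathlib.LinearAlgebra.Matrix.FiniteDimensional
import Mathlib.LinearAlgebra.FiniteDimensional.Lemmas
import Mathlib.Analysis.Complex.Basic

/-!
# Shared definitions for the Hall algebra proof of S2442 (cuspidal characters of `GL_n(F)`).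

* `IsU`, `U n`: upper unitriangular matrices, subgroup of `GL (Fin n) F`.
* `sup g`, `psi ψ₀ g`: the non-degenerate character of `U`.
* `whit ψ₀ f`: the Whittaker functional `avg_{u ∈ U} conj (ψ u) * f u`.
* `Fam F`, `IsCl`, `ev`: families of functions on matrices, extended to endomorphisms.
* `pev`, `hall`: the Hall (parabolic induction) product.
* `ext0`, `famOf`: characters as families.
* `N c`, `Cusp`: cuspidality in matrix form.
-/

set_option autoImplicit false
set_option linter.unusedSectionVars false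

namespace Cfsg.Agent.Lib.GLH.Defs

open Matrix Module
open scoped ComplexConjugate

universe u

variable {F : Type u} [Field F]

/-- Upper unitriangular matrices. -/
def IsU {n : ℕ} (g : Matrix (Fin n) (Fin n) F) : Prop :=
  ∀ i j : Fin n, j ≤ i → g i j = (1 : Matrix (Fin n) (Fin n) F) i j

lemma IsU.one {n : ℕ} : IsU (1 : Matrix (Fin n) (Fin n) F) := fun _ _ _ => rfl

lemma IsU.mul {n : ℕ} {g h : Matrix (Fin n) (Fin n) F} (hg : IsU g) (hh : IsU h) : IsU (g * h) := by
  classical
  intro i j hji
  rw [Matrix.mul_apply]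
  rcases eq_or_lt_of_le hji with rfl | hlt
  · rw [Finset.sum_eq_single j]
    · rw [hg j j le_rfl, hh j j le_rfl]; simp
    · intro k _ hk
      rcases lt_or_gt_of_ne hk with hk' | hk'
      · rw [hg j k hk'.le, Matrix.one_apply_ne hk.symm, zero_mul]
      · rw [hh k j hk'.le, Matrix.one_apply_ne hk, mul_zero]
    · simp
  · rw [Matrix.one_apply_ne hlt.ne']
    apply Finset.sum_eq_zero
    intro k _
    by_cases hk : k ≤ j
    · rw [hg i k (hk.trans hji), Matrix.one_apply_ne (lt_of_le_of_lt hk hlt).ne', zero_mul]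
    · push Not at hk
      rw [hh k j hk.le, Matrix.one_apply_ne hk.ne', mul_zero]

variable [Fintype F]

/-- The subgroup `U_n` of upper unitriangular matrices in `GL_n(F)`. -/
def U (n : ℕ) : Subgroup (GL (Fin n) F) where
  carrier := {g | IsU (g : Matrix (Fin n) (Fin n) F)}
  mul_mem' := by
    intro a b ha hb
    simpa using IsU.mul ha hb
  one_mem' := by
    simpa using (IsU.one : IsU (1 : Matrix (Fin n) (Fin n) F))
  inv_mem' := by
    classical
    intro a ha
    have hfin : IsOfFinOrder a := isOfFinOrder_of_finite a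
    have hpos := hfin.orderOf_pos
    have key : ∀ k : ℕ, IsU ((a ^ k : GL (Fin n) F) : Matrix (Fin n) (Fin n) F) := by
      intro k
      induction k with
      | zero => simpa using (IsU.one : IsU (1 : Matrix (Fin n) (Fin n) F))
      | succ k ih =>
        rw [pow_succ]
        simpa using IsU.mul ih ha
    have hinv : a⁻¹ = a ^ (orderOf a - 1) := by
      rw [inv_eq_iff_mul_eq_one, ← pow_succ', Nat.sub_add_cancel hpos, pow_orderOf_eq_one]
    rw [hinv]
    exact key _

omit [Fintype F] in
/-- The sum of the entries on the first super-diagonal. -/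
def sup {n : ℕ} (g : Matrix (Fin n) (Fin n) F) : F :=
  ∑ i : Fin n, if h : i.val + 1 < n then g i ⟨i.val + 1, h⟩ else 0

omit [Fintype F] in
/-- The non-degenerate character on `U`, as a function on matrices. -/
noncomputable def psi (ψ₀ : AddChar F ℂ) {n : ℕ} (g : Matrix (Fin n) (Fin n) F) : ℂ :=
  ψ₀ (sup g)

/-- The Whittaker functional. -/
noncomputable def whit (ψ₀ : AddChar F ℂ) {n : ℕ} (f : GL (Fin n) F → ℂ) : ℂ :=
  (Nat.card (U (F := F) n) : ℂ)⁻¹ *
    ∑ᶠ u : U (F := F) n, conj (psi ψ₀ ((u : GL (Fin n) F) : Matrix (Fin n) (Fin n) F)) *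
      f (u : GL (Fin n) F)

omit [Fintype F] in
/-- Families of functions on square matrices, one for each size. -/
abbrev Fam (F : Type u) [Field F] := ∀ n : ℕ, Matrix (Fin n) (Fin n) F → ℂ

omit [Fintype F] in
/-- Conjugation invariance of a family. -/
def IsCl (Φ : Fam F) : Prop :=
  ∀ (n : ℕ) (P : GL (Fin n) F) (M : Matrix (Fin n) (Fin n) F),
    Φ n ((P : Matrix (Fin n) (Fin n) F) * M * ((P⁻¹ : GL (Fin n) F) : Matrix (Fin n) (Fin n) F)) =
      Φ n M

omit [Fintype F] in
/-- The value of a family on an endomorphism of an abstract finite-dimensional space. -/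
noncomputable def ev (Φ : Fam F) (V : Type u) [AddCommGroup V] [Module F V] [Module.Finite F V]
    (g : V →ₗ[F] V) : ℂ :=
  Φ (finrank F V) (LinearMap.toMatrix (finBasis F V) (finBasis F V) g)

open Classical in
/-- The Hall (parabolic induction) product evaluated on an endomorphism. -/
noncomputable def pev (Φ Ψ : Fam F) (V : Type u) [AddCommGroup V] [Module F V] [Module.Finite F V]
    (g : V →ₗ[F] V) : ℂ :=
  ∑ᶠ W : {W : Submodule F V // W ≤ W.comap g},
    ev Φ W.1 (g.restrict W.2) * ev Ψ (V ⧸ W.1) (W.1.mapQ W.1 g W.2)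

/-- The Hall product of two families. -/
noncomputable def hall (Φ Ψ : Fam F) : Fam F :=
  fun n M => pev Φ Ψ (Fin n → F) (Matrix.toLin' M)

omit [Fintype F] in
/-- Extension by zero of a function on `GL` to all matrices. -/
noncomputable def ext0 {n : ℕ} (χ : GL (Fin n) F → ℂ) (M : Matrix (Fin n) (Fin n) F) : ℂ :=
  open Classical in if h : IsUnit M then χ h.unit else 0

omit [Fintype F] in
/-- A function on `GL_n` seen as a family, zero in the other sizes. -/
noncomputable def famOf {n : ℕ} (χ : GL (Fin n) F → ℂ) : Fam F :=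
  fun m M => open Classical in if h : m = n then ext0 χ (h ▸ M) else 0

/-- The Whittaker functional on a family, in size `n`. -/
noncomputable def whitF (ψ₀ : AddChar F ℂ) (n : ℕ) (Φ : Fam F) : ℂ :=
  whit ψ₀ (fun g : GL (Fin n) F => Φ n (g : Matrix (Fin n) (Fin n) F))

/-- The unipotent radical `{1 + B}`, `B` supported on `i < c ≤ j`. -/
def N (n c : ℕ) : Set (GL (Fin n) F) :=
  {g | ∀ i j : Fin n, ¬ (i.val < c ∧ c ≤ j.val) →
    (g : Matrix (Fin n) (Fin n) F) i j = (1 : Matrix (Fin n) (Fin n) F) i j}

/-- Cuspidality in matrix form. -/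
def Cusp {n : ℕ} (χ : GL (Fin n) F → ℂ) : Prop :=
  ∀ c : ℕ, 0 < c → c < n → ∀ g : GL (Fin n) F,
    (∀ i j : Fin n, c ≤ i.val → j.val < c → (g : Matrix (Fin n) (Fin n) F) i j = 0) →
    ∑ᶠ x : N (F := F) n c, χ (g * x) = 0

end Cfsg.Agent.Lib.GLH.Defs
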