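import Cfsg.Agent.Lib.GLH.HallComm
import Cfsg.Prelude.Def_Characters

/-!
# Definitions for the derivation: block maps `E A B D`, `dS`, `dN`, `dFam`, `Good`, `IsCusp`.
-/

set_option autoImplicit false
set_option linter.unusedSectionVars false

namespace Cfsg.Agent.Lib.GLH.Der

open Matrix Module Cfsg.Agent.Lib.GLH.Defs Cfsg.Agent.Lib.GLH.Ev

universe u

variable {F : Type u} [Field F]
variable {X Y : Type u} [AddCommGroup X] [Module F X] [Module.Finite F X]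
  [AddCommGroup Y] [Module F Y] [Module.Finite F Y]

/-- The block map `(x, y) ↦ (A x + B y, D y)` on `X × Y`. -/
def E (A : X →ₗ[F] X) (B : Y →ₗ[F] X) (D : Y →ₗ[F] Y) : (X × Y) →ₗ[F] (X × Y) :=
  LinearMap.prod (A.comp (LinearMap.fst F X Y) + B.comp (LinearMap.snd F X Y))
    (D.comp (LinearMap.snd F X Y))

@[simp] lemma E_apply (A : X →ₗ[F] X) (B : Y →ₗ[F] X) (D : Y →ₗ[F] Y) (x : X × Y) :
    E A B D x = (A x.1 + B x.2, D x.2) := rfl

/-- Unnormalized derivation: `∑_A ∑_B s A * Φ (E A B D)`. -/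
noncomputable def dS (s : (X →ₗ[F] X) → ℂ) (Φ : Fam F) (D : Y →ₗ[F] Y) : ℂ :=
  ∑ᶠ A : X →ₗ[F] X, ∑ᶠ B : Y →ₗ[F] X, s A * ev Φ (X × Y) (E A B D)

/-- Normalized derivation (average over `B`). -/
noncomputable def dN (s : (X →ₗ[F] X) → ℂ) (Φ : Fam F) (D : Y →ₗ[F] Y) : ℂ :=
  (Nat.card (Y →ₗ[F] X) : ℂ)⁻¹ * dS s Φ D

/-- The derivation as a family. -/
noncomputable def dFam (s : (X →ₗ[F] X) → ℂ) (Φ : Fam F) : Fam F :=
  fun _ M => dN s Φ (Matrix.toLin' M)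

/-- A family which is, in exactly one size `a`, a character of `GL_a`, and zero off invertibles. -/
structure Good (Φ : Fam F) (a : ℕ) : Prop where
  cl : IsCl Φ
  homog : ∀ n, n ≠ a → ∀ M, Φ n M = 0
  nonunit : ∀ n (M : Matrix (Fin n) (Fin n) F), ¬ IsUnit M → Φ n M = 0
  char : Cfsg.IsCharacter (GL (Fin a) F) (fun g => Φ a (g : Matrix (Fin a) (Fin a) F))

/-- Cuspidality: all truncations vanish. -/
def IsCusp [Fintype F] {n : ℕ} (χ : GL (Fin n) F → ℂ) : Prop :=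
  ∀ a b : ℕ, 0 < a → 0 < b → a + b = n →
    ∀ (A : (Fin a → F) →ₗ[F] (Fin a → F)) (D : (Fin b → F) →ₗ[F] (Fin b → F)),
      ∑ᶠ B : (Fin b → F) →ₗ[F] (Fin a → F),
        ev (famOf χ) ((Fin a → F) × (Fin b → F)) (E A B D) = 0

end Cfsg.Agent.Lib.GLH.Der
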