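import Cfsg.Agent.Lib.GLH.Defs
import Mathlib.LinearAlgebra.Matrix.Basis
import Mathlib.LinearAlgebra.Matrix.ToLinearEquiv
import Mathlib.LinearAlgebra.Quotient.Card
import Mathlib.Data.Fintype.Card

/-!
# Basic properties of `ev`: basis independence, invariance under isomorphism; `pev` as a finite sum.
-/

set_option autoImplicit false
set_option linter.unusedSectionVars false

namespace Cfsg.Agent.Lib.GLH.Ev

open Matrix Module Cfsg.Agent.Lib.GLH.Defs

universe u

variable {F : Type u} [Field F]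
variable {V V' : Type u} [AddCommGroup V] [Module F V] [Module.Finite F V]
  [AddCommGroup V'] [Module F V'] [Module.Finite F V']

theorem isCl_apply {Φ : Fam F} (hΦ : IsCl Φ) {n : ℕ} (P Q M : Matrix (Fin n) (Fin n) F)
    (h1 : P * Q = 1) (h2 : Q * P = 1) : Φ n (P * M * Q) = Φ n M :=
  hΦ n ⟨P, Q, h1, h2⟩ M

theorem ev_eq_of_basis {Φ : Fam F} (hΦ : IsCl Φ) {n : ℕ} (b : Basis (Fin n) F V) (g : V →ₗ[F] V) :
    ev Φ V g = Φ n (LinearMap.toMatrix b b g) := by
  classical
  have hn : finrank F V = n := by simpa using finrank_eq_card_basis b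
  subst hn
  unfold ev
  have h := basis_toMatrix_mul_linearMap_toMatrix_mul_basis_toMatrix (b := finBasis F V)
    (b' := b) (c := finBasis F V) (c' := b) g
  rw [← h]
  rw [isCl_apply hΦ]
  · exact (finBasis F V).toMatrix_mul_toMatrix_flip b
  · exact b.toMatrix_mul_toMatrix_flip (finBasis F V)

theorem ev_congr {Φ : Fam F} (hΦ : IsCl Φ) (e : V ≃ₗ[F] V') (g : V →ₗ[F] V) (h : V' →ₗ[F] V')
    (he : ∀ v, e (g v) = h (e v)) : ev Φ V g = ev Φ V' h := by
  classical
  rw [ev_eq_of_basis hΦ ((finBasis F V).map e) h]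
  unfold ev
  congr 1
  ext i j
  rw [LinearMap.toMatrix_apply, LinearMap.toMatrix_apply]
  simp [← he]

/-- Finiteness of a module over a finite field. -/
theorem finite_of_module [Finite F] : Finite V := Module.finite_of_finite F

theorem finite_submodule [Finite F] : Finite (Submodule F V) := by
  haveI : Finite V := finite_of_module (F := F)
  exact Finite.of_injective (fun W : Submodule F V => (W : Set V)) SetLike.coe_injective

/-- Invariant subspaces of `g`. -/
abbrev Inv (g : V →ₗ[F] V) := {W : Submodule F V // W ≤ W.comap g}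

theorem finite_inv [Finite F] (g : V →ₗ[F] V) : Finite (Inv g) := by
  haveI := finite_submodule (F := F) (V := V)
  exact Subtype.finite

noncomputable instance fintypeInv [Finite F] (g : V →ₗ[F] V) : Fintype (Inv g) := by
  haveI := finite_inv g
  exact Fintype.ofFinite _

theorem pev_eq_sum [Finite F] (Φ Ψ : Fam F) (g : V →ₗ[F] V) :
    pev Φ Ψ V g = ∑ W : Inv g, ev Φ W.1 (g.restrict W.2) * ev Ψ (V ⧸ W.1) (W.1.mapQ W.1 g W.2) := by
  unfold pev
  exact finsum_eq_sum_of_fintype _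

/-- Isomorphism invariance of `pev`. -/
theorem pev_congr [Finite F] {Φ Ψ : Fam F} (hΦ : IsCl Φ) (hΨ : IsCl Ψ) (e : V ≃ₗ[F] V')
    (g : V →ₗ[F] V) (h : V' →ₗ[F] V') (he : ∀ v, e (g v) = h (e v)) :
    pev Φ Ψ V g = pev Φ Ψ V' h := by
  classical
  rw [pev_eq_sum, pev_eq_sum]
  have hmap : ∀ W : Inv g, W.1.map (e : V →ₗ[F] V') ≤ (W.1.map (e : V →ₗ[F] V')).comap h := by
    rintro W _ ⟨x, hx, rfl⟩
    exact ⟨g x, W.2 hx, he x⟩
  have hcomap : ∀ W : Inv h, W.1.comap (e : V →ₗ[F] V') ≤ (W.1.comap (e : V →ₗ[F] V')).comap g := by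
    intro W x hx
    simp only [Submodule.mem_comap, LinearEquiv.coe_coe] at hx ⊢
    rw [he]
    exact W.2 hx
  refine Finset.sum_bij' (fun W _ => (⟨W.1.map (e : V →ₗ[F] V'), hmap W⟩ : Inv h))
    (fun W _ => (⟨W.1.comap (e : V →ₗ[F] V'), hcomap W⟩ : Inv g)) (by simp) (by simp) ?_ ?_ ?_
  · intro W _
    apply Subtype.ext
    ext x
    simp
  · intro W _
    apply Subtype.ext
    ext x
    simp only [Submodule.mem_map, Submodule.mem_comap, LinearEquiv.coe_coe]
    constructor
    · rintro ⟨y, hy, rfl⟩; exact hy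
    · intro hx; exact ⟨e.symm x, by simpa using hx, by simp⟩
  · intro W _
    congr 1
    · refine ev_congr hΦ (e.submoduleMap W.1) _ _ ?_
      intro v
      apply Subtype.ext
      simp [he]
    · refine ev_congr hΨ (Submodule.Quotient.equiv W.1 (W.1.map (e : V →ₗ[F] V')) e rfl) _ _ ?_
      intro v
      induction v using Submodule.Quotient.induction_on with
      | H x => simp [he]

/-- `ev (hall Φ Ψ)` is `pev Φ Ψ` on every space. -/
theorem ev_hall [Finite F] {Φ Ψ : Fam F} (hΦ : IsCl Φ) (hΨ : IsCl Ψ) (g : V →ₗ[F] V) :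
    ev (hall Φ Ψ) V g = pev Φ Ψ V g := by
  classical
  unfold ev hall
  symm
  refine pev_congr hΦ hΨ (finBasis F V).equivFun _ _ ?_
  intro v
  rw [Matrix.toLin'_apply]
  ext i
  have := LinearMap.toMatrix_mulVec_repr (finBasis F V) (finBasis F V) g v
  simp only [Basis.equivFun_apply]
  rw [this]

theorem isCl_hall [Finite F] {Φ Ψ : Fam F} (hΦ : IsCl Φ) (hΨ : IsCl Ψ) : IsCl (hall Φ Ψ) := by
  classical
  intro n P M
  unfold hall
  symm
  have h1 : (P : Matrix (Fin n) (Fin n) F) * ((P⁻¹ : GL (Fin n) F) : Matrix (Fin n) (Fin n) F) = 1 := by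
    simp
  have h2 : ((P⁻¹ : GL (Fin n) F) : Matrix (Fin n) (Fin n) F) * (P : Matrix (Fin n) (Fin n) F) = 1 := by
    simp
  refine pev_congr hΦ hΨ (LinearEquiv.ofLinear (Matrix.toLin' (P : Matrix (Fin n) (Fin n) F))
    (Matrix.toLin' ((P⁻¹ : GL (Fin n) F) : Matrix (Fin n) (Fin n) F))
    (by rw [← Matrix.toLin'_mul, h1, Matrix.toLin'_one])
    (by rw [← Matrix.toLin'_mul, h2, Matrix.toLin'_one])) _ _ ?_
  intro v
  simp only [LinearEquiv.ofLinear_apply, Matrix.toLin'_apply, Matrix.mulVec_mulVec]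
  congr 1
  rw [Matrix.mul_assoc, Matrix.mul_assoc, h2, Matrix.mul_one]

end Cfsg.Agent.Lib.GLH.Ev
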