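import Cfsg.Agent.Lib.GLH.Ev
import Mathlib.LinearAlgebra.Isomorphisms

/-!
# The Hall product is associative and has a unit.
-/

set_option autoImplicit false
set_option linter.unusedSectionVars false

namespace Cfsg.Agent.Lib.GLH.HallAssoc

open Matrix Module Cfsg.Agent.Lib.GLH.Defs Cfsg.Agent.Lib.GLH.Ev

universe u

variable {F : Type u} [Field F] [Finite F]
variable {V : Type u} [AddCommGroup V] [Module F V] [Module.Finite F V]

theorem ev_std {Φ : Fam F} (hΦ : IsCl Φ) {n : ℕ} (M : Matrix (Fin n) (Fin n) F) :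
    ev Φ (Fin n → F) (Matrix.toLin' M) = Φ n M := by
  classical
  rw [ev_eq_of_basis hΦ (Pi.basisFun F (Fin n))]
  congr 1
  simp [LinearMap.toMatrix_eq_toMatrix', LinearMap.toMatrix'_toLin']

/-- The unit family. -/
noncomputable def unitFam : Fam F := fun n _ => if n = 0 then 1 else 0

omit [Finite F] in
theorem isCl_unit : IsCl (unitFam : Fam F) := fun _ _ _ => rfl

omit [Finite F] in
theorem ev_unit (g : V →ₗ[F] V) : ev unitFam V g = if finrank F V = 0 then 1 else 0 := rfl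

/-- Invariant subspaces inside an invariant subspace. -/
theorem comap_inv (g : V →ₗ[F] V) (W W₁ : Inv g) :
    W₁.1.comap W.1.subtype ≤ (W₁.1.comap W.1.subtype).comap (g.restrict W.2) := by
  intro x hx
  simp only [Submodule.mem_comap, Submodule.subtype_apply, LinearMap.restrict_coe_apply] at hx ⊢
  exact W₁.2 hx

theorem map_inv (g : V →ₗ[F] V) (W W₁ : Inv g) :
    W.1.map W₁.1.mkQ ≤ (W.1.map W₁.1.mkQ).comap (W₁.1.mapQ W₁.1 g W₁.2) := by
  rintro _ ⟨x, hx, rfl⟩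
  exact ⟨g x, W.2 hx, by simp⟩

open Classical in
/-- Reindexing of invariant subspaces of a restriction. -/
theorem sum_inv_restrict (g : V →ₗ[F] V) (W : Inv g) (f : Inv (g.restrict W.2) → ℂ) :
    ∑ S : Inv (g.restrict W.2), f S =
      ∑ W₁ : {W₁ : Inv g // W₁.1 ≤ W.1}, f ⟨W₁.1.1.comap W.1.subtype, comap_inv g W W₁.1⟩ := by
  classical
  have hmap : ∀ S : Inv (g.restrict W.2), S.1.map W.1.subtype ≤ (S.1.map W.1.subtype).comap g := by
    rintro S _ ⟨x, hx, rfl⟩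
    exact ⟨g.restrict W.2 x, S.2 hx, rfl⟩
  refine Finset.sum_bij'
    (fun S _ => (⟨⟨S.1.map W.1.subtype, hmap S⟩, Submodule.map_subtype_le W.1 S.1⟩ :
      {W₁ : Inv g // W₁.1 ≤ W.1}))
    (fun W₁ _ => (⟨W₁.1.1.comap W.1.subtype, comap_inv g W W₁.1⟩ : Inv (g.restrict W.2)))
    (by simp) (by simp) ?_ ?_ ?_
  · intro S _
    apply Subtype.ext
    exact Submodule.comap_map_eq_of_injective W.1.injective_subtype S.1
  · intro W₁ _
    apply Subtype.ext
    apply Subtype.ext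
    show (W₁.1.1.comap W.1.subtype).map W.1.subtype = W₁.1.1
    rw [Submodule.map_comap_subtype]
    exact inf_eq_right.mpr W₁.2
  · intro S _
    congr 1
    apply Subtype.ext
    exact (Submodule.comap_map_eq_of_injective W.1.injective_subtype S.1).symm

open Classical in
/-- Reindexing of invariant subspaces of a quotient. -/
theorem sum_inv_quot (g : V →ₗ[F] V) (W₁ : Inv g) (f : Inv (W₁.1.mapQ W₁.1 g W₁.2) → ℂ) :
    ∑ T : Inv (W₁.1.mapQ W₁.1 g W₁.2), f T =
      ∑ W : {W : Inv g // W₁.1 ≤ W.1}, f ⟨W.1.1.map W₁.1.mkQ, map_inv g W.1 W₁⟩ := by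
  classical
  have hcomap : ∀ T : Inv (W₁.1.mapQ W₁.1 g W₁.2), T.1.comap W₁.1.mkQ ≤ (T.1.comap W₁.1.mkQ).comap g := by
    intro T x hx
    simp only [Submodule.mem_comap] at hx ⊢
    have := T.2 hx
    simpa using this
  have hle : ∀ T : Inv (W₁.1.mapQ W₁.1 g W₁.2), W₁.1 ≤ T.1.comap W₁.1.mkQ := by
    intro T x hx
    simp only [Submodule.mem_comap]
    have : W₁.1.mkQ x = 0 := by simpa using hx
    rw [this]
    exact T.1.zero_mem
  refine Finset.sum_bij'
    (fun T _ => (⟨⟨T.1.comap W₁.1.mkQ, hcomap T⟩, hle T⟩ : {W : Inv g // W₁.1 ≤ W.1}))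
    (fun W _ => (⟨W.1.1.map W₁.1.mkQ, map_inv g W.1 W₁⟩ : Inv (W₁.1.mapQ W₁.1 g W₁.2)))
    (by simp) (by simp) ?_ ?_ ?_
  · intro T _
    apply Subtype.ext
    exact Submodule.map_comap_eq_of_surjective (Submodule.mkQ_surjective _) T.1
  · intro W _
    apply Subtype.ext
    apply Subtype.ext
    show (W.1.1.map W₁.1.mkQ).comap W₁.1.mkQ = W.1.1
    rw [Submodule.comap_map_mkQ]
    exact sup_eq_right.mpr W.2
  · intro T _
    congr 1
    apply Subtype.ext
    exact (Submodule.map_comap_eq_of_surjective (Submodule.mkQ_surjective _) T.1).symm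

/-- The subspace `W₁` in `W` is isomorphic to `W₁`. -/
noncomputable def equivComap (W W₁ : Submodule F V) (h : W₁ ≤ W) : (W₁.comap W.subtype) ≃ₗ[F] W₁ where
  toFun x := ⟨x.1.1, x.2⟩
  map_add' _ _ := rfl
  map_smul' _ _ := rfl
  invFun y := ⟨⟨y.1, h y.2⟩, y.2⟩
  left_inv _ := rfl
  right_inv _ := rfl

/-- The second isomorphism theorem in the form we need. -/
noncomputable def equivQuot (W W₁ : Submodule F V) (h : W₁ ≤ W) :
    (W ⧸ W₁.comap W.subtype) ≃ₗ[F] (W.map W₁.mkQ) :=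
  LinearEquiv.ofBijective
    (Submodule.liftQ _ (LinearMap.codRestrict (W.map W₁.mkQ) (W₁.mkQ.comp W.subtype)
      (fun x => ⟨x.1, x.2, rfl⟩))
      (by
        intro x hx
        rw [LinearMap.mem_ker]
        apply Subtype.ext
        show W₁.mkQ x.1 = 0
        simpa using hx))
    (by
      constructor
      · rw [← LinearMap.ker_eq_bot]
        apply Submodule.ker_liftQ_eq_bot
        intro x hx
        have h0 : W₁.mkQ x.1 = 0 := congrArg Subtype.val hx
        simpa using h0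
      · rintro ⟨_, x, hx, rfl⟩
        refine ⟨Submodule.Quotient.mk ⟨x, hx⟩, ?_⟩
        apply Subtype.ext
        rfl)

@[simp] theorem equivQuot_mk (W W₁ : Submodule F V) (h : W₁ ≤ W) (x : W) :
    ((equivQuot W W₁ h (Submodule.Quotient.mk x) : W.map W₁.mkQ) : V ⧸ W₁) = Submodule.Quotient.mk x.1 :=
  rfl

theorem flag_term {Φ Ψ Ξ : Fam F} (hΦ : IsCl Φ) (hΨ : IsCl Ψ) (hΞ : IsCl Ξ) (g : V →ₗ[F] V)
    (W W₁ : Inv g) (h : W₁.1 ≤ W.1) :
    (ev Φ (W₁.1.comap W.1.subtype) ((g.restrict W.2).restrict (comap_inv g W W₁)) *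
      ev Ψ (W.1 ⧸ W₁.1.comap W.1.subtype)
        ((W₁.1.comap W.1.subtype).mapQ (W₁.1.comap W.1.subtype) (g.restrict W.2) (comap_inv g W W₁))) *
      ev Ξ (V ⧸ W.1) (W.1.mapQ W.1 g W.2) =
    ev Φ W₁.1 (g.restrict W₁.2) *
      (ev Ψ (W.1.map W₁.1.mkQ) ((W₁.1.mapQ W₁.1 g W₁.2).restrict (map_inv g W W₁)) *
        ev Ξ ((V ⧸ W₁.1) ⧸ W.1.map W₁.1.mkQ)
          ((W.1.map W₁.1.mkQ).mapQ (W.1.map W₁.1.mkQ) (W₁.1.mapQ W₁.1 g W₁.2) (map_inv g W W₁))) := by
  rw [mul_assoc]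
  congr 1
  · refine ev_congr hΦ (equivComap W.1 W₁.1 h) _ _ ?_
    intro v
    rfl
  · congr 1
    · refine ev_congr hΨ (equivQuot W.1 W₁.1 h) _ _ ?_
      intro v
      induction v using Submodule.Quotient.induction_on with
      | H x =>
        apply Subtype.ext
        simp
    · symm
      refine ev_congr hΞ (Submodule.quotientQuotientEquivQuotient W₁.1 W.1 h) _ _ ?_
      intro v
      induction v using Submodule.Quotient.induction_on with
      | H x =>
        induction x using Submodule.Quotient.induction_on with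
        | H y => simp [Submodule.quotientQuotientEquivQuotient, Submodule.quotientQuotientEquivQuotientAux]

/-- Associativity of the Hall product on an endomorphism. -/
theorem pev_assoc {Φ Ψ Ξ : Fam F} (hΦ : IsCl Φ) (hΨ : IsCl Ψ) (hΞ : IsCl Ξ) (g : V →ₗ[F] V) :
    pev (hall Φ Ψ) Ξ V g = pev Φ (hall Ψ Ξ) V g := by
  classical
  rw [pev_eq_sum, pev_eq_sum]
  have hL : ∀ W : Inv g, ev (hall Φ Ψ) W.1 (g.restrict W.2) * ev Ξ (V ⧸ W.1) (W.1.mapQ W.1 g W.2) =
      ∑ W₁ : {W₁ : Inv g // W₁.1 ≤ W.1},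
        (ev Φ (W₁.1.1.comap W.1.subtype) ((g.restrict W.2).restrict (comap_inv g W W₁.1)) *
        ev Ψ (W.1 ⧸ W₁.1.1.comap W.1.subtype)
          ((W₁.1.1.comap W.1.subtype).mapQ (W₁.1.1.comap W.1.subtype) (g.restrict W.2) (comap_inv g W W₁.1))) *
        ev Ξ (V ⧸ W.1) (W.1.mapQ W.1 g W.2) := by
    intro W
    rw [ev_hall hΦ hΨ, pev_eq_sum, sum_inv_restrict g W, Finset.sum_mul]
  have hR : ∀ W₁ : Inv g, ev Φ W₁.1 (g.restrict W₁.2) * ev (hall Ψ Ξ) (V ⧸ W₁.1) (W₁.1.mapQ W₁.1 g W₁.2) =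
      ∑ W : {W : Inv g // W₁.1 ≤ W.1},
        ev Φ W₁.1 (g.restrict W₁.2) *
        (ev Ψ (W.1.1.map W₁.1.mkQ) ((W₁.1.mapQ W₁.1 g W₁.2).restrict (map_inv g W.1 W₁)) *
          ev Ξ ((V ⧸ W₁.1) ⧸ W.1.1.map W₁.1.mkQ)
            ((W.1.1.map W₁.1.mkQ).mapQ (W.1.1.map W₁.1.mkQ) (W₁.1.mapQ W₁.1 g W₁.2) (map_inv g W.1 W₁))) := by
    intro W₁
    rw [ev_hall hΨ hΞ, pev_eq_sum, sum_inv_quot g W₁, Finset.mul_sum]
  rw [Finset.sum_congr rfl (fun W _ => hL W), Finset.sum_congr rfl (fun W₁ _ => hR W₁)]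
  rw [Finset.sum_sigma', Finset.sum_sigma']
  refine Finset.sum_bij' (fun x _ => ⟨x.2.1, ⟨x.1, x.2.2⟩⟩) (fun x _ => ⟨x.2.1, ⟨x.1, x.2.2⟩⟩)
    (by simp) (by simp) (by intros; rfl) (by intros; rfl) ?_
  rintro ⟨W, W₁, h⟩ _
  exact flag_term hΦ hΨ hΞ g W W₁ h

theorem hall_assoc {Φ Ψ Ξ : Fam F} (hΦ : IsCl Φ) (hΨ : IsCl Ψ) (hΞ : IsCl Ξ) :
    hall (hall Φ Ψ) Ξ = hall Φ (hall Ψ Ξ) := by
  funext n M
  exact pev_assoc hΦ hΨ hΞ _

/-- Right unit. -/
theorem pev_unit_right {Φ : Fam F} (hΦ : IsCl Φ) (g : V →ₗ[F] V) :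
    pev Φ unitFam V g = ev Φ V g := by
  classical
  rw [pev_eq_sum]
  have htop : (⊤ : Submodule F V) ≤ (⊤ : Submodule F V).comap g := by simp
  rw [Finset.sum_eq_single (⟨⊤, htop⟩ : Inv g)]
  · rw [ev_unit]
    have h0 : finrank F (V ⧸ (⊤ : Submodule F V)) = 0 := by
      have := Submodule.finrank_quotient_add_finrank (⊤ : Submodule F V)
      rw [finrank_top] at this
      omega
    simp only [h0, if_true, mul_one]
    refine ev_congr hΦ Submodule.topEquiv _ _ ?_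
    intro v
    rfl
  · intro W _ hW
    rw [ev_unit]
    have h0 : finrank F (V ⧸ W.1) ≠ 0 := by
      intro h
      apply hW
      apply Subtype.ext
      have := Submodule.finrank_quotient_add_finrank W.1
      exact Submodule.eq_top_of_finrank_eq (by omega)
    simp [h0]
  · simp

/-- Left unit. -/
theorem pev_unit_left {Φ : Fam F} (hΦ : IsCl Φ) (g : V →ₗ[F] V) :
    pev unitFam Φ V g = ev Φ V g := by
  classical
  rw [pev_eq_sum]
  have hbot : (⊥ : Submodule F V) ≤ (⊥ : Submodule F V).comap g := by simp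
  rw [Finset.sum_eq_single (⟨⊥, hbot⟩ : Inv g)]
  · rw [ev_unit]
    have h0 : finrank F (⊥ : Submodule F V) = 0 := finrank_bot F V
    simp only [h0, if_true, one_mul]
    refine ev_congr hΦ (Submodule.quotEquivOfEqBot ⊥ rfl) _ _ ?_
    intro v
    induction v using Submodule.Quotient.induction_on with
    | H x => simp
  · intro W _ hW
    rw [ev_unit]
    have h0 : finrank F W.1 ≠ 0 := by
      intro h
      apply hW
      apply Subtype.ext
      exact Submodule.finrank_eq_zero.mp h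
    simp [h0]
  · simp

theorem hall_unit_right {Φ : Fam F} (hΦ : IsCl Φ) : hall Φ unitFam = Φ := by
  funext n M
  show pev Φ unitFam (Fin n → F) (Matrix.toLin' M) = Φ n M
  rw [pev_unit_right hΦ, ev_std hΦ]

theorem hall_unit_left {Φ : Fam F} (hΦ : IsCl Φ) : hall unitFam Φ = Φ := by
  funext n M
  show pev unitFam Φ (Fin n → F) (Matrix.toLin' M) = Φ n M
  rw [pev_unit_left hΦ, ev_std hΦ]

end Cfsg.Agent.Lib.GLH.HallAssoc
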