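import Mathlib.Algebra.Module.PID
import Mathlib.Algebra.Polynomial.Module.FiniteDimensional
import Mathlib.LinearAlgebra.Matrix.GeneralLinearGroup.Defs
import Mathlib.LinearAlgebra.Matrix.NonsingularInverse
import Mathlib.LinearAlgebra.Matrix.Nondegenerate
import Mathlib.LinearAlgebra.Matrix.ToLin
import Mathlib.LinearAlgebra.Matrix.ToLinearEquiv

/-!
# Every square matrix over a field is conjugate to its transpose.

`V` is a finitely generated torsion `F[X]`-module, so `V ≃ ⨁ F[X]/(fᵢ)`.  On `F[X]/(f)` the pairing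
`(a, b) ↦ coeff_{d-1} (a b mod f)` is non-degenerate and multiplication by `X` is self-adjoint.
-/

set_option autoImplicit false

namespace Cfsg.Agent.Lib.GLH.SelfDual

open Polynomial Module DirectSum Matrix

universe u

variable {F : Type u} [Field F]

/-- The linear functional `r ↦ coeff_{d-1} (r mod f)` on polynomials. -/
noncomputable def beta (f r : F[X]) : F := (r %ₘ f).coeff (f.natDegree - 1)

lemma beta_add (f r s : F[X]) : beta f (r + s) = beta f r + beta f s := by
  simp [beta, Polynomial.add_modByMonic]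

lemma beta_C_mul (f : F[X]) (c : F) (r : F[X]) : beta f (C c * r) = c * beta f r := by
  simp only [beta]
  rw [← Polynomial.smul_eq_C_mul, Polynomial.smul_modByMonic, Polynomial.coeff_smul, smul_eq_mul]

lemma beta_congr {f r s : F[X]} (hf : f.Monic) (h : f ∣ r - s) : beta f r = beta f s := by
  simp only [beta]
  rw [Polynomial.modByMonic_eq_of_dvd_sub hf h]

lemma beta_nondeg {f r : F[X]} (hf : f.Monic) (hr : ¬ f ∣ r) : ∃ s, beta f (r * s) ≠ 0 := by
  set a := r %ₘ f with ha
  have ha0 : a ≠ 0 := by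
    intro h0
    exact hr ((Polynomial.modByMonic_eq_zero_iff_dvd hf).1 h0)
  have hdeg : a.natDegree < f.natDegree := by
    have h1 := Polynomial.degree_modByMonic_lt r hf
    have h2 : a.degree < f.degree := h1
    exact Polynomial.natDegree_lt_natDegree ha0 h2
  refine ⟨X ^ (f.natDegree - 1 - a.natDegree), ?_⟩
  simp only [beta]
  have hcongr : (r * X ^ (f.natDegree - 1 - a.natDegree)) %ₘ f
      = (a * X ^ (f.natDegree - 1 - a.natDegree)) %ₘ f := by
    apply Polynomial.modByMonic_eq_of_dvd_sub hf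
    have : r * X ^ (f.natDegree - 1 - a.natDegree) - a * X ^ (f.natDegree - 1 - a.natDegree)
        = (r - a) * X ^ (f.natDegree - 1 - a.natDegree) := by ring
    rw [this]
    apply Dvd.dvd.mul_right
    have hq := Polynomial.modByMonic_add_div r f
    refine ⟨r /ₘ f, ?_⟩
    rw [ha]
    linear_combination (-1 : F[X]) * hq
  rw [hcongr]
  have hlt : (a * X ^ (f.natDegree - 1 - a.natDegree)).degree < f.degree := by
    rw [Polynomial.degree_eq_natDegree hf.ne_zero]
    have h3 : (a * X ^ (f.natDegree - 1 - a.natDegree)).natDegree = f.natDegree - 1 := by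
      rw [Polynomial.natDegree_mul_X_pow _ ha0]
      omega
    rw [Polynomial.degree_eq_natDegree (mul_ne_zero ha0 (pow_ne_zero _ X_ne_zero)), h3]
    exact_mod_cast (by omega : f.natDegree - 1 < f.natDegree)
  rw [(Polynomial.modByMonic_eq_self_iff hf).2 hlt]
  rw [Polynomial.coeff_mul_X_pow', if_pos (by omega)]
  rw [show f.natDegree - 1 - (f.natDegree - 1 - a.natDegree) = a.natDegree by omega]
  simpa using ha0

/-- A symmetric `F`-bilinear non-degenerate form on an `F[X]`-module for which `F[X]` acts by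
self-adjoint maps. -/
structure IsFrob {A : Type*} [AddCommGroup A] [Module F[X] A] (B : A → A → F) : Prop where
  add_left : ∀ u u' v, B (u + u') v = B u v + B u' v
  smul_left : ∀ (c : F) u v, B ((C c : F[X]) • u) v = c * B u v
  adj : ∀ (t : F[X]) u v, B (t • u) v = B u (t • v)
  symm : ∀ u v, B u v = B v u
  nondeg : ∀ u, u ≠ 0 → ∃ v, B u v ≠ 0

lemma exists_frob_quot (g : F[X]) (hg : g ≠ 0) :
    ∃ B : (F[X] ⧸ (Submodule.span F[X] {g})) → (F[X] ⧸ (Submodule.span F[X] {g})) → F, IsFrob B := by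
  classical
  set f : F[X] := g * C g.leadingCoeff⁻¹ with hf
  have hfm : f.Monic := Polynomial.monic_mul_leadingCoeff_inv hg
  have hdvd : ∀ r : F[X], f ∣ r ↔ g ∣ r := by
    intro r
    have hu : IsUnit (C g.leadingCoeff⁻¹ : F[X]) :=
      Polynomial.isUnit_C.2 (isUnit_iff_ne_zero.2 (inv_ne_zero (leadingCoeff_ne_zero.2 hg)))
    exact (hu.mul_right_dvd (a := g) (b := r))
  set Q := F[X] ⧸ (Submodule.span F[X] {g}) with hQ
  let mk : F[X] → Q := Submodule.Quotient.mk
  have hmk : ∀ r s : F[X], mk r = mk s ↔ f ∣ r - s := by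
    intro r s
    rw [hdvd]
    simp only [mk]
    rw [Submodule.Quotient.eq, Submodule.mem_span_singleton]
    constructor
    · rintro ⟨a, ha⟩
      exact ⟨a, by rw [← ha, smul_eq_mul, mul_comm]⟩
    · rintro ⟨a, ha⟩
      exact ⟨a, by rw [ha, smul_eq_mul, mul_comm]⟩
  have hsurj : ∀ u : Q, ∃ r, mk r = u := fun u => Submodule.Quotient.mk_surjective _ u
  choose out hout using hsurj
  let B : Q → Q → F := fun u v => beta f (out u * out v)
  have hB : ∀ r s : F[X], B (mk r) (mk s) = beta f (r * s) := by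
    intro r s
    apply beta_congr hfm
    have h1 : f ∣ out (mk r) - r := (hmk _ _).1 (hout _)
    have h2 : f ∣ out (mk s) - s := (hmk _ _).1 (hout _)
    have : out (mk r) * out (mk s) - r * s
        = (out (mk r) - r) * out (mk s) + r * (out (mk s) - s) := by ring
    rw [this]
    exact dvd_add (h1.mul_right _) (h2.mul_left _)
  have hadd : ∀ r s : F[X], mk (r + s) = mk r + mk s := fun _ _ => rfl
  have hsmul : ∀ t r : F[X], t • mk r = mk (t * r) := fun _ _ => rfl
  refine ⟨B, ⟨?_, ?_, ?_, ?_, ?_⟩⟩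
  · intro u u' v
    obtain ⟨r, rfl⟩ := Submodule.Quotient.mk_surjective _ u
    obtain ⟨r', rfl⟩ := Submodule.Quotient.mk_surjective _ u'
    obtain ⟨s, rfl⟩ := Submodule.Quotient.mk_surjective _ v
    change B (mk r + mk r') (mk s) = B (mk r) (mk s) + B (mk r') (mk s)
    rw [← hadd, hB, hB, hB, add_mul, beta_add]
  · intro c u v
    obtain ⟨r, rfl⟩ := Submodule.Quotient.mk_surjective _ u
    obtain ⟨s, rfl⟩ := Submodule.Quotient.mk_surjective _ v
    change B ((C c : F[X]) • mk r) (mk s) = c * B (mk r) (mk s)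
    rw [hsmul, hB, hB, mul_assoc, beta_C_mul]
  · intro t u v
    obtain ⟨r, rfl⟩ := Submodule.Quotient.mk_surjective _ u
    obtain ⟨s, rfl⟩ := Submodule.Quotient.mk_surjective _ v
    change B (t • mk r) (mk s) = B (mk r) (t • mk s)
    rw [hsmul, hsmul, hB, hB]
    congr 1
    ring
  · intro u v
    obtain ⟨r, rfl⟩ := Submodule.Quotient.mk_surjective _ u
    obtain ⟨s, rfl⟩ := Submodule.Quotient.mk_surjective _ v
    change B (mk r) (mk s) = B (mk s) (mk r)
    rw [hB, hB, mul_comm]
  · intro u hu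
    obtain ⟨r, rfl⟩ := Submodule.Quotient.mk_surjective _ u
    have hr : ¬ f ∣ r := by
      intro h
      apply hu
      change mk r = 0
      have : mk r = mk 0 := (hmk _ _).2 (by simpa using h)
      exact this
    obtain ⟨s, hs⟩ := beta_nondeg hfm hr
    refine ⟨mk s, ?_⟩
    change B (mk r) (mk s) ≠ 0
    rw [hB]
    exact hs

lemma exists_frob_directSum {ι : Type*} [Fintype ι] [DecidableEq ι] (Q : ι → Type*)
    [∀ i, AddCommGroup (Q i)] [∀ i, Module F[X] (Q i)]
    (h : ∀ i, ∃ B : Q i → Q i → F, IsFrob B) :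
    ∃ B : (⨁ i, Q i) → (⨁ i, Q i) → F, IsFrob B := by
  classical
  choose B hB using h
  refine ⟨fun u v => ∑ i, B i (u i) (v i), ⟨?_, ?_, ?_, ?_, ?_⟩⟩
  · intro u u' v
    simp only [DirectSum.add_apply, (hB _).add_left, Finset.sum_add_distrib]
  · intro c u v
    simp only [DirectSum.smul_apply, (hB _).smul_left, Finset.mul_sum]
  · intro t u v
    simp only [DirectSum.smul_apply, (hB _).adj]
  · intro u v
    simp only [(hB _).symm (u _)]
  · intro u hu
    have : ∃ i, u i ≠ 0 := by
      by_contra hne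
      push Not at hne
      exact hu (DFinsupp.ext hne)
    obtain ⟨i, hi⟩ := this
    obtain ⟨v, hv⟩ := (hB i).nondeg _ hi
    refine ⟨DirectSum.of Q i v, ?_⟩
    rw [Finset.sum_eq_single i]
    · rwa [DirectSum.of_eq_same]
    · intro j _ hj
      rw [DirectSum.of_eq_of_ne _ _ _ hj]
      have h0 : B j (u j) 0 = 0 := by
        rw [(hB j).symm]
        have := (hB j).add_left 0 0 (u j)
        simpa using this
      exact h0
    · simp

/-- A non-degenerate symmetric form on the coordinate space with `M` self-adjoint. -/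
lemma exists_form {n : ℕ} (M : Matrix (Fin n) (Fin n) F) :
    ∃ D : (Fin n → F) → (Fin n → F) → F,
      (∀ x x' y, D (x + x') y = D x y + D x' y) ∧
      (∀ (c : F) x y, D (c • x) y = c * D x y) ∧
      (∀ x y, D (M *ᵥ x) y = D x (M *ᵥ y)) ∧
      (∀ x y, D x y = D y x) ∧
      (∀ x, x ≠ 0 → ∃ y, D x y ≠ 0) := by
  classical
  let φ : (Fin n → F) →ₗ[F] (Fin n → F) := Matrix.mulVecLin M
  let W := AEval' φ
  haveI hfin : Module.Finite F[X] W := Module.Finite.of_restrictScalars_finite F F[X] W
  have htors : Module.IsTorsion F[X] W := AEval.isTorsion_of_finiteDimensional F (Fin n → F) φ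
  obtain ⟨ι, _, p, hp, e, ⟨E⟩⟩ := Module.equiv_directSum_of_isTorsion htors
  have hq : ∀ i, ∃ B : (F[X] ⧸ (Submodule.span F[X] {p i ^ e i})) →
      (F[X] ⧸ (Submodule.span F[X] {p i ^ e i})) → F, IsFrob B := fun i =>
    exists_frob_quot _ (pow_ne_zero _ (hp i).ne_zero)
  obtain ⟨B, hB⟩ := exists_frob_directSum
    (fun i => F[X] ⧸ (Submodule.span F[X] {p i ^ e i})) hq
  let tt : (Fin n → F) → (⨁ i, F[X] ⧸ (Submodule.span F[X] {p i ^ e i})) :=
    fun x => E (AEval'.of φ x)
  have hto_add : ∀ x x', tt (x + x') = tt x + tt x' := by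
    intro x x'
    simp only [tt, map_add]
  have hto_smul : ∀ (c : F) x, tt (c • x) = (C c : F[X]) • tt x := by
    intro c x
    simp only [tt]
    rw [← map_smul E]
    congr 1
    have := AEval.of_aeval_smul (R := F) (M := Fin n → F) (a := φ) (C c) x
    rw [← this]
    simp only [aeval_C]
    rfl
  have hto_X : ∀ x, tt (M *ᵥ x) = (X : F[X]) • tt x := by
    intro x
    simp only [tt]
    rw [← map_smul E, AEval'.X_smul_of]
    rfl
  have hto_inj : ∀ x, x ≠ 0 → tt x ≠ 0 := by
    intro x hx h0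
    apply hx
    have h1 : AEval'.of φ x = 0 := E.map_eq_zero_iff.1 h0
    exact (AEval'.of φ).map_eq_zero_iff.1 h1
  have hto_surj : ∀ v, ∃ y, tt y = v := by
    intro v
    refine ⟨(AEval'.of φ).symm (E.symm v), ?_⟩
    simp [tt]
  refine ⟨fun x y => B (tt x) (tt y), ?_, ?_, ?_, ?_, ?_⟩
  · intro x x' y
    simp only [hto_add, hB.add_left]
  · intro c x y
    simp only [hto_smul, hB.smul_left]
  · intro x y
    simp only [hto_X, hB.adj]
  · intro x y
    exact hB.symm _ _
  · intro x hx
    obtain ⟨v, hv⟩ := hB.nondeg _ (hto_inj x hx)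
    obtain ⟨y, rfl⟩ := hto_surj v
    exact ⟨y, hv⟩

/-- **Every square matrix over a field is conjugate to its transpose.** -/
theorem exists_conj_transpose {n : ℕ} (M : Matrix (Fin n) (Fin n) F) :
    ∃ P : GL (Fin n) F, (P : Matrix (Fin n) (Fin n) F) * M * ((P⁻¹ : GL (Fin n) F) : Matrix (Fin n) (Fin n) F) = Mᵀ := by
  classical
  obtain ⟨D, hadd, hsmul, hadj, hsym, hnd⟩ := exists_form M
  have hadd' : ∀ x y y', D x (y + y') = D x y + D x y' := by
    intro x y y'
    rw [hsym, hadd, hsym y, hsym y']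
  have hsmul' : ∀ (c : F) x y, D x (c • y) = c * D x y := by
    intro c x y
    rw [hsym, hsmul, hsym]
  let e : Fin n → Fin n → F := fun i => Pi.single i 1
  let P : Matrix (Fin n) (Fin n) F := Matrix.of fun i j => D (e i) (e j)
  -- `D` as linear maps
  let L : (Fin n → F) →ₗ[F] (Fin n → F) →ₗ[F] F :=
    LinearMap.mk₂ F D hadd (fun c x y => by simpa using hsmul c x y) hadd'
      (fun c x y => by simpa using hsmul' c x y)
  have hL : ∀ x y, L x y = D x y := fun _ _ => rfl
  have hform : ∀ x y, D x y = x ⬝ᵥ (P *ᵥ y) := by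
    intro x y
    have hx : x = ∑ i, x i • e i := by
      simpa [e] using (pi_eq_sum_univ' x)
    have hy : y = ∑ j, y j • e j := by
      simpa [e] using (pi_eq_sum_univ' y)
    have h1 : D x y = L (∑ i, x i • e i) (∑ j, y j • e j) := by rw [← hx, ← hy]; rfl
    rw [h1]
    simp only [map_sum, LinearMap.sum_apply, map_smul, LinearMap.smul_apply, smul_eq_mul, hL]
    simp only [dotProduct, Matrix.mulVec, P, Matrix.of_apply, Finset.mul_sum]
    rw [Finset.sum_comm]
    refine Finset.sum_congr rfl fun i _ => Finset.sum_congr rfl fun j _ => ?_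
    ring
  have hnondeg : P.Nondegenerate := by
    refine Matrix.nondegenerate_iff_separatingLeft.2 (Matrix.separatingLeft_def.2 ?_)
    intro v hv
    by_contra hv0
    obtain ⟨y, hy⟩ := hnd v hv0
    apply hy
    rw [hform]
    exact hv y
  have hdet : P.det ≠ 0 := Matrix.nondegenerate_iff_det_ne_zero.1 hnondeg
  have hcol : ∀ (A : Matrix (Fin n) (Fin n) F) (j : Fin n), A *ᵥ e j = fun k => A k j := by
    intro A j
    ext k
    simp [e, Matrix.mulVec_single_one]
  have hPM : P * M = Mᵀ * P := by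
    ext i j
    have h1 : D (e i) (M *ᵥ e j) = (P * M) i j := by
      rw [hform, Matrix.mulVec_mulVec, hcol]
      simp [e, single_one_dotProduct]
    have h2 : D (M *ᵥ e i) (e j) = (Mᵀ * P) i j := by
      rw [hform, hcol, hcol]
      simp [dotProduct, Matrix.mul_apply]
    rw [← h1, ← h2, hadj]
  let g : GL (Fin n) F := Matrix.GeneralLinearGroup.mkOfDetNeZero P hdet
  have hg : (g : Matrix (Fin n) (Fin n) F) = P := rfl
  refine ⟨g, ?_⟩
  calc (g : Matrix (Fin n) (Fin n) F) * M * ((g⁻¹ : GL (Fin n) F) : Matrix (Fin n) (Fin n) F)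
      = Mᵀ * (g : Matrix (Fin n) (Fin n) F) * ((g⁻¹ : GL (Fin n) F) : Matrix (Fin n) (Fin n) F) := by
        rw [hg, hPM]
    _ = Mᵀ * ((g : Matrix (Fin n) (Fin n) F) * ((g⁻¹ : GL (Fin n) F) : Matrix (Fin n) (Fin n) F)) :=
        mul_assoc _ _ _
    _ = Mᵀ := by
        rw [← Units.val_mul, mul_inv_cancel, Units.val_one, mul_one]

end Cfsg.Agent.Lib.GLH.SelfDual
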