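import Cfsg.Agent.Lib.GLH.HallAssoc
import Cfsg.Agent.Lib.GLH.SelfDual
import Mathlib.LinearAlgebra.Matrix.Dual
import Mathlib.LinearAlgebra.Dual.Lemmas

/-!
# The Hall product is commutative (duality).
-/

set_option autoImplicit false
set_option linter.unusedSectionVars false

namespace Cfsg.Agent.Lib.GLH.HallComm

open Matrix Module Cfsg.Agent.Lib.GLH.Defs Cfsg.Agent.Lib.GLH.Ev Cfsg.Agent.Lib.GLH.HallAssoc

universe u

variable {F : Type u} [Field F]
variable {V : Type u} [AddCommGroup V] [Module F V] [Module.Finite F V]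

theorem ev_dual {Φ : Fam F} (hΦ : IsCl Φ) (g : V →ₗ[F] V) :
    ev Φ (Dual F V) g.dualMap = ev Φ V g := by
  classical
  rw [ev_eq_of_basis hΦ (finBasis F V).dualBasis]
  have : LinearMap.toMatrix (finBasis F V).dualBasis (finBasis F V).dualBasis g.dualMap =
      (LinearMap.toMatrix (finBasis F V) (finBasis F V) g)ᵀ :=
    LinearMap.toMatrix_transpose (B₁ := finBasis F V) (B₂ := finBasis F V) g
  rw [this]
  obtain ⟨P, hP⟩ := SelfDual.exists_conj_transpose (LinearMap.toMatrix (finBasis F V) (finBasis F V) g)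
  rw [← hP, hΦ]
  rfl

theorem dual_inv (g : V →ₗ[F] V) (W : Inv g) :
    W.1.dualAnnihilator ≤ W.1.dualAnnihilator.comap g.dualMap := by
  intro φ hφ
  rw [Submodule.mem_comap, Submodule.mem_dualAnnihilator]
  rw [Submodule.mem_dualAnnihilator] at hφ
  intro w hw
  exact hφ _ (W.2 hw)

theorem coann_inv (g : V →ₗ[F] V) (W : Inv g.dualMap) :
    W.1.dualCoannihilator ≤ W.1.dualCoannihilator.comap g := by
  intro v hv
  rw [Submodule.mem_comap, Submodule.mem_dualCoannihilator]
  rw [Submodule.mem_dualCoannihilator] at hv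
  intro φ hφ
  exact hv _ (W.2 hφ)

variable [Finite F]

theorem pev_comm {Φ Ψ : Fam F} (hΦ : IsCl Φ) (hΨ : IsCl Ψ) (g : V →ₗ[F] V) :
    pev Φ Ψ V g = pev Ψ Φ V g := by
  classical
  have h1 : pev Φ Ψ V g = pev Φ Ψ (Dual F V) g.dualMap := by
    rw [← ev_hall hΦ hΨ, ← ev_hall hΦ hΨ, ev_dual (isCl_hall hΦ hΨ)]
  rw [h1, pev_eq_sum, pev_eq_sum]
  symm
  refine Finset.sum_bij' (fun W _ => (⟨W.1.dualAnnihilator, dual_inv g W⟩ : Inv g.dualMap))
    (fun W _ => (⟨W.1.dualCoannihilator, coann_inv g W⟩ : Inv g)) (by simp) (by simp) ?_ ?_ ?_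
  · intro W _
    apply Subtype.ext
    exact Subspace.dualAnnihilator_dualCoannihilator_eq
  · intro W _
    apply Subtype.ext
    exact Subspace.dualCoannihilator_dualAnnihilator_eq
  · intro W _
    rw [mul_comm]
    congr 1
    · -- `W^⊥ ≃ (V/W)^*`
      rw [← ev_dual hΦ]
      refine ev_congr hΦ (Submodule.dualQuotEquivDualAnnihilator W.1) _ _ ?_
      intro φ
      apply Subtype.ext
      ext x
      rfl
    · -- `V^*/W^⊥ ≃ W^*`
      rw [← ev_dual hΨ]
      symm
      refine ev_congr hΨ (Subspace.quotAnnihilatorEquiv W.1) _ _ ?_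
      intro φ
      induction φ using Submodule.Quotient.induction_on with
      | H φ =>
        ext x
        simp

theorem hall_comm {Φ Ψ : Fam F} (hΦ : IsCl Φ) (hΨ : IsCl Ψ) : hall Φ Ψ = hall Ψ Φ := by
  funext n M
  exact pev_comm hΦ hΨ _

end Cfsg.Agent.Lib.GLH.HallComm
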