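import Cfsg.Agent.Lib.Char.Complete
import Cfsg.Agent.Lib.Char.ClassSum
import Mathlib.LinearAlgebra.Trace
import Mathlib.LinearAlgebra.Projection
import Mathlib.LinearAlgebra.Dual.Lemmas

/-!
# Generic Gelfand-Graev theory

`U` a subgroup of a finite group `G`, `ψ` a linear character of `U`, given as a function on `G`.

* `avg U ψ f`: the multiplicity functional `|U|⁻¹ ∑ conj ψ(u) f(u)`.
* `avg_eq_zero_or_one`: Gelfand's trick. If `G` has an anti-automorphism `τ` of order two preserving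
  `(U,ψ)` and fixing every `ψ`-compatible double coset, `avg U ψ χ ∈ {0,1}` for irreducible `χ`.
* `sum_avg_mul_conj`: `∑_χ |avg U ψ χ|²` is the number of `ψ`-compatible double cosets.
-/

set_option autoImplicit false
set_option linter.unusedSectionVars false

namespace Cfsg.Agent.Lib.GLH.HeckeGen

open Cfsg Module
open Cfsg.Agent.Lib.Char.Complete Cfsg.Agent.Lib.Char.Ortho
open scoped ComplexConjugate

universe u v

variable {G : Type u} [Group G]

/-- `ψ` restricts to a linear character of `U`. -/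
structure IsChr (U : Subgroup G) (ψ : G → ℂ) : Prop where
  mul : ∀ u ∈ U, ∀ v ∈ U, ψ (u * v) = ψ u * ψ v
  one : ψ 1 = 1
  conj_eq : ∀ u ∈ U, conj (ψ u) = ψ u⁻¹

/-- The multiplicity functional. -/
noncomputable def avg (U : Subgroup G) (ψ : G → ℂ) (f : G → ℂ) : ℂ :=
  (Nat.card U : ℂ)⁻¹ * ∑ᶠ u : U, conj (ψ (u : G)) * f (u : G)

section Op

variable {U : Subgroup G} {ψ : G → ℂ}

theorem IsChr.inv (h : IsChr U ψ) {u : G} (hu : u ∈ U) : ψ u⁻¹ * ψ u = 1 := by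
  rw [← h.mul _ (U.inv_mem hu) _ hu, inv_mul_cancel, h.one]

theorem IsChr.conj_mul (h : IsChr U ψ) {u : G} (hu : u ∈ U) : conj (ψ u) * ψ u = 1 := by
  rw [h.conj_eq u hu, h.inv hu]

theorem IsChr.conj_inv (h : IsChr U ψ) {u : G} (hu : u ∈ U) : conj (ψ u⁻¹) = ψ u := by
  rw [h.conj_eq _ (U.inv_mem hu), inv_inv]

variable {V : Type v} [AddCommGroup V] [Module ℂ V]
variable [Fintype U]

/-- The idempotent attached to `(U, ψ)` in a representation. -/
noncomputable def eps (U : Subgroup G) (ψ : G → ℂ) [Fintype U] (ρ : Representation ℂ G V) :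
    Module.End ℂ V :=
  (Nat.card U : ℂ)⁻¹ • ∑ u : U, conj (ψ (u : G)) • ρ (u : G)

theorem card_ne_zero_C : (Nat.card U : ℂ) ≠ 0 :=
  Nat.cast_ne_zero.mpr Nat.card_pos.ne'

theorem rho_mul_eps (h : IsChr U ψ) (ρ : Representation ℂ G V) {a : G} (ha : a ∈ U) :
    ρ a * eps U ψ ρ = ψ a • eps U ψ ρ := by
  unfold eps
  rw [mul_smul_comm, smul_comm]
  congr 1
  rw [Finset.mul_sum, Finset.smul_sum]
  conv_rhs => rw [← Equiv.sum_comp (Equiv.mulLeft (⟨a, ha⟩ : U))]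
  refine Finset.sum_congr rfl fun u _ => ?_
  simp only [Equiv.coe_mulLeft, Subgroup.coe_mul, map_mul, mul_smul_comm, smul_smul]
  congr 1
  rw [h.mul _ ha _ u.2, map_mul, ← mul_assoc, mul_comm (ψ a), h.conj_mul ha, one_mul]

theorem eps_mul_rho (h : IsChr U ψ) (ρ : Representation ℂ G V) {a : G} (ha : a ∈ U) :
    eps U ψ ρ * ρ a = ψ a • eps U ψ ρ := by
  unfold eps
  rw [smul_mul_assoc, smul_comm]
  congr 1
  rw [Finset.sum_mul, Finset.smul_sum]
  conv_rhs => rw [← Equiv.sum_comp (Equiv.mulRight (⟨a, ha⟩ : U))]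
  refine Finset.sum_congr rfl fun u _ => ?_
  simp only [Equiv.coe_mulRight, Subgroup.coe_mul, map_mul, smul_mul_assoc, smul_smul]
  congr 1
  rw [h.mul _ u.2 _ ha, map_mul, mul_comm (ψ a), mul_assoc, h.conj_mul ha, mul_one]

theorem eps_idem (h : IsChr U ψ) (ρ : Representation ℂ G V) :
    eps U ψ ρ * eps U ψ ρ = eps U ψ ρ := by
  have : ∀ u : U, conj (ψ (u : G)) • ρ (u : G) * eps U ψ ρ = eps U ψ ρ := by
    intro u
    rw [smul_mul_assoc, rho_mul_eps h ρ u.2, smul_smul, h.conj_mul u.2, one_smul]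
  calc eps U ψ ρ * eps U ψ ρ
      = ((Nat.card U : ℂ)⁻¹ • ∑ u : U, conj (ψ (u : G)) • ρ (u : G)) * eps U ψ ρ := rfl
    _ = eps U ψ ρ := by
      rw [smul_mul_assoc, Finset.sum_mul, Finset.sum_congr rfl fun u _ => this u, Finset.sum_const,
        Finset.card_univ, ← Nat.card_eq_fintype_card,
        ← Nat.cast_smul_eq_nsmul ℂ, smul_smul, inv_mul_cancel₀ card_ne_zero_C, one_smul]

theorem avg_eq (f : G → ℂ) :
    avg U ψ f = (Nat.card U : ℂ)⁻¹ * ∑ u : U, conj (ψ (u : G)) * f (u : G) := by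
  unfold avg
  rw [finsum_eq_sum_of_fintype]

theorem trace_eps [FiniteDimensional ℂ V] (ρ : Representation ℂ G V) :
    LinearMap.trace ℂ V (eps U ψ ρ) = avg U ψ ρ.character := by
  rw [avg_eq, eps, map_smul, map_sum, smul_eq_mul]
  congr 1
  refine Finset.sum_congr rfl fun u _ => ?_
  rw [map_smul, smul_eq_mul]
  rfl

/-- Schur orthogonality in rank one form. -/
theorem schur_sum [Fintype G] [FiniteDimensional ℂ V] (ρ : Representation ℂ G V)
    (hρ : ρ.IsIrreducible) (f : V →ₗ[ℂ] ℂ) (v w : V) :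
    ∑ g : G, f (ρ g⁻¹ w) • ρ g v = ((Nat.card G : ℂ) * f v / finrank ℂ V) • w := by
  classical
  have hV : Nontrivial V := nontrivial_of_isIrreducible hρ
  have hd : (finrank ℂ V : ℂ) ≠ 0 := Nat.cast_ne_zero.mpr Module.finrank_pos.ne'
  let A : Module.End ℂ V := f.smulRight v
  let S : Module.End ℂ V := ∑ g : G, ρ g * A * ρ g⁻¹
  have hS : ∀ h : G, S ∘ₗ ρ h = ρ h ∘ₗ S := by
    intro h
    change S * ρ h = ρ h * S
    simp only [S, Finset.sum_mul, Finset.mul_sum]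
    rw [← Equiv.sum_comp (Equiv.mulLeft h)]
    refine Finset.sum_congr rfl fun g _ => ?_
    simp only [Equiv.coe_mulLeft, mul_inv_rev, map_mul, mul_assoc]
    have h1 : ρ h⁻¹ * ρ h = 1 := by rw [← map_mul, inv_mul_cancel, map_one]
    rw [h1, mul_one]
  obtain ⟨c, hc⟩ := schur_scalar ρ hρ S hS
  have htrS : LinearMap.trace ℂ V S = (Nat.card G : ℂ) * f v := by
    have h1 : ∀ g : G, LinearMap.trace ℂ V (ρ g * A * ρ g⁻¹) = f v := by
      intro g
      rw [LinearMap.trace_mul_comm, ← mul_assoc, ← map_mul, inv_mul_cancel, map_one, one_mul]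
      change LinearMap.trace ℂ V (f.smulRight v) = f v
      rw [LinearMap.trace_smulRight]
    simp only [S]
    rw [map_sum, Finset.sum_congr rfl fun g _ => h1 g, Finset.sum_const, Finset.card_univ,
      Nat.card_eq_fintype_card, nsmul_eq_mul]
  have hc2 : c = (Nat.card G : ℂ) * f v / finrank ℂ V := by
    rw [hc, map_smul, LinearMap.trace_id, smul_eq_mul] at htrS
    rw [eq_div_iff hd]
    exact htrS
  have h3 : S w = ∑ g : G, f (ρ g⁻¹ w) • ρ g v := by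
    simp only [S, LinearMap.sum_apply]
    refine Finset.sum_congr rfl fun g _ => ?_
    simp [A, Module.End.mul_apply, LinearMap.smulRight_apply]
  rw [← h3, hc, hc2]
  simp

/-- `T x = ε ρ(x) ε`. -/
noncomputable def T (U : Subgroup G) (ψ : G → ℂ) [Fintype U] (ρ : Representation ℂ G V) (x : G) :
    Module.End ℂ V :=
  eps U ψ ρ * ρ x * eps U ψ ρ

theorem T_left (h : IsChr U ψ) (ρ : Representation ℂ G V) {a : G} (ha : a ∈ U) (x : G) :
    T U ψ ρ (a * x) = ψ a • T U ψ ρ x := by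
  unfold T
  rw [map_mul, ← mul_assoc, eps_mul_rho h ρ ha, smul_mul_assoc, smul_mul_assoc]

theorem T_right (h : IsChr U ψ) (ρ : Representation ℂ G V) {b : G} (hb : b ∈ U) (x : G) :
    T U ψ ρ (x * b) = ψ b • T U ψ ρ x := by
  unfold T
  rw [map_mul, mul_assoc (eps U ψ ρ), mul_assoc (ρ x), rho_mul_eps h ρ hb, mul_smul_comm, mul_smul_comm,
    mul_assoc]

theorem T_eq_zero (h : IsChr U ψ) (ρ : Representation ℂ G V) {x u : G} (hu : u ∈ U)
    (hv : x⁻¹ * u * x ∈ U) (hne : ψ u ≠ ψ (x⁻¹ * u * x)) : T U ψ ρ x = 0 := by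
  have h1 : T U ψ ρ (u * x) = ψ u • T U ψ ρ x := T_left h ρ hu x
  have h2 : u * x = x * (x⁻¹ * u * x) := by group
  have h3 : T U ψ ρ (x * (x⁻¹ * u * x)) = ψ (x⁻¹ * u * x) • T U ψ ρ x := T_right h ρ hv x
  rw [h2, h3] at h1
  have h4 : (ψ (x⁻¹ * u * x) - ψ u) • T U ψ ρ x = 0 := by rw [sub_smul, h1, sub_self]
  exact (smul_eq_zero.mp h4).resolve_left (sub_ne_zero.mpr hne.symm)

theorem mul_eps_mul (ρ : Representation ℂ G V) (A B : Module.End ℂ V) :
    A * eps U ψ ρ * B = (Nat.card U : ℂ)⁻¹ • ∑ u : U, conj (ψ (u : G)) • (A * ρ (u : G) * B) := by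
  unfold eps
  simp only [mul_smul_comm, smul_mul_assoc, Finset.mul_sum, Finset.sum_mul]

theorem T_mul_T (h : IsChr U ψ) (ρ : Representation ℂ G V) (x y : G) :
    T U ψ ρ x * T U ψ ρ y =
      (Nat.card U : ℂ)⁻¹ • ∑ u : U, conj (ψ (u : G)) • T U ψ ρ (x * u * y) := by
  have h0 : T U ψ ρ x * T U ψ ρ y =
      (eps U ψ ρ * ρ x) * eps U ψ ρ * (ρ y * eps U ψ ρ) := by
    unfold T
    calc eps U ψ ρ * ρ x * eps U ψ ρ * (eps U ψ ρ * ρ y * eps U ψ ρ)
        = eps U ψ ρ * ρ x * (eps U ψ ρ * eps U ψ ρ) * (ρ y * eps U ψ ρ) := by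
          simp only [mul_assoc]
      _ = _ := by rw [eps_idem h]
  rw [h0, mul_eps_mul]
  congr 1
  refine Finset.sum_congr rfl fun u _ => ?_
  unfold T
  rw [map_mul, map_mul]
  simp only [mul_assoc]

theorem T_comm (h : IsChr U ψ) (ρ : Representation ℂ G V) (τ : G → G)
    (hτ : ∀ x y, τ (x * y) = τ y * τ x) (hττ : ∀ x, τ (τ x) = x) (hτU : ∀ u ∈ U, τ u ∈ U)
    (hτψ : ∀ u ∈ U, ψ (τ u) = ψ u) (hT : ∀ x, T U ψ ρ (τ x) = T U ψ ρ x) (x y : G) :
    T U ψ ρ x * T U ψ ρ y = T U ψ ρ y * T U ψ ρ x := by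
  let e : U ≃ U := ⟨fun u => ⟨τ u, hτU _ u.2⟩, fun u => ⟨τ u, hτU _ u.2⟩,
    fun u => Subtype.ext (hττ _), fun u => Subtype.ext (hττ _)⟩
  have h1 := T_mul_T h ρ (τ y) (τ x)
  rw [hT, hT] at h1
  rw [h1, T_mul_T h ρ x y, ← Equiv.sum_comp e]
  congr 1
  refine Finset.sum_congr rfl fun u _ => ?_
  have h2 : ((e u : U) : G) = τ u := rfl
  rw [h2, hτψ _ u.2, ← hT (x * τ u * y), hτ, hτ, hττ]
  simp only [mul_assoc]

section Rank

variable [Fintype G] [FiniteDimensional ℂ V]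

/-- Rank one operators from `T`. -/
noncomputable def B (U : Subgroup G) (ψ : G → ℂ) [Fintype U] (ρ : Representation ℂ G V) (w : V)
    (f : V →ₗ[ℂ] ℂ) : Module.End ℂ V :=
  ∑ x : G, f (ρ x⁻¹ w) • T U ψ ρ x

theorem B_apply (ρ : Representation ℂ G V) (hρ : ρ.IsIrreducible) {w : V}
    (hw : eps U ψ ρ w = w) (f : V →ₗ[ℂ] ℂ) (v : V) :
    B U ψ ρ w f v = ((Nat.card G : ℂ) * f (eps U ψ ρ v) / finrank ℂ V) • w := by
  have h1 : B U ψ ρ w f v = eps U ψ ρ (∑ x : G, f (ρ x⁻¹ w) • ρ x (eps U ψ ρ v)) := by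
    unfold B T
    simp [LinearMap.sum_apply, map_sum, Module.End.mul_apply]
  rw [h1, schur_sum ρ hρ, map_smul, hw]

theorem mem_span_of_comm (ρ : Representation ℂ G V) (hρ : ρ.IsIrreducible)
    (hcomm : ∀ x y, T U ψ ρ x * T U ψ ρ y = T U ψ ρ y * T U ψ ρ x) {w₁ w₂ : V}
    (hw₁ : eps U ψ ρ w₁ = w₁) (hw₂ : eps U ψ ρ w₂ = w₂) (hne : w₁ ≠ 0) : ∃ c : ℂ, c • w₁ = w₂ := by
  have hV : Nontrivial V := nontrivial_of_isIrreducible hρ
  have hd : (finrank ℂ V : ℂ) ≠ 0 := Nat.cast_ne_zero.mpr Module.finrank_pos.ne'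
  obtain ⟨g, hg⟩ : ∃ g : Module.Dual ℂ V, g w₁ ≠ 0 := by
    by_contra hcon
    push Not at hcon
    exact hne ((Module.forall_dual_apply_eq_zero_iff ℂ w₁).mp hcon)
  have hC : Commute (B U ψ ρ w₁ g) (B U ψ ρ w₂ g) := by
    unfold B
    refine Commute.sum_left _ _ _ fun x _ => Commute.sum_right _ _ _ fun y _ => ?_
    exact Commute.smul_left (Commute.smul_right (hcomm x y) _) _
  have h1 : B U ψ ρ w₁ g (B U ψ ρ w₂ g w₁) = B U ψ ρ w₂ g (B U ψ ρ w₁ g w₁) :=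
    LinearMap.congr_fun hC.eq w₁
  rw [B_apply ρ hρ hw₂ g w₁, B_apply ρ hρ hw₁ g w₁, map_smul, map_smul, B_apply ρ hρ hw₁ g w₂,
    B_apply ρ hρ hw₂ g w₁, hw₁, hw₂, smul_smul, smul_smul] at h1
  set C : ℂ := (Nat.card G : ℂ) / finrank ℂ V with hCdef
  have hG : (Nat.card G : ℂ) ≠ 0 := Nat.cast_ne_zero.mpr Nat.card_pos.ne'
  have hCne : C ≠ 0 := div_ne_zero hG hd
  have e1 : ∀ a : ℂ, (Nat.card G : ℂ) * a / finrank ℂ V = C * a := by
    intro a
    rw [hCdef]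
    ring
  rw [e1, e1] at h1
  refine ⟨g w₂ / g w₁, ?_⟩
  have hne2 : C * g w₁ * C * g w₁ ≠ 0 :=
    mul_ne_zero (mul_ne_zero (mul_ne_zero hCne hg) hCne) hg
  have h2 : (C * g w₁ * C * g w₁) • ((g w₂ / g w₁) • w₁) = (C * g w₁ * C * g w₁) • w₂ := by
    rw [smul_smul]
    have : C * g w₁ * C * g w₁ * (g w₂ / g w₁) = C * g w₁ * (C * g w₂) := by
      field_simp
    rw [this, h1]
    congr 1
    ring
  exact smul_right_injective V hne2 h2

theorem trace_eps_zero_or_one (h : IsChr U ψ) (ρ : Representation ℂ G V) (hρ : ρ.IsIrreducible)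
    (hcomm : ∀ x y, T U ψ ρ x * T U ψ ρ y = T U ψ ρ y * T U ψ ρ x) :
    LinearMap.trace ℂ V (eps U ψ ρ) = 0 ∨ LinearMap.trace ℂ V (eps U ψ ρ) = 1 := by
  have hid : IsIdempotentElem (eps U ψ ρ) := eps_idem h ρ
  have hP := (LinearMap.isProj_range_iff_isIdempotentElem (eps U ψ ρ)).mpr hid
  rw [hP.trace]
  have hfix : ∀ w ∈ LinearMap.range (eps U ψ ρ), eps U ψ ρ w = w := fun w hw => hP.map_id w hw
  have hle : finrank ℂ (LinearMap.range (eps U ψ ρ)) ≤ 1 := by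
    by_cases hz : ∃ w : LinearMap.range (eps U ψ ρ), w ≠ 0
    · obtain ⟨w₁, hw₁⟩ := hz
      refine finrank_le_one w₁ fun w₂ => ?_
      obtain ⟨c, hc⟩ := mem_span_of_comm ρ hρ hcomm (hfix _ w₁.2) (hfix _ w₂.2)
        (fun h0 => hw₁ (Subtype.ext h0))
      exact ⟨c, Subtype.ext hc⟩
    · push Not at hz
      have : Subsingleton (LinearMap.range (eps U ψ ρ)) :=
        ⟨fun a b => by rw [hz a, hz b]⟩
      rw [finrank_zero_of_subsingleton]
      exact zero_le_one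
  interval_cases hk : finrank ℂ (LinearMap.range (eps U ψ ρ))
  · left; simp
  · right; simp

end Rank

end Op

/-- **Gelfand's trick.** -/
theorem avg_eq_zero_or_one [Finite G] {U : Subgroup G} {ψ : G → ℂ} (h : IsChr U ψ) (τ : G → G)
    (hτ : ∀ x y, τ (x * y) = τ y * τ x) (hττ : ∀ x, τ (τ x) = x) (hτU : ∀ u ∈ U, τ u ∈ U)
    (hτψ : ∀ u ∈ U, ψ (τ u) = ψ u)
    (H : ∀ x : G, (∃ u ∈ U, x⁻¹ * u * x ∈ U ∧ ψ u ≠ ψ (x⁻¹ * u * x)) ∨
      (∃ a ∈ U, ∃ b ∈ U, τ x = a * x * b ∧ ψ a * ψ b = 1))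
    {χ : G → ℂ} (hχ : IsIrrCharacter G χ) : avg U ψ χ = 0 ∨ avg U ψ χ = 1 := by
  classical
  letI := Fintype.ofFinite G
  letI : Fintype U := Fintype.ofFinite U
  obtain ⟨n, ρ, hρ, rfl⟩ := hχ
  have hτ1 : τ 1 = 1 := by
    have h1 : τ 1 = τ 1 * τ 1 := by rw [← hτ, mul_one]
    exact (mul_eq_left.mp h1.symm)
  have hT : ∀ x, T U ψ ρ (τ x) = T U ψ ρ x := by
    intro x
    rcases H x with ⟨u, hu, hv, hne⟩ | ⟨a, ha, b, hb, hx, hab⟩
    · have h0 := T_eq_zero h ρ hu hv hne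
      rw [h0]
      -- transport the witness through `τ`
      have h2 : τ x⁻¹ = (τ x)⁻¹ := by
        rw [eq_inv_iff_mul_eq_one, ← hτ, mul_inv_cancel, hτ1]
      have h3 : (τ x)⁻¹ * τ (x⁻¹ * u * x) * τ x = τ u := by
        rw [hτ, hτ, h2]
        group
      refine T_eq_zero h ρ (u := τ (x⁻¹ * u * x)) (hτU _ hv) ?_ ?_
      · rw [h3]
        exact hτU _ hu
      · rw [h3, hτψ _ hv, hτψ _ hu]
        exact hne.symm
    · rw [hx, T_right h ρ hb, T_left h ρ ha, smul_smul, mul_comm, hab, one_smul]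
  have hcomm := T_comm h ρ τ hτ hττ hτU hτψ hT
  rw [← trace_eps (U := U) (ψ := ψ) ρ]
  exact trace_eps_zero_or_one h ρ hρ hcomm

section Sum

variable {U : Subgroup G} {ψ : G → ℂ}

theorem IsChr.conj_invariant (h : IsChr U ψ) {a u : G} (ha : a ∈ U) (hu : u ∈ U) :
    ψ (a * u * a⁻¹) = ψ u := by
  have h1 : a * u ∈ U := U.mul_mem ha hu
  rw [h.mul _ h1 _ (U.inv_mem ha), h.mul _ ha _ hu, mul_comm (ψ a), mul_assoc, mul_comm (ψ a),
    h.inv ha, mul_one]

variable [Fintype U]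

open Classical in
/-- The double coset function. -/
noncomputable def J (U : Subgroup G) (ψ : G → ℂ) [Fintype U] (x : G) : ℂ :=
  ∑ p : U × U, if x * (p.2 : G) * x⁻¹ = (p.1 : G) then conj (ψ (p.1 : G)) * ψ (p.2 : G) else 0

open Classical in
theorem J_bi (h : IsChr U ψ) {a b : G} (ha : a ∈ U) (hb : b ∈ U) (x : G) :
    J U ψ (a * x * b) = J U ψ x := by
  unfold J
  let a' : U := ⟨a, ha⟩
  let b' : U := ⟨b, hb⟩
  rw [← Equiv.sum_comp (Equiv.prodCongr (MulAut.conj a').toEquiv (MulAut.conj b'⁻¹).toEquiv)]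
  refine Finset.sum_congr rfl fun p _ => ?_
  have e1 : (((Equiv.prodCongr (MulAut.conj a').toEquiv (MulAut.conj b'⁻¹).toEquiv) p).1 : G)
      = a * (p.1 : G) * a⁻¹ := rfl
  have e2 : (((Equiv.prodCongr (MulAut.conj a').toEquiv (MulAut.conj b'⁻¹).toEquiv) p).2 : G)
      = b⁻¹ * (p.2 : G) * b := by
    simp [Equiv.prodCongr_apply, a', b']
  rw [e1, e2, h.conj_invariant ha p.1.2]
  have e3 : ψ (b⁻¹ * (p.2 : G) * b) = ψ (p.2 : G) := by
    have := h.conj_invariant (U.inv_mem hb) p.2.2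
    rwa [inv_inv] at this
  rw [e3]
  have e4 : a * x * b * (b⁻¹ * (p.2 : G) * b) * (a * x * b)⁻¹ = a * (x * (p.2 : G) * x⁻¹) * a⁻¹ := by
    group
  rw [e4]
  have e5 : a * (x * (p.2 : G) * x⁻¹) * a⁻¹ = a * (p.1 : G) * a⁻¹ ↔ x * (p.2 : G) * x⁻¹ = (p.1 : G) := by
    constructor
    · intro h0
      have := mul_right_cancel h0
      exact mul_left_cancel this
    · intro h0
      rw [h0]
  simp only [e5]

open Classical in
theorem J_adm (h : IsChr U ψ) {r : G}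
    (hA : ∀ u ∈ U, r⁻¹ * u * r ∈ U → ψ u = ψ (r⁻¹ * u * r)) :
    J U ψ r = (Nat.card {p : U × U // r * (p.2 : G) * r⁻¹ = (p.1 : G)} : ℂ) := by
  unfold J
  have h1 : ∀ p : U × U, (if r * (p.2 : G) * r⁻¹ = (p.1 : G) then conj (ψ (p.1 : G)) * ψ (p.2 : G) else 0)
      = if r * (p.2 : G) * r⁻¹ = (p.1 : G) then (1 : ℂ) else 0 := by
    intro p
    split_ifs with hp
    · have e : r⁻¹ * (p.1 : G) * r = (p.2 : G) := by rw [← hp]; group
      have := hA _ p.1.2 (by rw [e]; exact p.2.2)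
      rw [e] at this
      rw [← this, h.conj_mul p.1.2]
    · rfl
  rw [Finset.sum_congr rfl fun p _ => h1 p, Nat.card_eq_fintype_card, Fintype.card_subtype]
  rw [Finset.sum_boole]

open Classical in
theorem J_nonadm (h : IsChr U ψ) {r u : G} (hu : u ∈ U) (hv : r⁻¹ * u * r ∈ U)
    (hne : ψ u ≠ ψ (r⁻¹ * u * r)) : J U ψ r = 0 := by
  let p₀ : U × U := (⟨u, hu⟩, ⟨r⁻¹ * u * r, hv⟩)
  set κ : ℂ := conj (ψ u) * ψ (r⁻¹ * u * r) with hκ
  have hκ1 : κ ≠ 1 := by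
    intro h1
    apply hne
    have := congrArg (fun z => ψ u * z) h1
    simp only [hκ] at this
    rw [← mul_assoc, mul_comm (ψ u), h.conj_mul hu, one_mul, mul_one] at this
    exact this.symm
  have h2 : J U ψ r = κ * J U ψ r := by
    unfold J
    conv_lhs => rw [← Equiv.sum_comp (Equiv.mulLeft p₀)]
    rw [Finset.mul_sum]
    refine Finset.sum_congr rfl fun p _ => ?_
    have e1 : (((Equiv.mulLeft p₀) p).1 : G) = u * (p.1 : G) := rfl
    have e2 : (((Equiv.mulLeft p₀) p).2 : G) = (r⁻¹ * u * r) * (p.2 : G) := rfl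
    rw [e1, e2]
    have e3 : r * ((r⁻¹ * u * r) * (p.2 : G)) * r⁻¹ = u * (r * (p.2 : G) * r⁻¹) := by group
    rw [e3]
    have e4 : u * (r * (p.2 : G) * r⁻¹) = u * (p.1 : G) ↔ r * (p.2 : G) * r⁻¹ = (p.1 : G) := mul_right_inj u
    simp only [e4]
    split_ifs with hp
    · rw [h.mul _ hu _ p.1.2, h.mul _ hv _ p.2.2, map_mul]
      simp only [hκ]
      ring
    · rw [mul_zero]
  have h3 : (1 - κ) * J U ψ r = 0 := by
    rw [sub_mul, one_mul, ← h2, sub_self]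
  exact (mul_eq_zero.mp h3).resolve_left (sub_ne_zero.mpr hκ1.symm)

open Classical in
/-- All the fibres of `(a, b) ↦ a r b` over a point of the double coset have the same size. -/
theorem card_fiber (r : G) {a₀ b₀ : G} (ha₀ : a₀ ∈ U) (hb₀ : b₀ ∈ U) :
    Nat.card {p : U × U // (p.1 : G) * r * (p.2 : G) = a₀ * r * b₀} =
      Nat.card {p : U × U // r * (p.2 : G) * r⁻¹ = (p.1 : G)} := by
  refine Nat.card_congr ⟨fun p => ⟨(⟨a₀⁻¹ * p.1.1, U.mul_mem (U.inv_mem ha₀) p.1.1.2⟩,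
      ⟨b₀ * (p.1.2 : G)⁻¹, U.mul_mem hb₀ (U.inv_mem p.1.2.2)⟩), ?_⟩,
      fun p => ⟨(⟨a₀ * p.1.1, U.mul_mem ha₀ p.1.1.2⟩,
      ⟨(p.1.2 : G)⁻¹ * b₀, U.mul_mem (U.inv_mem p.1.2.2) hb₀⟩), ?_⟩, ?_, ?_⟩
  · obtain ⟨⟨⟨x, hx⟩, ⟨y, hy⟩⟩, hp⟩ := p
    simp only at hp ⊢
    have e : x = a₀ * r * b₀ * y⁻¹ * r⁻¹ := by
      rw [← hp]; group
    rw [e]; group
  · obtain ⟨⟨⟨x, hx⟩, ⟨y, hy⟩⟩, hp⟩ := p
    simp only at hp ⊢
    rw [← hp]; group
  · intro p
    apply Subtype.ext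
    apply Prod.ext <;> apply Subtype.ext <;> simp
  · intro p
    apply Subtype.ext
    apply Prod.ext <;> apply Subtype.ext <;> simp

open Classical in
/-- `|U r U| · s(r) = |U|²`. -/
theorem card_dc_mul [Finite G] (r : G) :
    Nat.card {x : G // ∃ a ∈ U, ∃ b ∈ U, x = a * r * b} *
        Nat.card {p : U × U // r * (p.2 : G) * r⁻¹ = (p.1 : G)} =
      Nat.card U * Nat.card U := by
  letI := Fintype.ofFinite G
  have h1 : Nat.card (U × U) = ∑ x : G, Nat.card {p : U × U // (p.1 : G) * r * (p.2 : G) = x} := by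
    rw [Nat.card_eq_fintype_card, ← Finset.card_univ]
    have := Finset.card_eq_sum_card_fiberwise (s := (Finset.univ : Finset (U × U)))
      (t := (Finset.univ : Finset G)) (f := fun p : U × U => (p.1 : G) * r * (p.2 : G))
      (fun _ _ => Finset.mem_coe.mpr (Finset.mem_univ _))
    rw [this]
    refine Finset.sum_congr rfl fun x _ => ?_
    rw [Nat.card_eq_fintype_card, Fintype.card_subtype]
  have h2 : ∀ x : G, Nat.card {p : U × U // (p.1 : G) * r * (p.2 : G) = x} =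
      if (∃ a ∈ U, ∃ b ∈ U, x = a * r * b) then
        Nat.card {p : U × U // r * (p.2 : G) * r⁻¹ = (p.1 : G)} else 0 := by
    intro x
    split_ifs with hx
    · obtain ⟨a, ha, b, hb, rfl⟩ := hx
      exact card_fiber r ha hb
    · have : IsEmpty {p : U × U // (p.1 : G) * r * (p.2 : G) = x} := by
        refine ⟨fun p => hx ⟨p.1.1, p.1.1.2, p.1.2, p.1.2.2, p.2.symm⟩⟩
      exact Nat.card_of_isEmpty
  rw [Finset.sum_congr rfl fun x _ => h2 x, Finset.sum_ite, Finset.sum_const, Finset.sum_const_zero,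
    add_zero, smul_eq_mul, Nat.card_prod] at h1
  rw [h1, Nat.card_eq_fintype_card (α := {x : G // ∃ a ∈ U, ∃ b ∈ U, x = a * r * b}),
    Fintype.card_subtype]

open Classical in
/-- `∑_χ χ(u) conj χ(v)` as a count of conjugators. -/
theorem sum_irr_count [Fintype G] [Fintype (IrrCharacter G)] (u v : G) :
    ∑ χ : IrrCharacter G, (χ : G → ℂ) u * conj ((χ : G → ℂ) v) =
      ∑ x : G, if x * v * x⁻¹ = u then (1 : ℂ) else 0 := by
  rw [sum_irr_mul_conj, Finset.sum_boole]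
  split_ifs with hc
  · have := Cfsg.Agent.Lib.Char.ClassSum.card_conjugators (a := v) (g := u) hc.symm
    rw [← this, Nat.card_eq_fintype_card, Fintype.card_subtype]
  · rw [eq_comm, Nat.cast_eq_zero, Finset.card_eq_zero, Finset.filter_eq_empty_iff]
    intro x _ hx
    apply hc
    rw [isConj_comm, isConj_iff]
    exact ⟨x, hx⟩

open Classical in
theorem sum_avg_eq [Fintype G] [Fintype (IrrCharacter G)] :
    ∑ χ : IrrCharacter G, avg U ψ χ.1 * conj (avg U ψ χ.1) =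
      (Nat.card U : ℂ)⁻¹ * (Nat.card U : ℂ)⁻¹ * ∑ x : G, J U ψ x := by
  have h1 : ∀ χ : IrrCharacter G, avg U ψ χ.1 * conj (avg U ψ χ.1) =
      (Nat.card U : ℂ)⁻¹ * (Nat.card U : ℂ)⁻¹ * ∑ p : U × U, conj (ψ (p.1 : G)) * ψ (p.2 : G) *
        (χ.1 (p.1 : G) * conj (χ.1 (p.2 : G))) := by
    intro χ
    rw [avg_eq, map_mul, map_inv₀, Complex.conj_natCast, map_sum, Fintype.sum_prod_type]
    simp only [map_mul, Complex.conj_conj]
    rw [mul_mul_mul_comm, Finset.sum_mul_sum]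
    congr 1
    refine Finset.sum_congr rfl fun u _ => Finset.sum_congr rfl fun v _ => ?_
    ring
  rw [Finset.sum_congr rfl fun χ _ => h1 χ, ← Finset.mul_sum]
  congr 1
  rw [Finset.sum_comm]
  unfold J
  rw [Finset.sum_comm (s := (Finset.univ : Finset G))]
  refine Finset.sum_congr rfl fun p _ => ?_
  rw [← Finset.mul_sum, sum_irr_count, Finset.mul_sum]
  refine Finset.sum_congr rfl fun x _ => ?_
  split_ifs <;> simp

/-- **The dimension of the Hecke algebra.** -/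
theorem sum_avg_mul_conj [Finite G] (h : IsChr U ψ) {R : Type*} [Finite R] (r : R → G) (A : R → Prop)
    (hex : ∀ x : G, ∃ a ∈ U, ∃ b ∈ U, ∃ i, x = a * r i * b)
    (huniq : ∀ a ∈ U, ∀ b ∈ U, ∀ a' ∈ U, ∀ b' ∈ U, ∀ i j,
      a * r i * b = a' * r j * b' → i = j)
    (hA : ∀ i, A i → ∀ u ∈ U, (r i)⁻¹ * u * r i ∈ U → ψ u = ψ ((r i)⁻¹ * u * r i))
    (hnA : ∀ i, ¬ A i → ∃ u ∈ U, (r i)⁻¹ * u * r i ∈ U ∧ ψ u ≠ ψ ((r i)⁻¹ * u * r i)) :
    ∑ᶠ χ : IrrCharacter G, avg U ψ χ.1 * conj (avg U ψ χ.1) = (Nat.card {i // A i} : ℂ) := by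
  classical
  letI := Fintype.ofFinite G
  letI : Fintype (IrrCharacter G) := @Fintype.ofFinite _ finite_irrCharacter
  letI := Fintype.ofFinite R
  rw [finsum_eq_sum_of_fintype, sum_avg_eq]
  choose! a ha b hb cls hcls using hex
  have hcard : (Nat.card U : ℂ) ≠ 0 := card_ne_zero_C
  have h1 : ∀ x : G, J U ψ x = J U ψ (r (cls x)) := by
    intro x
    conv_lhs => rw [hcls x]
    exact J_bi h (ha x) (hb x) _
  have h2 : ∀ i : R, (Finset.univ.filter fun x : G => cls x = i).card =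
      Nat.card {x : G // ∃ a ∈ U, ∃ b ∈ U, x = a * r i * b} := by
    intro i
    rw [Nat.card_eq_fintype_card, Fintype.card_subtype]
    congr 1
    ext x
    simp only [Finset.mem_filter, Finset.mem_univ, true_and]
    constructor
    · rintro rfl
      exact ⟨a x, ha x, b x, hb x, hcls x⟩
    · rintro ⟨a', ha', b', hb', hx⟩
      have := huniq _ (ha x) _ (hb x) _ ha' _ hb' (cls x) i (by rw [← hcls x, hx])
      exact this
  have h3 : ∑ x : G, J U ψ x = ∑ i : R, ((Nat.card {x : G // ∃ a ∈ U, ∃ b ∈ U, x = a * r i * b} : ℂ) *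
      J U ψ (r i)) := by
    rw [← Finset.sum_fiberwise (s := Finset.univ) (g := cls)]
    refine Finset.sum_congr rfl fun i _ => ?_
    rw [Finset.sum_congr rfl (g := fun _ => J U ψ (r i))]
    · rw [Finset.sum_const, ← h2, nsmul_eq_mul]
    · intro x hx
      rw [h1 x, (Finset.mem_filter.mp hx).2]
  have h4 : ∀ i : R, (Nat.card {x : G // ∃ a ∈ U, ∃ b ∈ U, x = a * r i * b} : ℂ) * J U ψ (r i) =
      if A i then (Nat.card U : ℂ) * Nat.card U else 0 := by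
    intro i
    split_ifs with hi
    · rw [J_adm h (hA i hi), ← Nat.cast_mul, card_dc_mul, Nat.cast_mul]
    · obtain ⟨u, hu, hv, hne⟩ := hnA i hi
      rw [J_nonadm h hu hv hne, mul_zero]
  rw [h3, Finset.sum_congr rfl fun i _ => h4 i, Finset.sum_ite, Finset.sum_const, Finset.sum_const_zero,
    add_zero, nsmul_eq_mul, Nat.card_eq_fintype_card (α := {i // A i}), Fintype.card_subtype]
  field_simp

end Sum

end Cfsg.Agent.Lib.GLH.HeckeGen
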