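import Cfsg.Agent.Lib.GLH.Defs
import Cfsg.Agent.Lib.GLH.Ev
import Mathlib.LinearAlgebra.Matrix.Block
import Mathlib.LinearAlgebra.Matrix.NonsingularInverse
import Mathlib.LinearAlgebra.Dimension.Finrank
import Mathlib.LinearAlgebra.FiniteDimensional.Lemmas
import Mathlib.LinearAlgebra.Dual.Lemmas
import Mathlib.GroupTheory.GroupAction.Quotient

/-!
# Rodier's computation, first part: the Whittaker sum over invariant subspaces.

Basic facts on `U n`, the function `tau`, the sum `T W`, and vanishing of `T W` when a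
"jump" exists.
-/

set_option autoImplicit false
set_option linter.unusedSectionVars false
set_option linter.style.haveILetI false

namespace Cfsg.Agent.Lib.GLH.RodierA

open Matrix Module Cfsg.Agent.Lib.GLH.Defs Cfsg.Agent.Lib.GLH.Ev
open scoped ComplexConjugate

universe u

variable {F : Type u} [Field F]

/-- Unitriangular matrices are invertible. -/
lemma isUnit_of_isU {n : ℕ} {M : Matrix (Fin n) (Fin n) F} (h : IsU M) : IsUnit M := by
  have htri : M.BlockTriangular id := by
    intro i j hij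
    have hji : j < i := hij
    rw [h i j hji.le, Matrix.one_apply_ne hji.ne']
  have hdet : M.det = 1 := by
    rw [Matrix.det_of_upperTriangular htri]
    apply Finset.prod_eq_one
    intro i _
    rw [h i i le_rfl, Matrix.one_apply_eq]
  rw [Matrix.isUnit_iff_isUnit_det, hdet]
  exact isUnit_one

lemma sup_mul {n : ℕ} {g h : Matrix (Fin n) (Fin n) F} (hg : IsU g) (hh : IsU h) :
    sup (g * h) = sup g + sup h := by
  classical
  unfold sup
  rw [← Finset.sum_add_distrib]
  apply Finset.sum_congr rfl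
  intro i _
  by_cases hi : i.val + 1 < n
  · simp only [dif_pos hi]
    set i' : Fin n := ⟨i.val + 1, hi⟩ with hi'
    have hlt : i < i' := by simp [Fin.lt_def, hi']
    rw [Matrix.mul_apply, Finset.sum_eq_add i i' hlt.ne]
    · rw [hg i i le_rfl, hh i' i' le_rfl]; simp; ring
    · intro k _ hk
      rcases lt_or_gt_of_ne hk.1 with hk1 | hk1
      · rw [hg i k hk1.le, Matrix.one_apply_ne hk1.ne', zero_mul]
      · have hk2 : i' < k := by
          rcases lt_or_gt_of_ne hk.2 with h2 | h2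
          · exfalso
            have h1 : i.val < k.val := hk1
            have h3 : k.val < i.val + 1 := h2
            omega
          · exact h2
        rw [hh k i' hk2.le, Matrix.one_apply_ne hk2.ne', mul_zero]
    · simp
    · simp
  · simp [dif_neg hi]

lemma sup_one {n : ℕ} : sup (1 : Matrix (Fin n) (Fin n) F) = 0 := by
  classical
  unfold sup
  apply Finset.sum_eq_zero
  intro i _
  split_ifs with h
  · rw [Matrix.one_apply_ne]
    intro hh
    have := congrArg Fin.val hh
    simp at this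
  · rfl

lemma psi_mul (ψ₀ : AddChar F ℂ) {n : ℕ} {g h : Matrix (Fin n) (Fin n) F} (hg : IsU g)
    (hh : IsU h) : psi ψ₀ (g * h) = psi ψ₀ g * psi ψ₀ h := by
  unfold psi
  rw [sup_mul hg hh, AddChar.map_add_eq_mul]

lemma psi_one (ψ₀ : AddChar F ℂ) {n : ℕ} : psi ψ₀ (1 : Matrix (Fin n) (Fin n) F) = 1 := by
  unfold psi
  rw [sup_one, AddChar.map_zero_eq_one]

section

variable [Fintype F]

/-- An element of `U n` from a unitriangular matrix. -/
noncomputable def mkU {n : ℕ} (M : Matrix (Fin n) (Fin n) F) (h : IsU M) : U (F := F) n :=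
  ⟨(isUnit_of_isU h).unit, h⟩

@[simp] lemma mkU_coe {n : ℕ} (M : Matrix (Fin n) (Fin n) F) (h : IsU M) :
    (((mkU M h : U (F := F) n) : GL (Fin n) F) : Matrix (Fin n) (Fin n) F) = M := rfl

/-- The matrix of an element of `U`. -/
abbrev mat {n : ℕ} (u : U (F := F) n) : Matrix (Fin n) (Fin n) F :=
  ((u : GL (Fin n) F) : Matrix (Fin n) (Fin n) F)

lemma isU_mat {n : ℕ} (u : U (F := F) n) : IsU (mat u) := u.2

@[simp] lemma mat_mul {n : ℕ} (u v : U (F := F) n) : mat (u * v) = mat u * mat v := rfl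

@[simp] lemma mat_one {n : ℕ} : mat (1 : U (F := F) n) = 1 := rfl

lemma mat_mul_inv {n : ℕ} (u : U (F := F) n) : mat u * mat u⁻¹ = 1 := by
  rw [← mat_mul, mul_inv_cancel, mat_one]

lemma mat_inv_mul {n : ℕ} (u : U (F := F) n) : mat u⁻¹ * mat u = 1 := by
  rw [← mat_mul, inv_mul_cancel, mat_one]

lemma psi_mat_mul_inv (ψ₀ : AddChar F ℂ) {n : ℕ} (g v : U (F := F) n) :
    psi ψ₀ (mat (g * v * g⁻¹)) = psi ψ₀ (mat v) := by
  rw [mat_mul, psi_mul ψ₀ (isU_mat (g * v)) (isU_mat g⁻¹), mat_mul, psi_mul ψ₀ (isU_mat g) (isU_mat v)]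
  have h : psi ψ₀ (mat g) * psi ψ₀ (mat g⁻¹) = 1 := by
    rw [← psi_mul ψ₀ (isU_mat g) (isU_mat g⁻¹), mat_mul_inv, psi_one]
  calc psi ψ₀ (mat g) * psi ψ₀ (mat v) * psi ψ₀ (mat g⁻¹)
      = (psi ψ₀ (mat g) * psi ψ₀ (mat g⁻¹)) * psi ψ₀ (mat v) := by ring
    _ = psi ψ₀ (mat v) := by rw [h, one_mul]

noncomputable instance fintypeU {n : ℕ} : Fintype (U (F := F) n) := Fintype.ofFinite _

noncomputable instance fintypeSub {n : ℕ} : Fintype (Submodule F (Fin n → F)) :=
  haveI := finite_submodule (F := F) (V := Fin n → F)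
  Fintype.ofFinite _

end

section tau

variable {V V' : Type u} [AddCommGroup V] [Module F V] [Module.Finite F V]
  [AddCommGroup V'] [Module F V'] [Module.Finite F V']

open Classical in
/-- The summand of the Hall product, zero when `W` is not invariant. -/
noncomputable def tauL (Φ Ψ : Fam F) (W : Submodule F V) (g : V →ₗ[F] V) : ℂ :=
  if h : W ≤ W.comap g then
    ev Φ W (g.restrict h) * ev Ψ (V ⧸ W) (W.mapQ W g h)
  else 0

lemma tauL_congr (Φ Ψ : Fam F) (W : Submodule F V) {g g' : V →ₗ[F] V}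
    (h1 : ∀ v ∈ W, g v = g' v) (h2 : ∀ v, g v - g' v ∈ W) : tauL Φ Ψ W g = tauL Φ Ψ W g' := by
  classical
  unfold tauL
  by_cases h : W ≤ W.comap g
  · have h' : W ≤ W.comap g' := by
      intro v hv
      have := h hv
      simp only [Submodule.mem_comap] at this ⊢
      rw [← h1 v hv]; exact this
    rw [dif_pos h, dif_pos h']
    have e1 : g.restrict h = g'.restrict h' := by
      ext v
      simp [h1 v.1 v.2]
    have e2 : W.mapQ W g h = W.mapQ W g' h' := by
      ext v
      simp only [LinearMap.coe_comp, Function.comp_apply, Submodule.mkQ_apply, Submodule.mapQ_apply]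
      rw [Submodule.Quotient.eq]
      exact h2 v
    rw [e1, e2]
  · have h' : ¬ W ≤ W.comap g' := by
      intro hh
      apply h
      intro v hv
      have := hh hv
      simp only [Submodule.mem_comap] at this ⊢
      rw [h1 v hv]; exact this
    rw [dif_neg h, dif_neg h']

lemma tauL_equiv {Φ Ψ : Fam F} (hΦ : IsCl Φ) (hΨ : IsCl Ψ) (W : Submodule F V) (e : V ≃ₗ[F] V')
    (g : V →ₗ[F] V) (h : V' →ₗ[F] V') (he : ∀ v, e (g v) = h (e v)) :
    tauL Φ Ψ (W.map (e : V →ₗ[F] V')) h = tauL Φ Ψ W g := by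
  classical
  unfold tauL
  by_cases hW : W ≤ W.comap g
  · have hW' : W.map (e : V →ₗ[F] V') ≤ (W.map (e : V →ₗ[F] V')).comap h := by
      rintro _ ⟨x, hx, rfl⟩
      exact ⟨g x, hW hx, he x⟩
    rw [dif_pos hW, dif_pos hW']
    congr 1
    · symm
      refine ev_congr hΦ (e.submoduleMap W) _ _ ?_
      intro v
      apply Subtype.ext
      simp [he]
    · symm
      refine ev_congr hΨ (Submodule.Quotient.equiv W (W.map (e : V →ₗ[F] V')) e rfl) _ _ ?_
      intro v
      induction v using Submodule.Quotient.induction_on with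
      | H x => simp [he]
  · have hW' : ¬ W.map (e : V →ₗ[F] V') ≤ (W.map (e : V →ₗ[F] V')).comap h := by
      intro hh
      apply hW
      intro x hx
      have := hh ⟨x, hx, rfl⟩
      simp only [Submodule.mem_comap] at this ⊢
      obtain ⟨y, hy, hxy⟩ := this
      have hxy' : e y = h (e x) := hxy
      rw [← he] at hxy'
      rw [← e.injective hxy']
      exact hy
    rw [dif_neg hW, dif_neg hW']

end tau

section T

variable [Fintype F]

/-- The sum over the stabilizer of `W` in `U`. -/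
noncomputable def T (ψ₀ : AddChar F ℂ) (Φ Ψ : Fam F) {n : ℕ} (W : Submodule F (Fin n → F)) : ℂ :=
  ∑ u : U (F := F) n, conj (psi ψ₀ (mat u)) * tauL Φ Ψ W (Matrix.toLin' (mat u))

/-- Swap the two sums. -/
theorem whitF_hall_eq (ψ₀ : AddChar F ℂ) (Φ Ψ : Fam F) (n : ℕ) :
    whitF ψ₀ n (hall Φ Ψ) = (Nat.card (U (F := F) n) : ℂ)⁻¹ *
      ∑ W : Submodule F (Fin n → F), T ψ₀ Φ Ψ W := by
  classical
  unfold whitF whit
  rw [finsum_eq_sum_of_fintype]
  congr 1
  unfold T
  rw [Finset.sum_comm]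
  apply Finset.sum_congr rfl
  intro u _
  rw [← Finset.mul_sum]
  congr 1
  show pev Φ Ψ (Fin n → F) (Matrix.toLin' (mat u)) = _
  rw [pev_eq_sum]
  unfold tauL
  rw [← Finset.sum_filter_add_sum_filter_not Finset.univ
    (fun W : Submodule F (Fin n → F) => W ≤ W.comap (Matrix.toLin' (mat u)))]
  have h0 : ∑ W ∈ Finset.univ.filter
      (fun W : Submodule F (Fin n → F) => ¬ W ≤ W.comap (Matrix.toLin' (mat u))),
      (if h : W ≤ W.comap (Matrix.toLin' (mat u)) then
        ev Φ W ((Matrix.toLin' (mat u)).restrict h) *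
          ev Ψ ((Fin n → F) ⧸ W) (W.mapQ W (Matrix.toLin' (mat u)) h) else 0) = 0 := by
    apply Finset.sum_eq_zero
    intro W hW
    rw [dif_neg (Finset.mem_filter.1 hW).2]
  rw [h0, add_zero]
  refine Finset.sum_bij (fun W _ => W.1) ?_ ?_ ?_ ?_
  · intro W _
    exact Finset.mem_filter.2 ⟨Finset.mem_univ _, W.2⟩
  · intro W _ W' _ h
    exact Subtype.ext h
  · intro W hW
    exact ⟨⟨W, (Finset.mem_filter.1 hW).2⟩, Finset.mem_univ _, rfl⟩
  · intro W _
    rw [dif_pos W.2]

lemma tau_mul_right (Φ Ψ : Fam F) {n : ℕ} (W : Submodule F (Fin n → F)) (u x : U (F := F) n)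
    (h1 : ∀ v ∈ W, Matrix.toLin' (mat x) v = v) (h2 : ∀ v, Matrix.toLin' (mat x) v - v ∈ W)
    (h3 : W ≤ W.comap (Matrix.toLin' (mat u)) ∨ True) :
    tauL Φ Ψ W (Matrix.toLin' (mat (u * x))) = tauL Φ Ψ W (Matrix.toLin' (mat u)) := by
  classical
  have hmul : Matrix.toLin' (mat (u * x)) = Matrix.toLin' (mat u) ∘ₗ Matrix.toLin' (mat x) := by
    rw [mat_mul, Matrix.toLin'_mul]
  by_cases hW : W ≤ W.comap (Matrix.toLin' (mat u))
  · apply tauL_congr
    · intro v hv
      rw [hmul, LinearMap.comp_apply, h1 v hv]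
    · intro v
      rw [hmul, LinearMap.comp_apply, ← map_sub]
      exact hW (h2 v)
  · unfold tauL
    have hW' : ¬ W ≤ W.comap (Matrix.toLin' (mat (u * x))) := by
      intro hh
      apply hW
      intro v hv
      have := hh hv
      simp only [Submodule.mem_comap] at this ⊢
      rw [hmul, LinearMap.comp_apply, h1 v hv] at this
      exact this
    rw [dif_neg hW, dif_neg hW']

/-- If `x ∈ U` acts trivially on `W` and on `V / W`, with `psi x ≠ 1`, then `T W = 0`. -/
theorem T_eq_zero_of_trivial (ψ₀ : AddChar F ℂ) (Φ Ψ : Fam F) {n : ℕ}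
    (W : Submodule F (Fin n → F)) (x : U (F := F) n)
    (h1 : ∀ v ∈ W, Matrix.toLin' (mat x) v = v) (h2 : ∀ v, Matrix.toLin' (mat x) v - v ∈ W)
    (hx : psi ψ₀ (mat x) ≠ 1) : T ψ₀ Φ Ψ W = 0 := by
  classical
  have key : T ψ₀ Φ Ψ W = conj (psi ψ₀ (mat x)) * T ψ₀ Φ Ψ W := by
    conv_lhs => unfold T
    rw [← Equiv.sum_comp (Equiv.mulRight x)]
    unfold T
    rw [Finset.mul_sum]
    apply Finset.sum_congr rfl
    intro u _
    simp only [Equiv.coe_mulRight]
    rw [tau_mul_right Φ Ψ W u x h1 h2 (Or.inr trivial), mat_mul,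
      psi_mul ψ₀ (isU_mat u) (isU_mat x), map_mul]
    ring
  have hne : conj (psi ψ₀ (mat x)) ≠ 1 := by
    intro h
    apply hx
    have := congrArg conj h
    simpa using this
  have h0 : (1 - conj (psi ψ₀ (mat x))) * T ψ₀ Φ Ψ W = 0 := by
    rw [sub_mul, one_mul, ← key, sub_self]
  rcases mul_eq_zero.1 h0 with h | h
  · exact absurd (sub_eq_zero.1 h).symm hne
  · exact h

/-- The action of `U` on subspaces preserves `T`. -/
theorem T_map {Φ Ψ : Fam F} (hΦ : IsCl Φ) (hΨ : IsCl Ψ) (ψ₀ : AddChar F ℂ) {n : ℕ}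
    (W : Submodule F (Fin n → F)) (g : U (F := F) n) :
    T ψ₀ Φ Ψ (W.map (Matrix.toLin' (mat g))) = T ψ₀ Φ Ψ W := by
  classical
  unfold T
  rw [← Equiv.sum_comp (MulAut.conj g).toEquiv]
  apply Finset.sum_congr rfl
  intro v _
  simp only [MulEquiv.toEquiv_eq_coe, EquivLike.coe_coe, MulAut.conj_apply]
  rw [psi_mat_mul_inv]
  congr 1
  let e : (Fin n → F) ≃ₗ[F] (Fin n → F) := Matrix.toLin'OfInv (mat_inv_mul g) (mat_mul_inv g)
  have he : (e : (Fin n → F) →ₗ[F] (Fin n → F)) = Matrix.toLin' (mat g) :=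
    LinearMap.ext fun _ => rfl
  rw [← he]
  apply tauL_equiv hΦ hΨ
  intro w
  show Matrix.toLin' (mat g) _ = Matrix.toLin' (mat (g * v * g⁻¹)) (Matrix.toLin' (mat g) w)
  simp only [Matrix.toLin'_apply, Matrix.mulVec_mulVec]
  congr 1
  rw [mat_mul, mat_mul, Matrix.mul_assoc, Matrix.mul_assoc, mat_inv_mul, Matrix.mul_one]

end T

end Cfsg.Agent.Lib.GLH.RodierA
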