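import Cfsg.Agent.Lib.GLH.Defs
import Cfsg.Agent.Lib.GLH.MonDefs
import Cfsg.Agent.Lib.GLH.AdmCount
import Cfsg.Agent.Lib.GLH.RodierA
import Cfsg.Agent.Lib.GLH.Bruhat

/-!
# Compatibility of the Whittaker character with the monomial double cosets.
-/

set_option autoImplicit false
set_option linter.unusedSectionVars false

namespace Cfsg.Agent.Lib.GLH.MonCompat

open Matrix Cfsg.Agent.Lib.GLH.Defs Cfsg.Agent.Lib.GLH.MonDefs Cfsg.Agent.Lib.GLH.AdmCount

universe u

variable {F : Type u} [Field F] {n : ℕ}

theorem psi_mul (ψ₀ : AddChar F ℂ) {u v : Matrix (Fin n) (Fin n) F} (hu : IsU u) (hv : IsU v) :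
    psi ψ₀ (u * v) = psi ψ₀ u * psi ψ₀ v :=
  RodierA.psi_mul ψ₀ hu hv

lemma isU_tauMat {g : Matrix (Fin n) (Fin n) F} (h : IsU g) : IsU (tauMat g) := by
  intro i j hji
  simp only [tauMat]
  rw [h (Fin.rev j) (Fin.rev i) (Fin.rev_le_rev.mpr hji)]
  simp only [Matrix.one_apply, Fin.rev_inj]
  simp [eq_comm]

/-- `sup` as a sum over the positions of the first superdiagonal. -/
lemma sup_succ {m : ℕ} (g : Matrix (Fin (m + 1)) (Fin (m + 1)) F) :
    sup g = ∑ i : Fin m, g i.castSucc i.succ := by
  unfold sup
  rw [Fin.sum_univ_castSucc]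
  simp only [Fin.val_castSucc, Fin.val_last, add_lt_add_iff_right, lt_self_iff_false, dite_false,
    add_zero]
  refine Finset.sum_congr rfl fun i _ => ?_
  rw [dif_pos (by simp)]
  rfl

lemma sup_tauMat (g : Matrix (Fin n) (Fin n) F) : sup (tauMat g) = sup g := by
  cases n with
  | zero => simp [sup]
  | succ m =>
    rw [sup_succ, sup_succ]
    rw [← Equiv.sum_comp (Fin.revPerm : Equiv.Perm (Fin m))]
    refine Finset.sum_congr rfl fun i _ => ?_
    simp only [tauMat, Fin.revPerm_apply]
    congr 1
    · ext; simp [Fin.val_rev]; omega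
    · have := i.isLt
      ext; simp [Fin.val_rev]; omega

section Finite

variable [Fintype F]

theorem tau_mem_U {u : GL (Fin n) F} (hu : u ∈ U (F := F) n) : tau u ∈ U (F := F) n :=
  isU_tauMat hu

theorem psi_tau (ψ₀ : AddChar F ℂ) (u : GL (Fin n) F) (hu : u ∈ U (F := F) n) :
    psi ψ₀ ((tau u : GL (Fin n) F) : Matrix (Fin n) (Fin n) F) =
      psi ψ₀ (u : Matrix (Fin n) (Fin n) F) := by
  simp only [psi, tau_coe, sup_tauMat]

theorem adm_tau {π : Equiv.Perm (Fin n)} {t : Fin n → Fˣ} (h : Adm π t) :
    tau (mon π t : GL (Fin n) F) = mon π t := by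
  apply Units.ext
  ext i j
  simp only [tau_coe, mon_coe, tauMat, monMat]
  by_cases hi : i = π j
  · have h1 : Fin.rev j = π (Fin.rev i) := by
      rw [hi, adm_invol h j]
    have h2 : t (Fin.rev i) = t j := by
      rw [hi, adm_t_invol h j]
    rw [if_pos h1, if_pos hi, h2]
  · have h1 : Fin.rev j ≠ π (Fin.rev i) := by
      intro hc
      apply hi
      have := adm_invol h (Fin.rev i)
      rw [← hc, Fin.rev_rev, Fin.rev_rev] at this
      exact this.symm
    rw [if_neg h1, if_neg hi]

/-- The basic entry relation for `v = m⁻¹ u m`. -/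
lemma conj_entry {π : Equiv.Perm (Fin n)} {t : Fin n → Fˣ} {u : GL (Fin n) F} (r l : Fin n) :
    ((mon π t)⁻¹ * u * mon π t : GL (Fin n) F).val r l * t r =
      (u : Matrix (Fin n) (Fin n) F) (π r) (π l) * t l := by
  classical
  have heq : u * mon π t = mon π t * ((mon π t)⁻¹ * u * mon π t) := by group
  have := congrFun (congrFun (congrArg (fun x : GL (Fin n) F => (x : Matrix (Fin n) (Fin n) F)) heq)
    (π r)) l
  simp only [Units.val_mul (mon π t), mon_coe] at this
  rw [Units.val_mul, Matrix.mul_apply, Matrix.mul_apply, Finset.sum_eq_single (π l),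
    Finset.sum_eq_single r] at this
  · simp only [mon_coe, monMat, if_true] at this
    rw [this, mul_comm]
  · intro k _ hk
    have : π r ≠ π k := fun hc => hk (π.injective hc).symm
    simp [monMat, this]
  · simp
  · intro k _ hk
    simp [monMat, hk]
  · simp

theorem adm_compat (ψ₀ : AddChar F ℂ) {π : Equiv.Perm (Fin n)} {t : Fin n → Fˣ} (h : Adm π t)
    (u : GL (Fin n) F) (hu : u ∈ U (F := F) n)
    (hm : (mon π t)⁻¹ * u * mon π t ∈ U (F := F) n) :
    psi ψ₀ (u : Matrix (Fin n) (Fin n) F) =
      psi ψ₀ (((mon π t)⁻¹ * u * mon π t : GL (Fin n) F) : Matrix (Fin n) (Fin n) F) := by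
  classical
  unfold psi
  congr 1
  set v : GL (Fin n) F := (mon π t)⁻¹ * u * mon π t with hv
  have hU : IsU (u : Matrix (Fin n) (Fin n) F) := hu
  have hV : IsU (v : Matrix (Fin n) (Fin n) F) := hm
  have hrel : ∀ r l, (v : Matrix (Fin n) (Fin n) F) r l * t r =
      (u : Matrix (Fin n) (Fin n) F) (π r) (π l) * t l := conj_entry
  unfold sup
  rw [← Equiv.sum_comp π]
  refine Finset.sum_congr rfl fun k _ => ?_
  by_cases hcase : ∃ h' : (π k).val + 1 < n, (u : Matrix (Fin n) (Fin n) F) (π k) ⟨(π k).val + 1, h'⟩ ≠ 0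
  · -- Case A
    obtain ⟨h', hne⟩ := hcase
    rw [dif_pos h']
    set j : Fin n := π⁻¹ ⟨(π k).val + 1, h'⟩ with hj
    have hπj : π j = ⟨(π k).val + 1, h'⟩ := by simp [hj]
    have hvne : (v : Matrix (Fin n) (Fin n) F) k j ≠ 0 := by
      intro hc
      have := hrel k j
      rw [hc, zero_mul, hπj] at this
      exact (mul_ne_zero hne (t j).ne_zero) this.symm
    have hkj : k < j := by
      by_contra hc
      push Not at hc
      apply hvne
      rw [hV k j hc, Matrix.one_apply_ne]
      intro hkj
      have := congrArg Fin.val hπj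
      rw [← hkj] at this
      simp at this
    have hπlt : π k < π j := by
      rw [hπj, Fin.lt_def]
      simp
    have hv1 := adm_lt_eq h hkj hπlt
    have hjk : j.val = k.val + 1 := by
      rw [hπj] at hv1
      simp only at hv1
      have : k.val < j.val := hkj
      omega
    have hk1 : k.val + 1 < n := hjk ▸ j.isLt
    rw [dif_pos hk1]
    have hjeq : (⟨k.val + 1, hk1⟩ : Fin n) = j := Fin.ext hjk.symm
    have hadm := h k j hjk
    have htt : t k = t j := by
      rcases hadm with hlt | ⟨_, htt⟩
      · exact absurd hlt (not_lt.mpr hπlt.le)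
      · exact htt
    have := hrel k j
    rw [htt, hπj] at this
    rw [hjeq]
    exact (mul_right_cancel₀ (t j).ne_zero this).symm
  · -- Case B
    push Not at hcase
    have hL : (if h : (π k).val + 1 < n then
        (u : Matrix (Fin n) (Fin n) F) (π k) ⟨(π k).val + 1, h⟩ else 0) = 0 := by
      split_ifs with h'
      · exact hcase h'
      · rfl
    rw [hL]
    split_ifs with hk1
    · set j : Fin n := ⟨k.val + 1, hk1⟩ with hj
      have hjv : j.val = k.val + 1 := rfl
      have hrelk := hrel k j
      have hu0 : (u : Matrix (Fin n) (Fin n) F) (π k) (π j) = 0 := by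
        rcases h k j hjv with hlt | ⟨hval, _⟩
        · rw [hU _ _ hlt.le, Matrix.one_apply_ne hlt.ne']
        · have h' : (π k).val + 1 < n := hval ▸ (π j).isLt
          have : π j = ⟨(π k).val + 1, h'⟩ := Fin.ext hval
          rw [this]
          exact hcase h'
      rw [hu0, zero_mul] at hrelk
      exact ((mul_eq_zero.mp hrelk).resolve_right (t k).ne_zero).symm
    · rfl

/-- Elementary matrices `1 + c E_{a,b}`. -/
def el (a b : Fin n) (c : F) : Matrix (Fin n) (Fin n) F :=
  fun x y => (1 : Matrix (Fin n) (Fin n) F) x y + if x = a ∧ y = b then c else 0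

lemma el_isU {a b : Fin n} (hab : a < b) (c : F) : IsU (el a b c) := by
  intro i j hji
  have : ¬ (i = a ∧ j = b) := by
    rintro ⟨rfl, rfl⟩
    exact absurd hji (not_le.mpr hab)
  simp [el, this]

lemma sup_el {a b : Fin n} (hab : a < b) (c : F) :
    sup (el a b c) = if b.val = a.val + 1 then c else 0 := by
  classical
  unfold sup
  have hone : ∀ i : Fin n, ∀ h : i.val + 1 < n,
      (1 : Matrix (Fin n) (Fin n) F) i ⟨i.val + 1, h⟩ = 0 := by
    intro i h
    apply Matrix.one_apply_ne
    intro hh
    have := congrArg Fin.val hh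
    simp at this
  split_ifs with hb
  · rw [Finset.sum_eq_single a]
    · have h : a.val + 1 < n := hb ▸ b.isLt
      have hbeq : (⟨a.val + 1, h⟩ : Fin n) = b := Fin.ext hb.symm
      rw [dif_pos h]
      simp only [el, hone a h, zero_add]
      simp [hbeq]
    · intro i _ hi
      split_ifs with h
      · simp only [el, hone i h, zero_add]
        simp [hi]
      · rfl
    · simp
  · apply Finset.sum_eq_zero
    intro i _
    split_ifs with h
    · simp only [el, hone i h, zero_add]
      rw [if_neg]
      rintro ⟨rfl, rfl⟩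
      exact hb rfl
    · rfl

lemma el_mul_apply (a b : Fin n) (c : F) (M : Matrix (Fin n) (Fin n) F) (x y : Fin n) :
    (el a b c * M) x y = M x y + if x = a then c * M b y else 0 := by
  classical
  rw [Matrix.mul_apply]
  simp only [el, add_mul, Finset.sum_add_distrib]
  congr 1
  · simp [Matrix.one_apply, ite_mul]
  · rw [Finset.sum_eq_single b]
    · by_cases hx : x = a <;> simp [hx]
    · intro k _ hk
      simp [hk]
    · simp

lemma mul_el_apply (a b : Fin n) (c : F) (M : Matrix (Fin n) (Fin n) F) (x y : Fin n) :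
    (M * el a b c) x y = M x y + if y = b then M x a * c else 0 := by
  classical
  rw [Matrix.mul_apply]
  simp only [el, mul_add, Finset.sum_add_distrib]
  congr 1
  · simp [Matrix.one_apply, mul_ite]
  · rw [Finset.sum_eq_single a]
    · by_cases hy : y = b <;> simp [hy]
    · intro k _ hk
      simp [hk]
    · simp

lemma el_conj (π : Equiv.Perm (Fin n)) (t : Fin n → Fˣ) (i j : Fin n) (s : F) :
    el (π i) (π j) (s * t i / t j) * monMat π t = monMat π t * el i j s := by
  classical
  ext x y
  rw [el_mul_apply, mul_el_apply]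
  congr 1
  simp only [monMat, EmbeddingLike.apply_eq_iff_eq]
  by_cases hx : x = π i
  · by_cases hy : y = j
    · subst hx hy
      simp
      field_simp
    · simp [hx, hy]
      intro hc
      exact absurd hc.symm hy
  · by_cases hy : y = j
    · simp [hx, hy]
    · simp [hx, hy]
      

theorem not_adm_witness (ψ₀ : AddChar F ℂ) (hψ : ψ₀ ≠ 1) {π : Equiv.Perm (Fin n)}
    {t : Fin n → Fˣ} (h : ¬ Adm π t) :
    ∃ u ∈ U (F := F) n, (mon π t)⁻¹ * u * mon π t ∈ U (F := F) n ∧
      psi ψ₀ (u : Matrix (Fin n) (Fin n) F) ≠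
        psi ψ₀ (((mon π t)⁻¹ * u * mon π t : GL (Fin n) F) : Matrix (Fin n) (Fin n) F) := by
  classical
  unfold Adm at h
  push Not at h
  obtain ⟨i, j, hj, hnlt, hnl⟩ := h
  have hij : i < j := by
    rw [Fin.lt_def]
    omega
  have hπij : π i < π j := by
    have hne : π j ≠ π i := fun hc => hij.ne (π.injective hc).symm
    exact lt_of_le_of_ne hnlt hne.symm
  -- an element where `ψ₀` is nontrivial
  have hex : ∃ x : F, ψ₀ x ≠ 1 := by
    by_contra hc
    push Not at hc
    apply hψ
    ext x
    simpa using hc x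
  obtain ⟨x, hx⟩ := hex
  -- the scalar
  have key : ∃ s : F, ψ₀ (if (π j).val = (π i).val + 1 then s * t i / t j else 0) ≠ ψ₀ s := by
    by_cases hlink : (π j).val = (π i).val + 1
    · have htne : t i ≠ t j := fun hc => hnl hlink hc
      have hc1 : ((t i : F) / t j - 1) ≠ 0 := by
        intro hc
        apply htne
        have h1 : (t i : F) / t j = 1 := sub_eq_zero.mp hc
        have h2 : (t i : F) = t j := by
          field_simp at h1
          exact h1
        exact Units.ext h2
      refine ⟨x / ((t i : F) / t j - 1), ?_⟩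
      rw [if_pos hlink]
      intro hc
      apply hx
      set c : F := (t i : F) / t j with hcdef
      have h3 : x / (c - 1) * t i / t j = x / (c - 1) + x := by
        have : x / (c - 1) * t i / t j = x / (c - 1) * c := by
          rw [hcdef]; ring
        rw [this]
        field_simp
        ring
      rw [h3, AddChar.map_add_eq_mul] at hc
      have h4 : ψ₀ (x / (c - 1)) ≠ 0 := by
        intro h0
        have : ψ₀ (x / (c - 1)) * ψ₀ (-(x / (c - 1))) = 1 := by
          rw [← AddChar.map_add_eq_mul]
          simp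
        rw [h0, zero_mul] at this
        exact zero_ne_one this
      exact mul_left_cancel₀ h4 (by rw [hc, mul_one])
    · refine ⟨x, ?_⟩
      rw [if_neg hlink, AddChar.map_zero_eq_one]
      exact hx.symm
  obtain ⟨s, hs⟩ := key
  obtain ⟨u, hu, hueq⟩ := Bruhat.exists_U_of_IsU (el_isU hπij (s * t i / t j))
  obtain ⟨v, hv, hveq⟩ := Bruhat.exists_U_of_IsU (el_isU hij s)
  have hrel : (mon π t)⁻¹ * u * mon π t = v := by
    rw [mul_assoc, inv_mul_eq_iff_eq_mul]
    apply Units.ext
    simp only [Units.val_mul, mon_coe, hueq, hveq]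
    exact el_conj π t i j s
  refine ⟨u, hu, by rw [hrel]; exact hv, ?_⟩
  rw [hrel, hueq, hveq]
  unfold psi
  rw [sup_el hπij, sup_el hij, if_pos hj]
  exact hs

end Finite

end Cfsg.Agent.Lib.GLH.MonCompat
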