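import Cfsg.Agent.Lib.GLH.Defs
import Cfsg.Agent.Lib.GLH.MonDefs
import Cfsg.Agent.Lib.GLH.HeckeGen
import Cfsg.Agent.Lib.GLH.Bruhat
import Cfsg.Agent.Lib.GLH.AdmCount
import Cfsg.Agent.Lib.GLH.MonCompat
import Mathlib.Analysis.RCLike.Basic
import Mathlib.FieldTheory.Finite.Basic

/-!
# The Gelfand-Graev character of `GL_n(F)`

`whit_eq_zero_or_one`: multiplicity one; `sum_whit_sq`: the dimension of the Hecke algebra is
`(q - 1) q^(n - 1)`.
-/

set_option autoImplicit false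
set_option linter.unusedSectionVars false
set_option linter.style.haveILetI false

open Matrix Cfsg.Agent.Lib.GLH.Defs Cfsg.Agent.Lib.GLH.MonDefs Cfsg.Agent.Lib.GLH.HeckeGen
open scoped ComplexConjugate

universe u

variable {F : Type u} [Field F] {n : ℕ}

namespace Cfsg.Agent.Lib.GLH.Hecke

open Cfsg.Agent.Lib.GLH.Bruhat Cfsg.Agent.Lib.GLH.AdmCount Cfsg.Agent.Lib.GLH.MonCompat

variable [Fintype F]

/-- `psi` as a function on the group. -/
noncomputable def psiG (ψ₀ : AddChar F ℂ) (n : ℕ) : GL (Fin n) F → ℂ :=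
  fun g => psi ψ₀ (g : Matrix (Fin n) (Fin n) F)

theorem sup_one : sup (1 : Matrix (Fin n) (Fin n) F) = 0 := by
  unfold sup
  refine Finset.sum_eq_zero fun i _ => ?_
  split_ifs with h
  · apply Matrix.one_apply_ne
    intro h0
    have := congrArg Fin.val h0
    simp at this
  · rfl

theorem psiG_mul (ψ₀ : AddChar F ℂ) {u v : GL (Fin n) F} (hu : u ∈ U (F := F) n)
    (hv : v ∈ U (F := F) n) : psiG ψ₀ n (u * v) = psiG ψ₀ n u * psiG ψ₀ n v := by
  unfold psiG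
  rw [Units.val_mul]
  exact psi_mul ψ₀ hu hv

theorem psiG_one (ψ₀ : AddChar F ℂ) : psiG ψ₀ n (1 : GL (Fin n) F) = 1 := by
  unfold psiG psi
  rw [Units.val_one, sup_one, AddChar.map_zero_eq_one]

theorem isChr_psiG (ψ₀ : AddChar F ℂ) : IsChr (U (F := F) n) (psiG ψ₀ n) where
  mul := fun u hu v hv => psiG_mul ψ₀ hu hv
  one := psiG_one ψ₀
  conj_eq := by
    intro u hu
    have h1 : psiG ψ₀ n u⁻¹ * psiG ψ₀ n u = 1 := by
      rw [← psiG_mul ψ₀ ((U (F := F) n).inv_mem hu) hu, inv_mul_cancel, psiG_one]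
    have h2 : conj (psiG ψ₀ n u) * psiG ψ₀ n u = 1 := by
      unfold psiG psi
      rw [← AddChar.map_neg_eq_conj, ← AddChar.map_add_eq_mul, neg_add_cancel, AddChar.map_zero_eq_one]
    have h3 : psiG ψ₀ n u ≠ 0 := fun h0 => by
      rw [h0, mul_zero] at h1
      exact zero_ne_one h1
    exact mul_right_cancel₀ h3 (h2.trans h1.symm)

theorem whit_eq_avg (ψ₀ : AddChar F ℂ) (f : GL (Fin n) F → ℂ) :
    whit ψ₀ f = avg (U (F := F) n) (psiG ψ₀ n) f := rfl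

/-- Every element is either not compatible or fixed by `τ` up to `ψ`-trivial factors. -/
theorem key (ψ₀ : AddChar F ℂ) (hψ : ψ₀ ≠ 1) (x : GL (Fin n) F) :
    (∃ u ∈ U (F := F) n, x⁻¹ * u * x ∈ U (F := F) n ∧ psiG ψ₀ n u ≠ psiG ψ₀ n (x⁻¹ * u * x)) ∨
      (∃ a ∈ U (F := F) n, ∃ b ∈ U (F := F) n, tau x = a * x * b ∧ psiG ψ₀ n a * psiG ψ₀ n b = 1) := by
  have hC := isChr_psiG (n := n) ψ₀
  obtain ⟨a, ha, b, hb, π, t, rfl⟩ := bruhat_exists x
  by_cases hA : Adm π t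
  · right
    have ht : tau (a * mon π t * b) = tau b * mon π t * tau a := by
      rw [tau_mul, tau_mul, adm_tau hA, mul_assoc]
    have hτa := tau_mem_U ha
    have hτb := tau_mem_U hb
    have hai := (U (F := F) n).inv_mem ha
    have hbi := (U (F := F) n).inv_mem hb
    refine ⟨tau b * a⁻¹, (U (F := F) n).mul_mem hτb hai, b⁻¹ * tau a, (U (F := F) n).mul_mem hbi hτa, ?_, ?_⟩
    · rw [ht]; group
    · rw [psiG_mul ψ₀ hτb hai, psiG_mul ψ₀ hbi hτa]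
      have e1 : psiG ψ₀ n (tau b) = psiG ψ₀ n b := psi_tau ψ₀ b hb
      have e2 : psiG ψ₀ n (tau a) = psiG ψ₀ n a := psi_tau ψ₀ a ha
      rw [e1, e2]
      have e3 := hC.inv ha
      have e4 := hC.inv hb
      calc psiG ψ₀ n b * psiG ψ₀ n a⁻¹ * (psiG ψ₀ n b⁻¹ * psiG ψ₀ n a)
          = (psiG ψ₀ n a⁻¹ * psiG ψ₀ n a) * (psiG ψ₀ n b⁻¹ * psiG ψ₀ n b) := by ring
        _ = 1 := by rw [e3, e4, one_mul]
  · left
    obtain ⟨u, hu, hv, hne⟩ := not_adm_witness (F := F) ψ₀ hψ hA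
    have hv' : b⁻¹ * ((mon π t)⁻¹ * u * mon π t) * b ∈ U (F := F) n :=
      (U (F := F) n).mul_mem ((U (F := F) n).mul_mem ((U (F := F) n).inv_mem hb) hv) hb
    have e : (a * mon π t * b)⁻¹ * (a * u * a⁻¹) * (a * mon π t * b) =
        b⁻¹ * ((mon π t)⁻¹ * u * mon π t) * b := by group
    refine ⟨a * u * a⁻¹, (U (F := F) n).mul_mem ((U (F := F) n).mul_mem ha hu) ((U (F := F) n).inv_mem ha), ?_, ?_⟩
    · rw [e]; exact hv'
    · rw [e, hC.conj_invariant ha hu]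
      have e2 := hC.conj_invariant ((U (F := F) n).inv_mem hb) hv
      rw [inv_inv] at e2
      rw [e2]
      exact hne

theorem whit_eq_zero_or_one (ψ₀ : AddChar F ℂ) (hψ : ψ₀ ≠ 1)
    (χ : Cfsg.IrrCharacter (GL (Fin n) F)) : whit ψ₀ χ.1 = 0 ∨ whit ψ₀ χ.1 = 1 := by
  rw [whit_eq_avg]
  exact avg_eq_zero_or_one (isChr_psiG ψ₀) tau tau_mul tau_tau (fun u hu => tau_mem_U hu)
    (fun u hu => psi_tau ψ₀ u hu) (key ψ₀ hψ) χ.2

theorem sum_whit_sq (hn : 1 ≤ n) (ψ₀ : AddChar F ℂ) (hψ : ψ₀ ≠ 1) :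
    ∑ᶠ χ : Cfsg.IrrCharacter (GL (Fin n) F), (whit ψ₀ χ.1) ^ 2 =
      ((Fintype.card F : ℂ) - 1) * (Fintype.card F : ℂ) ^ (n - 1) := by
  have h1 : ∀ χ : Cfsg.IrrCharacter (GL (Fin n) F), (whit ψ₀ χ.1) ^ 2 =
      avg (U (F := F) n) (psiG ψ₀ n) χ.1 * conj (avg (U (F := F) n) (psiG ψ₀ n) χ.1) := by
    intro χ
    rw [← whit_eq_avg]
    rcases whit_eq_zero_or_one ψ₀ hψ χ with h | h <;> rw [h] <;> simp
  rw [finsum_congr h1]
  letI : Fintype (U (F := F) n) := Fintype.ofFinite _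
  have h2 := sum_avg_mul_conj (isChr_psiG (n := n) ψ₀)
    (R := Equiv.Perm (Fin n) × (Fin n → Fˣ)) (fun p => mon p.1 p.2) (fun p => Adm p.1 p.2)
    (by
      intro x
      obtain ⟨a, ha, b, hb, π, t, hx⟩ := bruhat_exists x
      exact ⟨a, ha, b, hb, (π, t), hx⟩)
    (by
      intro a ha b hb a' ha' b' hb' i j hij
      obtain ⟨e1, e2⟩ := bruhat_unique ha hb ha' hb' hij
      exact Prod.ext e1 e2)
    (by
      intro i hi u hu hv
      exact adm_compat ψ₀ hi u hu hv)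
    (by
      intro i hi
      exact not_adm_witness ψ₀ hψ hi)
  rw [h2, card_adm hn, Nat.card_units, Nat.cast_mul, Nat.cast_pow, Nat.cast_add, Nat.cast_one,
    Nat.card_eq_fintype_card]
  have hq : 1 ≤ Fintype.card F := Fintype.card_pos
  rw [Nat.cast_sub hq]
  simp

end Cfsg.Agent.Lib.GLH.Hecke
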