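import Cfsg.Agent.Lib.GLH.Der

/-!
# The derivation: preparation, the vanishing of the middle terms.
-/

set_option autoImplicit false
set_option linter.unusedSectionVars false
set_option linter.style.haveILetI false

namespace Cfsg.Agent.Lib.GLH.Leibniz1

open Matrix Module Cfsg.Agent.Lib.GLH.Defs Cfsg.Agent.Lib.GLH.Ev Cfsg.Agent.Lib.GLH.Der

universe u

variable {F : Type u} [Field F] [Finite F]
variable {X Y : Type u} [AddCommGroup X] [Module F X] [Module.Finite F X]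
  [AddCommGroup Y] [Module F Y] [Module.Finite F Y]

section Inst
variable {A B : Type u} [AddCommGroup A] [Module F A] [Module.Finite F A]
  [AddCommGroup B] [Module F B] [Module.Finite F B]

theorem finite_hom : Finite (A →ₗ[F] B) := by
  haveI : Module.Finite F (A →ₗ[F] B) := Module.Finite.linearMap F F A B
  exact Module.finite_of_finite F

noncomputable instance fintypeHom : Fintype (A →ₗ[F] B) := by
  haveI := finite_hom (F := F) (A := A) (B := B)
  exact Fintype.ofFinite _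

noncomputable instance fintypeSubmodule : Fintype (Submodule F A) := by
  haveI := finite_submodule (F := F) (V := A)
  exact Fintype.ofFinite _

end Inst

theorem dS_eq_sum (s : (X →ₗ[F] X) → ℂ) (Φ : Fam F) (D : Y →ₗ[F] Y) :
    dS s Φ D = ∑ A : X →ₗ[F] X, ∑ B : Y →ₗ[F] X, s A * ev Φ (X × Y) (E A B D) := by
  unfold dS
  rw [finsum_eq_sum_of_fintype]
  refine Finset.sum_congr rfl fun A _ => ?_
  rw [finsum_eq_sum_of_fintype]

theorem sum_dite_subtype {α : Type*} [Fintype α] (p : α → Prop) [DecidablePred p]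
    [Fintype {a // p a}] (f : ∀ a, p a → ℂ) :
    ∑ a, (if h : p a then f a h else 0) = ∑ a : {a // p a}, f a.1 a.2 := by
  classical
  have h1 : ∑ a : {a // p a}, f a.1 a.2 =
      ∑ a : {a // p a}, (if h : p a.1 then f a.1 h else 0) := by
    refine Finset.sum_congr rfl fun a _ => ?_
    rw [dif_pos a.2]
  rw [h1]
  have h2 := @Finset.sum_subtype _ _ _ p ‹Fintype {a // p a}› (Finset.univ.filter p) (fun x => by simp)
    (fun a => if h : p a then f a h else 0)
  rw [← h2]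
  rw [Finset.sum_filter]
  refine Finset.sum_congr rfl fun a _ => ?_
  by_cases h : p a <;> simp [h]

open Classical in
/-- The term of the Hall product of `E A B D` at the subspace `W` (zero if `W` is not invariant). -/
noncomputable def term (Φ Ψ : Fam F) (A : X →ₗ[F] X) (B : Y →ₗ[F] X) (D : Y →ₗ[F] Y)
    (W : Submodule F (X × Y)) : ℂ :=
  if h : W ≤ W.comap (E A B D) then
    ev Φ W ((E A B D).restrict h) * ev Ψ ((X × Y) ⧸ W) (W.mapQ W (E A B D) h)
  else 0

theorem pev_eq_sum_term (Φ Ψ : Fam F) (A : X →ₗ[F] X) (B : Y →ₗ[F] X) (D : Y →ₗ[F] Y) :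
    pev Φ Ψ (X × Y) (E A B D) = ∑ W : Submodule F (X × Y), term Φ Ψ A B D W := by
  classical
  rw [pev_eq_sum]
  unfold term
  rw [sum_dite_subtype (fun W : Submodule F (X × Y) => W ≤ W.comap (E A B D))]

/-- The subspace `W ∩ X` of `X`. -/
abbrev W1 (W : Submodule F (X × Y)) : Submodule F X := W.comap (LinearMap.inl F X Y)

/-- The total contribution of a subspace. -/
noncomputable def T (s : (X →ₗ[F] X) → ℂ) (Φ Ψ : Fam F) (D : Y →ₗ[F] Y)
    (W : Submodule F (X × Y)) : ℂ :=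
  ∑ A : X →ₗ[F] X, ∑ B : Y →ₗ[F] X, s A * term Φ Ψ A B D W

theorem dS_hall (s : (X →ₗ[F] X) → ℂ) {Φ Ψ : Fam F} (hΦ : IsCl Φ) (hΨ : IsCl Ψ) (D : Y →ₗ[F] Y) :
    dS s (hall Φ Ψ) D = ∑ W : Submodule F (X × Y), T s Φ Ψ D W := by
  rw [dS_eq_sum]
  unfold T
  symm
  rw [Finset.sum_comm]
  refine Finset.sum_congr rfl fun A _ => ?_
  rw [Finset.sum_comm]
  refine Finset.sum_congr rfl fun B _ => ?_
  rw [ev_hall hΦ hΨ, pev_eq_sum_term, Finset.mul_sum]

/-- Existence of the auxiliary map `ζ`. -/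
theorem exists_zeta (W : Submodule F (X × Y)) :
    ∃ ζ : Y →ₗ[F] X, ∀ x : X × Y, x ∈ W → x.1 - ζ x.2 ∈ W1 W := by
  classical
  let W₂ : Submodule F Y := W.map (LinearMap.snd F X Y)
  let f : W →ₗ[F] W₂ := LinearMap.codRestrict W₂ ((LinearMap.snd F X Y).comp W.subtype)
    (fun w => ⟨w.1, w.2, rfl⟩)
  have hf : LinearMap.range f = ⊤ := by
    rw [LinearMap.range_eq_top]
    rintro ⟨_, w, hw, rfl⟩
    exact ⟨⟨w, hw⟩, rfl⟩
  obtain ⟨r, hr⟩ := f.exists_rightInverse_of_surjective hf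
  obtain ⟨p, hp⟩ := W₂.subtype.exists_leftInverse_of_injective (Submodule.ker_subtype W₂)
  refine ⟨(LinearMap.fst F X Y).comp (W.subtype.comp (r.comp p)), ?_⟩
  intro x hx
  have hy : x.2 ∈ W₂ := ⟨x, hx, rfl⟩
  have hpy : p x.2 = ⟨x.2, hy⟩ := by
    have := LinearMap.congr_fun hp ⟨x.2, hy⟩
    simpa using this
  have hr' : ((r ⟨x.2, hy⟩ : W) : X × Y).2 = x.2 := by
    have := LinearMap.congr_fun hr ⟨x.2, hy⟩
    have h2 : (f (r ⟨x.2, hy⟩)).1 = x.2 := congrArg Subtype.val this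
    exact h2
  simp only [Submodule.mem_comap, LinearMap.coe_comp, Function.comp_apply, Submodule.subtype_apply,
    LinearMap.fst_apply, hpy]
  have hmem : x - ((r ⟨x.2, hy⟩ : W) : X × Y) ∈ W := W.sub_mem hx (r ⟨x.2, hy⟩).2
  have heq : LinearMap.inl F X Y (x.1 - ((r ⟨x.2, hy⟩ : W) : X × Y).1) =
      x - ((r ⟨x.2, hy⟩ : W) : X × Y) := by
    ext
    · simp
    · simp [hr']
  rw [heq]
  exact hmem

/-- The additive group `Hom(X/W₁, W₁)` inside `End X`. -/
abbrev H (W₁ : Submodule F X) := {ν : X →ₗ[F] X // (∀ x, ν x ∈ W₁) ∧ ∀ x ∈ W₁, ν x = 0}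

open Classical in
/-- Cuspidality in the form we use. -/
def Hcusp (s : (X →ₗ[F] X) → ℂ) : Prop :=
  ∀ W₁ : Submodule F X, W₁ ≠ ⊥ → W₁ ≠ ⊤ → ∀ A : X →ₗ[F] X, W₁ ≤ W₁.comap A →
    ∑ ν : {ν : X →ₗ[F] X // (∀ x, ν x ∈ W₁) ∧ ∀ x ∈ W₁, ν x = 0}, s (A + ν.1) = 0

theorem W1_inv {A : X →ₗ[F] X} {B : Y →ₗ[F] X} {D : Y →ₗ[F] Y} {W : Submodule F (X × Y)}
    (h : W ≤ W.comap (E A B D)) : W1 W ≤ (W1 W).comap A := by
  intro x hx
  simp only [Submodule.mem_comap] at hx ⊢
  have := h hx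
  simpa [LinearMap.inl] using this

theorem term_translate {Φ Ψ : Fam F} (hΦ : IsCl Φ) (hΨ : IsCl Ψ) (A : X →ₗ[F] X) (B : Y →ₗ[F] X)
    (D : Y →ₗ[F] Y) (W : Submodule F (X × Y)) (ζ : Y →ₗ[F] X)
    (hζ : ∀ x : X × Y, x ∈ W → x.1 - ζ x.2 ∈ W1 W) (ν : X →ₗ[F] X)
    (hν1 : ∀ x, ν x ∈ W1 W) (hν2 : ∀ x ∈ W1 W, ν x = 0) :
    term Φ Ψ (A + ν) (B - ν.comp ζ) D W = term Φ Ψ A B D W := by
  classical
  have hE : ∀ x : X × Y, E (A + ν) (B - ν.comp ζ) D x =
      E A B D x + LinearMap.inl F X Y (ν (x.1 - ζ x.2)) := by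
    intro x
    apply Prod.ext
    · show (A + ν) x.1 + (B - ν.comp ζ) x.2 = (A x.1 + B x.2) + ν (x.1 - ζ x.2)
      simp only [LinearMap.add_apply, LinearMap.sub_apply, LinearMap.comp_apply, map_sub]
      abel
    · show D x.2 = D x.2 + 0
      simp
  have hδW : ∀ x : X × Y, LinearMap.inl F X Y (ν (x.1 - ζ x.2)) ∈ W := fun x => hν1 _
  have hδ0 : ∀ x : X × Y, x ∈ W → ν (x.1 - ζ x.2) = 0 := fun x hx => hν2 _ (hζ x hx)
  have hiff : W ≤ W.comap (E (A + ν) (B - ν.comp ζ) D) ↔ W ≤ W.comap (E A B D) := by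
    constructor
    · intro h x hx
      have h1 := h hx
      simp only [Submodule.mem_comap] at h1 ⊢
      rw [hE, hδ0 x hx] at h1
      simpa using h1
    · intro h x hx
      have h1 := h hx
      simp only [Submodule.mem_comap] at h1 ⊢
      rw [hE, hδ0 x hx]
      simpa using h1
  unfold term
  by_cases h : W ≤ W.comap (E A B D)
  · have h' := hiff.mpr h
    rw [dif_pos h, dif_pos h']
    congr 1
    · refine ev_congr hΦ (LinearEquiv.refl F W) _ _ ?_
      intro v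
      apply Subtype.ext
      simp only [LinearEquiv.refl_apply, LinearMap.coe_restrict_apply]
      rw [hE, hδ0 v.1 v.2]
      simp
    · refine ev_congr hΨ (LinearEquiv.refl F _) _ _ ?_
      intro v
      induction v using Submodule.Quotient.induction_on with
      | H x =>
        simp only [LinearEquiv.refl_apply, Submodule.mapQ_apply]
        rw [hE]
        rw [Submodule.Quotient.eq]
        simpa using hδW x
  · rw [dif_neg h, dif_neg (fun h' => h (hiff.mp h'))]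

/-- Subspaces with `W ∩ X` proper and non-zero do not contribute. -/
theorem T_eq_zero {s : (X →ₗ[F] X) → ℂ} (hs : Hcusp s) {Φ Ψ : Fam F} (hΦ : IsCl Φ) (hΨ : IsCl Ψ)
    (D : Y →ₗ[F] Y) (W : Submodule F (X × Y)) (h1 : W1 W ≠ ⊥) (h2 : W1 W ≠ ⊤) :
    T s Φ Ψ D W = 0 := by
  classical
  obtain ⟨ζ, hζ⟩ := exists_zeta W
  set K := H (W1 W)
  have hfin : Finite K := Subtype.finite
  haveI : Fintype K := Fintype.ofFinite _
  have hT : ∀ ν : K, T s Φ Ψ D W =
      ∑ p : (X →ₗ[F] X) × (Y →ₗ[F] X), s (p.1 + ν.1) * term Φ Ψ p.1 p.2 D W := by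
    intro ν
    unfold T
    rw [← Fintype.sum_prod_type' (fun A B => s A * term Φ Ψ A B D W)]
    refine Fintype.sum_equiv (Equiv.addRight ((-ν.1, ν.1.comp ζ) : (X →ₗ[F] X) × (Y →ₗ[F] X))) _ _ ?_
    intro p
    have h := term_translate hΦ hΨ (p.1 - ν.1) (p.2 + ν.1.comp ζ) D W ζ hζ ν.1 ν.2.1 ν.2.2
    simp only [sub_add_cancel, add_sub_cancel_right] at h
    simp only [Equiv.coe_addRight, Prod.fst_add, Prod.snd_add, neg_add_cancel_right, ← sub_eq_add_neg, sub_add_cancel]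
    rw [h]
  have hsum : (Fintype.card K : ℂ) * T s Φ Ψ D W = 0 := by
    have : (Fintype.card K : ℂ) * T s Φ Ψ D W = ∑ ν : K, T s Φ Ψ D W := by
      simp [Finset.card_univ]
    rw [this, Finset.sum_congr rfl (fun ν _ => hT ν), Finset.sum_comm]
    apply Finset.sum_eq_zero
    intro p _
    rw [← Finset.sum_mul]
    by_cases ht : term Φ Ψ p.1 p.2 D W = 0
    · rw [ht, mul_zero]
    · have hinv : W ≤ W.comap (E p.1 p.2 D) := by
        by_contra hc
        exact ht (by unfold term; rw [dif_neg hc])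
      have := hs (W1 W) h1 h2 p.1 (W1_inv hinv)
      have h3 : ∑ ν : K, s (p.1 + ν.1) = 0 := by
        convert this
      rw [h3, zero_mul]
  have hne : (Fintype.card K : ℂ) ≠ 0 := by
    haveI : Nonempty K := ⟨⟨0, by simp [Submodule.zero_mem], by simp⟩⟩
    exact_mod_cast Fintype.card_ne_zero
  exact (mul_eq_zero.mp hsum).resolve_left hne

end Cfsg.Agent.Lib.GLH.Leibniz1
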