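import Cfsg.Agent.Lib.GLH.Leibniz1

/-!
# The derivation: the two surviving kinds of subspaces.
-/

set_option autoImplicit false
set_option linter.unusedSectionVars false
set_option linter.style.haveILetI false

namespace Cfsg.Agent.Lib.GLH.Leibniz2

open Matrix Module Cfsg.Agent.Lib.GLH.Defs Cfsg.Agent.Lib.GLH.Ev Cfsg.Agent.Lib.GLH.Der
  Cfsg.Agent.Lib.GLH.Leibniz1

universe u

variable {F : Type u} [Field F] [Finite F]
variable {X Y : Type u} [AddCommGroup X] [Module F X] [Module.Finite F X]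
  [AddCommGroup Y] [Module F Y] [Module.Finite F Y]

/-- A quotient by the kernel of a surjection is the target. -/
noncomputable def quotEquivSurj {M N : Type u} [AddCommGroup M] [Module F M] [AddCommGroup N]
    [Module F N] (f : M →ₗ[F] N) (hf : Function.Surjective f) (K : Submodule F M)
    (hK : K = LinearMap.ker f) : (M ⧸ K) ≃ₗ[F] N :=
  (Submodule.quotEquivOfEq K (LinearMap.ker f) hK).trans (f.quotKerEquivOfSurjective hf)

@[simp] theorem quotEquivSurj_mk {M N : Type u} [AddCommGroup M] [Module F M] [AddCommGroup N]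
    [Module F N] (f : M →ₗ[F] N) (hf : Function.Surjective f) (K : Submodule F M)
    (hK : K = LinearMap.ker f) (x : M) :
    quotEquivSurj f hf K hK (Submodule.Quotient.mk x) = f x := rfl

/-! ### Type 1: `W = X × W₂`. -/

/-- `X × W₂` as a subspace. -/
abbrev prodW (W₂ : Submodule F Y) : Submodule F (X × Y) := Submodule.prod ⊤ W₂

/-- `X × W₂` as a subspace is `X × W₂` as a space. -/
def prodWEquiv (W₂ : Submodule F Y) : (prodW (X := X) W₂) ≃ₗ[F] (X × W₂) where
  toFun x := (x.1.1, ⟨x.1.2, x.2.2⟩)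
  map_add' _ _ := rfl
  map_smul' _ _ := rfl
  invFun y := ⟨(y.1, y.2.1), ⟨trivial, y.2.2⟩⟩
  left_inv _ := rfl
  right_inv _ := rfl

theorem prodW_surj (W₂ : Submodule F Y) :
    Function.Surjective (W₂.mkQ.comp (LinearMap.snd F X Y)) := by
  intro y
  obtain ⟨y', rfl⟩ := W₂.mkQ_surjective y
  exact ⟨(0, y'), rfl⟩

theorem prodW_ker (W₂ : Submodule F Y) :
    prodW (X := X) W₂ = LinearMap.ker (W₂.mkQ.comp (LinearMap.snd F X Y)) := by
  ext x
  simp [Submodule.mem_prod]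

open Classical in
theorem term_prodW {Φ Ψ : Fam F} (hΦ : IsCl Φ) (hΨ : IsCl Ψ) (A : X →ₗ[F] X) (B : Y →ₗ[F] X)
    (D : Y →ₗ[F] Y) (W₂ : Submodule F Y) :
    term Φ Ψ A B D (prodW W₂) =
      if h : W₂ ≤ W₂.comap D then
        ev Φ (X × W₂) (E A (B.comp W₂.subtype) (D.restrict h)) * ev Ψ (Y ⧸ W₂) (W₂.mapQ W₂ D h)
      else 0 := by
  have hiff : prodW (X := X) W₂ ≤ (prodW W₂).comap (E A B D) ↔ W₂ ≤ W₂.comap D := by
    constructor
    · intro h y hy
      have := h (show ((0 : X), y) ∈ prodW W₂ from ⟨trivial, hy⟩)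
      exact this.2
    · intro h x hx
      exact ⟨trivial, h hx.2⟩
  unfold term
  by_cases h : W₂ ≤ W₂.comap D
  · rw [dif_pos (hiff.mpr h), dif_pos h]
    congr 1
    · refine ev_congr hΦ (prodWEquiv W₂) _ _ ?_
      intro v
      exact Prod.ext rfl (Subtype.ext rfl)
    · let e : ((X × Y) ⧸ prodW (X := X) W₂) ≃ₗ[F] (Y ⧸ W₂) :=
        quotEquivSurj (W₂.mkQ.comp (LinearMap.snd F X Y)) (prodW_surj W₂) (prodW W₂) (prodW_ker W₂)
      have he : ∀ x : X × Y, e (Submodule.Quotient.mk x) = Submodule.Quotient.mk x.2 := fun x => rfl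
      refine ev_congr hΨ e _ _ ?_
      intro v
      induction v using Submodule.Quotient.induction_on with
      | H x =>
        rw [Submodule.mapQ_apply, he, he, Submodule.mapQ_apply]
        rfl
  · rw [dif_neg (fun h' => h (hiff.mp h')), dif_neg h]

/-! ### Splitting `Hom(Y, X)`. -/

/-- The decomposition of `Hom(Y,X)` along a subspace `W₂` of `Y`, using a section `t`. -/
noncomputable def homEquiv (W₂ : Submodule F Y) (t : (Y ⧸ W₂) →ₗ[F] Y)
    (ht : W₂.mkQ.comp t = LinearMap.id) :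
    (Y →ₗ[F] X) ≃ (W₂ →ₗ[F] X) × ((Y ⧸ W₂) →ₗ[F] X) := by
  have hp : ∀ y, y - t (W₂.mkQ y) ∈ W₂ := by
    intro y
    have h1 := LinearMap.congr_fun ht (W₂.mkQ y)
    have : W₂.mkQ (y - t (W₂.mkQ y)) = 0 := by
      rw [map_sub]
      simp only [LinearMap.comp_apply, LinearMap.id_apply] at h1
      rw [h1, sub_self]
    exact (Submodule.Quotient.mk_eq_zero W₂).mp this
  let p : Y →ₗ[F] W₂ := LinearMap.codRestrict W₂ (LinearMap.id - t.comp W₂.mkQ) hp
  exact
  { toFun := fun B => (B.comp W₂.subtype, B.comp t)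
    invFun := fun q => q.1.comp p + q.2.comp W₂.mkQ
    left_inv := by
      intro B
      ext y
      show B (y - t (W₂.mkQ y)) + B (t (W₂.mkQ y)) = B y
      rw [map_sub, sub_add_cancel]
    right_inv := by
      rintro ⟨B', C⟩
      apply Prod.ext
      · ext d
        have hd : W₂.mkQ (d : Y) = 0 := by simp
        have hpd : p d = d := by
          apply Subtype.ext
          show (d : Y) - t (W₂.mkQ (d : Y)) = d
          rw [hd, map_zero, sub_zero]
        show B' (p d) + C (W₂.mkQ (d : Y)) = B' d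
        rw [hd, map_zero, add_zero, hpd]
      · refine LinearMap.ext fun y => ?_
        have h1 := LinearMap.congr_fun ht y
        simp only [LinearMap.comp_apply, LinearMap.id_apply] at h1
        have hpt : p (t y) = 0 := by
          apply Subtype.ext
          show t y - t (W₂.mkQ (t y)) = 0
          rw [h1, sub_self]
        show B' (p (t y)) + C (W₂.mkQ (t y)) = C y
        rw [hpt, h1, map_zero, zero_add] }

theorem exists_section (W₂ : Submodule F Y) :
    ∃ t : (Y ⧸ W₂) →ₗ[F] Y, W₂.mkQ.comp t = LinearMap.id :=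
  W₂.mkQ.exists_rightInverse_of_surjective (Submodule.range_mkQ W₂)

theorem card_hom_split (W₂ : Submodule F Y) :
    Nat.card (Y →ₗ[F] X) = Nat.card (W₂ →ₗ[F] X) * Nat.card ((Y ⧸ W₂) →ₗ[F] X) := by
  obtain ⟨t, ht⟩ := exists_section W₂
  rw [Nat.card_congr (homEquiv (X := X) W₂ t ht), Nat.card_prod]

theorem sum_hom_restrict (W₂ : Submodule F Y) (f : (W₂ →ₗ[F] X) → ℂ) :
    ∑ B : Y →ₗ[F] X, f (B.comp W₂.subtype) =
      (Nat.card ((Y ⧸ W₂) →ₗ[F] X) : ℂ) * ∑ B' : W₂ →ₗ[F] X, f B' := by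
  classical
  obtain ⟨t, ht⟩ := exists_section W₂
  rw [Fintype.sum_equiv (homEquiv (X := X) W₂ t ht) (fun B => f (B.comp W₂.subtype))
    (fun q => f q.1) (fun B => rfl)]
  rw [Fintype.sum_prod_type_right]
  have : ∑ y : (Y ⧸ W₂) →ₗ[F] X, ∑ x : W₂ →ₗ[F] X, f (x, y).1 =
      ∑ _y : (Y ⧸ W₂) →ₗ[F] X, ∑ x : W₂ →ₗ[F] X, f x := rfl
  rw [this, Finset.sum_const, Finset.card_univ, nsmul_eq_mul, Nat.card_eq_fintype_card]

/-! ### Type 2: graphs. -/

/-- The graph of `φ : W₂ → X`. -/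
noncomputable def Gr (W₂ : Submodule F Y) (φ : W₂ →ₗ[F] X) : Submodule F (X × Y) :=
  LinearMap.range (LinearMap.prod φ W₂.subtype)

theorem mem_Gr {W₂ : Submodule F Y} {φ : W₂ →ₗ[F] X} {x : X × Y} :
    x ∈ Gr W₂ φ ↔ ∃ d : W₂, φ d = x.1 ∧ (d : Y) = x.2 := by
  unfold Gr
  simp only [LinearMap.mem_range]
  constructor
  · rintro ⟨d, rfl⟩
    exact ⟨d, rfl, rfl⟩
  · rintro ⟨d, h1, h2⟩
    exact ⟨d, Prod.ext h1 h2⟩

/-- `W₂ ≃ Gr W₂ φ`. -/
noncomputable def grEquiv (W₂ : Submodule F Y) (φ : W₂ →ₗ[F] X) : W₂ ≃ₗ[F] Gr W₂ φ :=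
  LinearEquiv.ofInjective (LinearMap.prod φ W₂.subtype) (by
    intro a b h
    have := congrArg Prod.snd h
    exact Subtype.ext this)

theorem Gr_inv_iff (A : X →ₗ[F] X) (B : Y →ₗ[F] X) (D : Y →ₗ[F] Y) (W₂ : Submodule F Y)
    (φ : W₂ →ₗ[F] X) :
    Gr W₂ φ ≤ (Gr W₂ φ).comap (E A B D) ↔
      ∃ h : W₂ ≤ W₂.comap D, ∀ d : W₂, A (φ d) + B d = φ (D.restrict h d) := by
  constructor
  · intro hle
    have h0 : ∀ d : W₂, ∃ d' : W₂, φ d' = A (φ d) + B d ∧ (d' : Y) = D d := by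
      intro d
      have h1 := hle (show ((φ d, (d : Y)) : X × Y) ∈ Gr W₂ φ from mem_Gr.mpr ⟨d, rfl, rfl⟩)
      exact mem_Gr.mp h1
    have h : W₂ ≤ W₂.comap D := by
      intro y hy
      obtain ⟨d', _, h2⟩ := h0 ⟨y, hy⟩
      show D y ∈ W₂
      rw [← show (d' : Y) = D y from h2]
      exact d'.2
    refine ⟨h, ?_⟩
    intro d
    obtain ⟨d', h1, h2⟩ := h0 d
    have : d' = D.restrict h d := Subtype.ext h2
    rw [← this, h1]
  · rintro ⟨h, hc⟩ x hx
    obtain ⟨d, h1, h2⟩ := mem_Gr.mp hx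
    rw [Submodule.mem_comap]
    refine mem_Gr.mpr ⟨D.restrict h d, ?_, ?_⟩
    · rw [← hc d]
      show _ = A x.1 + B x.2
      rw [h1, h2]
    · show D (d : Y) = D x.2
      rw [h2]

/-- The quotient map by the graph. -/
noncomputable def grQ (W₂ : Submodule F Y) (φ' : Y →ₗ[F] X) : (X × Y) →ₗ[F] (X × (Y ⧸ W₂)) :=
  LinearMap.prod (LinearMap.fst F X Y - φ'.comp (LinearMap.snd F X Y))
    (W₂.mkQ.comp (LinearMap.snd F X Y))

theorem grQ_apply (W₂ : Submodule F Y) (φ' : Y →ₗ[F] X) (x : X × Y) :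
    grQ W₂ φ' x = (x.1 - φ' x.2, Submodule.Quotient.mk x.2) := rfl

theorem grQ_surj (W₂ : Submodule F Y) (φ' : Y →ₗ[F] X) : Function.Surjective (grQ W₂ φ') := by
  rintro ⟨x, y⟩
  obtain ⟨y', rfl⟩ := W₂.mkQ_surjective y
  refine ⟨(x + φ' y', y'), ?_⟩
  rw [grQ_apply]
  simp

theorem grQ_ker (W₂ : Submodule F Y) (φ : W₂ →ₗ[F] X) (φ' : Y →ₗ[F] X)
    (hφ : ∀ d : W₂, φ' d = φ d) : Gr W₂ φ = LinearMap.ker (grQ W₂ φ') := by
  ext x
  rw [mem_Gr, LinearMap.mem_ker, grQ_apply, Prod.mk_eq_zero, Submodule.Quotient.mk_eq_zero, sub_eq_zero]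
  constructor
  · rintro ⟨d, h1, h2⟩
    refine ⟨?_, h2 ▸ d.2⟩
    rw [← h1, ← h2, hφ]
  · rintro ⟨h1, h2⟩
    refine ⟨⟨x.2, h2⟩, ?_, rfl⟩
    rw [← hφ, h1]

open Classical in
/-- The value of `term` on a graph. -/
theorem term_Gr {Φ Ψ : Fam F} (hΦ : IsCl Φ) (hΨ : IsCl Ψ) (A : X →ₗ[F] X) (B : Y →ₗ[F] X)
    (D : Y →ₗ[F] Y) (W₂ : Submodule F Y) (φ : W₂ →ₗ[F] X) (φ' : Y →ₗ[F] X)
    (hφ : ∀ d : W₂, φ' d = φ d) (t : (Y ⧸ W₂) →ₗ[F] Y) (ht : W₂.mkQ.comp t = LinearMap.id) :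
    term Φ Ψ A B D (Gr W₂ φ) =
      if h : ∃ h : W₂ ≤ W₂.comap D, ∀ d : W₂, A (φ d) + B d = φ (D.restrict h d) then
        ev Φ W₂ (D.restrict h.1) *
          ev Ψ (X × (Y ⧸ W₂)) (E A ((B + A.comp φ' - φ'.comp D).comp t) (W₂.mapQ W₂ D h.1))
      else 0 := by
  unfold term
  by_cases h : ∃ h : W₂ ≤ W₂.comap D, ∀ d : W₂, A (φ d) + B d = φ (D.restrict h d)
  · have h' := (Gr_inv_iff A B D W₂ φ).mpr h
    rw [dif_pos h', dif_pos h]
    obtain ⟨hD, hc⟩ := h
    congr 1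
    · symm
      refine ev_congr hΦ (grEquiv W₂ φ) _ _ ?_
      intro v
      apply Subtype.ext
      apply Prod.ext
      · show φ (D.restrict hD v) = A (φ v) + B v
        rw [hc]
      · rfl
    · refine ev_congr hΨ (quotEquivSurj _ (grQ_surj W₂ φ') (Gr W₂ φ) (grQ_ker W₂ φ φ' hφ)) _ _ ?_
      intro v
      induction v using Submodule.Quotient.induction_on with
      | H x =>
        -- the map `C = B + A φ' - φ' D` vanishes on `W₂`
        have hC : ∀ d ∈ W₂, (B + A.comp φ' - φ'.comp D) d = 0 := by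
          intro d hd
          have h1 := hc ⟨d, hd⟩
          have h2 : φ' (D d) = φ (D.restrict hD ⟨d, hd⟩) := hφ (D.restrict hD ⟨d, hd⟩)
          have h3 := hφ ⟨d, hd⟩
          simp only [LinearMap.sub_apply, LinearMap.add_apply, LinearMap.comp_apply]
          rw [h2, ← h1, show φ' d = φ ⟨d, hd⟩ from h3]
          abel
        have hCt : ∀ y, (B + A.comp φ' - φ'.comp D) (t (Submodule.Quotient.mk y)) =
            (B + A.comp φ' - φ'.comp D) y := by
          intro y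
          have h1 := LinearMap.congr_fun ht (W₂.mkQ y)
          simp only [LinearMap.comp_apply, LinearMap.id_apply] at h1
          have h2 : t (W₂.mkQ y) - y ∈ W₂ := by
            have : W₂.mkQ (t (W₂.mkQ y) - y) = 0 := by rw [map_sub, h1, sub_self]
            exact (Submodule.Quotient.mk_eq_zero W₂).mp this
          have h3 := hC _ h2
          rw [map_sub, sub_eq_zero] at h3
          exact h3
        simp only [quotEquivSurj_mk, Submodule.mapQ_apply]
        rw [grQ_apply]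
        apply Prod.ext
        · show (A x.1 + B x.2) - φ' (D x.2) =
            A (x.1 - φ' x.2) + ((B + A.comp φ' - φ'.comp D).comp t) (Submodule.Quotient.mk x.2)
          rw [LinearMap.comp_apply, hCt]
          simp only [LinearMap.sub_apply, LinearMap.add_apply, LinearMap.comp_apply, map_sub]
          abel
        · rfl
  · rw [dif_neg (fun h' => h ((Gr_inv_iff A B D W₂ φ).mp h')), dif_neg h]

end Cfsg.Agent.Lib.GLH.Leibniz2
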