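import Cfsg.Agent.Lib.GLH.RodierA

/-!
# Rodier's computation, second part: the flag, the top subspace, and the jump lemma.
-/

set_option autoImplicit false
set_option linter.unusedSectionVars false
set_option linter.style.haveILetI false

namespace Cfsg.Agent.Lib.GLH.RodierB

open Matrix Module Cfsg.Agent.Lib.GLH.Defs Cfsg.Agent.Lib.GLH.Ev Cfsg.Agent.Lib.GLH.RodierA
open scoped ComplexConjugate

universe u

variable {F : Type u} [Field F]

/-- `F_k`, the span of the first `k` coordinate vectors. -/
def Flag (n k : ℕ) : Submodule F (Fin n → F) where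
  carrier := {v | ∀ i : Fin n, k ≤ i.val → v i = 0}
  add_mem' := by
    intro a b ha hb i hi
    simp [ha i hi, hb i hi]
  zero_mem' := by intro i _; rfl
  smul_mem' := by
    intro c a ha i hi
    simp [ha i hi]

/-- The span of the coordinate vectors with index at least `k`. -/
def Top (n k : ℕ) : Submodule F (Fin n → F) where
  carrier := {v | ∀ i : Fin n, i.val < k → v i = 0}
  add_mem' := by
    intro a b ha hb i hi
    simp [ha i hi, hb i hi]
  zero_mem' := by intro i _; rfl
  smul_mem' := by
    intro c a ha i hi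
    simp [ha i hi]

lemma mem_flag {n k : ℕ} {v : Fin n → F} : v ∈ Flag (F := F) n k ↔ ∀ i : Fin n, k ≤ i.val → v i = 0 :=
  Iff.rfl

lemma mem_top {n k : ℕ} {v : Fin n → F} : v ∈ Top (F := F) n k ↔ ∀ i : Fin n, i.val < k → v i = 0 :=
  Iff.rfl

section finrank

variable [Fintype F]

/-- Coordinates on `Flag`. -/
noncomputable def flagEquiv (n k : ℕ) : Flag (F := F) n k ≃ₗ[F] ({i : Fin n // i.val < k} → F) where
  toFun v := fun i => v.1 i.1
  map_add' := by intros; rfl
  map_smul' := by intros; rfl
  invFun y := ⟨fun i => if h : i.val < k then y ⟨i, h⟩ else 0, by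
    intro i hi
    exact dif_neg (not_lt.2 hi)⟩
  left_inv := by
    rintro ⟨v, hv⟩
    apply Subtype.ext
    funext i
    by_cases h : i.val < k
    · simp [h]
    · simp [h, hv i (not_lt.1 h)]
  right_inv := by
    intro y
    funext i
    simp [i.2]

/-- Coordinates on `Top`. -/
noncomputable def topEquiv (n k : ℕ) : Top (F := F) n k ≃ₗ[F] ({i : Fin n // ¬ i.val < k} → F) where
  toFun v := fun i => v.1 i.1
  map_add' := by intros; rfl
  map_smul' := by intros; rfl
  invFun y := ⟨fun i => if h : ¬ i.val < k then y ⟨i, h⟩ else 0, by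
    intro i hi
    exact dif_neg (not_not.2 hi)⟩
  left_inv := by
    rintro ⟨v, hv⟩
    apply Subtype.ext
    funext i
    by_cases h : i.val < k
    · simp [h, hv i h]
    · simp [h]
  right_inv := by
    intro y
    funext i
    simp [i.2]

lemma card_lt {n k : ℕ} (hk : k ≤ n) : Fintype.card {i : Fin n // i.val < k} = k := by
  rw [Fintype.card_subtype]
  have : (Finset.univ.filter fun i : Fin n => i.val < k) = Finset.univ.map (Fin.castLEEmb hk) := by
    ext i
    simp only [Finset.mem_filter, Finset.mem_univ, true_and, Finset.mem_map, Fin.castLEEmb_apply]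
    constructor
    · intro h
      exact ⟨⟨i.val, h⟩, Fin.ext rfl⟩
    · rintro ⟨a, rfl⟩
      exact a.2
  rw [this, Finset.card_map, Finset.card_univ, Fintype.card_fin]

theorem finrank_flag {n k : ℕ} (hk : k ≤ n) : finrank F (Flag (F := F) n k) = k := by
  rw [LinearEquiv.finrank_eq (flagEquiv n k), Module.finrank_fintype_fun_eq_card, card_lt hk]

theorem finrank_Top {n k : ℕ} (hk : k ≤ n) : finrank F (Top (F := F) n k) = n - k := by
  rw [LinearEquiv.finrank_eq (topEquiv n k), Module.finrank_fintype_fun_eq_card,
    Fintype.card_subtype_compl, card_lt hk, Fintype.card_fin]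

end finrank

/-- The coordinate vectors. -/
noncomputable abbrev cv {n : ℕ} (i : Fin n) : Fin n → F := Pi.single i 1

lemma cv_ne {n : ℕ} {i m : Fin n} (h : m ≠ i) : cv (F := F) i m = 0 := Pi.single_eq_of_ne h _

lemma cv_same {n : ℕ} (i : Fin n) : cv (F := F) i i = 1 := Pi.single_eq_same _ _

lemma eq_sum_cv {n : ℕ} (v : Fin n → F) : v = ∑ i, v i • cv (F := F) i := by
  funext j
  simp [Finset.sum_apply, Pi.single_apply]

lemma mem_of_cv {n : ℕ} (S : Submodule F (Fin n → F)) (v : Fin n → F)
    (h : ∀ i, v i ≠ 0 → cv i ∈ S) : v ∈ S := by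
  rw [eq_sum_cv v]
  apply Submodule.sum_mem
  intro i _
  by_cases hi : v i = 0
  · simp [hi]
  · exact S.smul_mem _ (h i hi)

lemma cv_mem_flag {n k : ℕ} {i : Fin n} (hi : i.val < k) : cv (F := F) i ∈ Flag (F := F) n k := by
  intro m hm
  apply cv_ne
  rintro rfl
  omega

/-- The jump lemma. -/
theorem exists_jump [Fintype F] {n b : ℕ} (W : Submodule F (Fin n → F)) (hb : finrank F W + b = n)
    (h : W ⊓ Flag n b ≠ ⊥) :
    ∃ (j j' : Fin n) (w : Fin n → F) (lam : (Fin n → F) →ₗ[F] F), j'.val = j.val + 1 ∧ w ∈ W ∧
      (∀ i : Fin n, j.val < i.val → w i = 0) ∧ w j ≠ 0 ∧ (∀ v ∈ W, lam v = 0) ∧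
      (∀ l : Fin n, l.val ≤ j.val → lam (cv l) = 0) ∧ lam (cv j') ≠ 0 := by
  classical
  by_contra H
  push Not at H
  -- Step A
  have stepA : ∀ (j j' : Fin n) (w : Fin n → F), j'.val = j.val + 1 → w ∈ W →
      (∀ i : Fin n, j.val < i.val → w i = 0) → w j ≠ 0 → cv j' ∈ W ⊔ Flag n j'.val := by
    intro j j' w hj hw hw1 hw2
    by_contra hnot
    obtain ⟨lam, hlam1, hlam2⟩ := Submodule.exists_le_ker_of_notMem hnot
    refine hlam1 (H j j' w lam hj hw hw1 hw2 ?_ ?_)
    · intro v hv
      exact hlam2 (Submodule.mem_sup_left hv)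
    · intro l hl
      apply hlam2
      apply Submodule.mem_sup_right
      apply cv_mem_flag
      omega
  have hex : ∃ k, W ⊓ Flag n k ≠ ⊥ := ⟨b, h⟩
  let k₀ := Nat.find hex
  have hk₀ : W ⊓ Flag n k₀ ≠ ⊥ := Nat.find_spec hex
  have hk₀b : k₀ ≤ b := Nat.find_min' hex h
  have hk₀0 : k₀ ≠ 0 := by
    intro h0
    apply hk₀
    rw [h0]
    rw [eq_bot_iff]
    intro v hv
    have := hv.2
    rw [Submodule.mem_bot]
    funext i
    exact this i (Nat.zero_le _)
  obtain ⟨j0, hj0⟩ : ∃ j0, k₀ = j0 + 1 := ⟨k₀ - 1, by omega⟩
  have hmin : W ⊓ Flag n j0 = ⊥ := by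
    by_contra hne
    have := Nat.find_min' hex hne
    omega
  obtain ⟨w₀, hw₀, hw₀ne⟩ := Submodule.exists_mem_ne_zero_of_ne_bot hk₀
  have hj0n : j0 < n := by
    have : finrank F W + b = n := hb
    omega
  let J0 : Fin n := ⟨j0, hj0n⟩
  have hw₀J : w₀ J0 ≠ 0 := by
    intro h0
    apply hw₀ne
    have : w₀ ∈ W ⊓ Flag n j0 := by
      refine ⟨hw₀.1, ?_⟩
      intro i hi
      rcases eq_or_lt_of_le hi with h1 | h1
      · have : i = J0 := Fin.ext h1.symm
        rw [this, h0]
      · exact hw₀.2 i (by omega)
    rw [hmin] at this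
    simpa using this
  set S := W ⊔ Flag (F := F) n j0 with hS
  have hP : ∀ l : ℕ, ∀ i : Fin n, i.val < j0 + l → cv i ∈ S := by
    intro l
    induction l with
    | zero =>
      intro i hi
      apply Submodule.mem_sup_right
      exact cv_mem_flag hi
    | succ l ih =>
      intro i hi
      by_cases hi' : i.val < j0 + l
      · exact ih i hi'
      have hival : i.val = j0 + l := by omega
      cases l with
      | zero =>
        -- base case: from `w₀`
        have hiJ : i = J0 := Fin.ext (by simpa using hival)
        have hf : w₀ - w₀ J0 • cv J0 ∈ Flag (F := F) n j0 := by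
          intro m hm
          rcases eq_or_lt_of_le hm with h1 | h1
          · have : m = J0 := Fin.ext h1.symm
            subst this
            simp
          · have hm' : m ≠ J0 := by
              intro hh
              rw [hh] at h1
              exact lt_irrefl _ h1
            simp only [Pi.sub_apply, Pi.smul_apply, smul_eq_mul]
            rw [cv_ne hm', hw₀.2 m (by omega)]
            simp
        have : cv J0 = (w₀ J0)⁻¹ • (w₀ - (w₀ - w₀ J0 • cv J0)) := by
          simp [smul_smul, hw₀J]
        rw [hiJ, this]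
        apply S.smul_mem
        apply S.sub_mem
        · exact Submodule.mem_sup_left hw₀.1
        · exact Submodule.mem_sup_right hf
      | succ m =>
        have hjlt : j0 + m < n := by
          have := i.2
          omega
        let j : Fin n := ⟨j0 + m, hjlt⟩
        have hjS : cv j ∈ S := ih j (by simp [j])
        obtain ⟨w, hw, f, hf, hwf⟩ := Submodule.mem_sup.1 hjS
        have hw1 : ∀ t : Fin n, j.val < t.val → w t = 0 := by
          intro t ht
          have h1 : w t + f t = cv j t := by rw [← hwf]; rfl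
          have h2 : f t = 0 := hf t (by simp only [j] at ht; omega)
          have h3 : cv (F := F) j t = 0 := cv_ne (fun hh => by rw [hh] at ht; exact lt_irrefl _ ht)
          rw [h2, h3, add_zero] at h1
          exact h1
        have hw2 : w j ≠ 0 := by
          have h1 : w j + f j = cv j j := by rw [← hwf]; rfl
          have h2 : f j = 0 := hf j (by simp [j])
          have h3 : cv (F := F) j j = 1 := cv_same _
          rw [h2, h3, add_zero] at h1
          rw [h1]
          exact one_ne_zero
        have hi2 := stepA j i w (by simp only [j]; omega) hw hw1 hw2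
        have hflagS : Flag (F := F) n i.val ≤ S := by
          intro v hv
          apply mem_of_cv
          intro t ht
          have : t.val < i.val := by
            by_contra hcon
            exact ht (hv t (not_lt.1 hcon))
          exact ih t (by omega)
        obtain ⟨w', hw', f', hf', hwf'⟩ := Submodule.mem_sup.1 hi2
        rw [← hwf']
        exact S.add_mem (Submodule.mem_sup_left hw') (hflagS hf')
  have htop : S = ⊤ := by
    rw [eq_top_iff]
    intro v _
    apply mem_of_cv
    intro i _
    exact hP n i (by have := i.2; omega)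
  have hfr := Submodule.finrank_add_le_finrank_add_finrank W (Flag (F := F) n j0)
  rw [← hS, htop, _root_.finrank_top, finrank_flag (by omega)] at hfr
  simp only [Module.finrank_fin_fun] at hfr
  omega

/-- `T W = 0` when `W` meets the flag `F_b`, `b` the codimension of `W`. -/
theorem T_eq_zero_of_meet [Fintype F] (ψ₀ : AddChar F ℂ) (hψ : ψ₀ ≠ 1) (Φ Ψ : Fam F) {n b : ℕ}
    (W : Submodule F (Fin n → F)) (hb : finrank F W + b = n) (h : W ⊓ Flag n b ≠ ⊥) :
    T ψ₀ Φ Ψ W = 0 := by
  classical
  obtain ⟨j, j', w, lam, hj, hw, hw1, hw2, hl1, hl2, hl3⟩ := exists_jump W hb h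
  obtain ⟨y, hy⟩ : ∃ y, ψ₀ y ≠ 1 := (AddChar.ne_one_iff).1 hψ
  have hc : w j * lam (cv j') ≠ 0 := mul_ne_zero hw2 hl3
  set t : F := y / (w j * lam (cv j')) with ht
  have htc : t * w j * lam (cv j') = y := by
    rw [mul_assoc, ht]
    field_simp
  let M : Matrix (Fin n) (Fin n) F := 1 + Matrix.of (fun i l => t * w i * lam (cv l))
  have hentry : ∀ i l, M i l = (1 : Matrix (Fin n) (Fin n) F) i l + t * w i * lam (cv l) := by
    intro i l
    rfl
  have hM : IsU M := by
    intro i l hl
    rw [hentry]
    have : t * w i * lam (cv l) = 0 := by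
      by_cases hij : j.val < i.val
      · rw [hw1 i hij]; simp
      · rw [hl2 l (by have : l.val ≤ i.val := hl; omega)]; simp
    rw [this, add_zero]
  let x : U (F := F) n := mkU M hM
  have hlamv : ∀ v : Fin n → F, lam v = ∑ l, lam (cv l) * v l := by
    intro v
    conv_lhs => rw [eq_sum_cv v]
    rw [map_sum]
    apply Finset.sum_congr rfl
    intro l _
    rw [map_smul, smul_eq_mul, mul_comm]
  have hact : ∀ v : Fin n → F, Matrix.toLin' (mat x) v = v + (t * lam v) • w := by
    intro v
    funext i
    have h0 : mat x = M := rfl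
    rw [h0, Matrix.toLin'_apply]
    simp only [Matrix.mulVec, dotProduct, Pi.add_apply, Pi.smul_apply, smul_eq_mul]
    simp_rw [hentry, add_mul]
    rw [Finset.sum_add_distrib]
    congr 1
    · simp [Matrix.one_apply]
    · rw [hlamv v, Finset.mul_sum, Finset.sum_mul]
      apply Finset.sum_congr rfl
      intro l _
      ring
  have hj'n : j.val + 1 < n := by
    have := j'.2
    omega
  have hpsi : psi ψ₀ (mat x) ≠ 1 := by
    have h0 : mat x = M := rfl
    rw [h0]
    unfold psi
    have hs : sup M = y := by
      unfold sup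
      rw [Finset.sum_eq_single j]
      · rw [dif_pos hj'n]
        have hjj : (⟨j.val + 1, hj'n⟩ : Fin n) = j' := Fin.ext hj.symm
        rw [hjj, hentry, Matrix.one_apply_ne, zero_add, htc]
        intro hh
        have := congrArg Fin.val hh
        omega
      · intro i _ hij
        split_ifs with hin
        · rw [hentry, Matrix.one_apply_ne]
          · rw [zero_add]
            rcases lt_or_gt_of_ne hij with hlt | hlt
            · rw [hl2 ⟨i.val + 1, hin⟩ (by have : i.val < j.val := hlt; simp; omega)]; simp
            · rw [hw1 i hlt]; simp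
          · intro hh
            have := congrArg Fin.val hh
            simp at this
        · rfl
      · simp
    rw [hs]
    exact hy
  refine T_eq_zero_of_trivial ψ₀ Φ Ψ W x ?_ ?_ hpsi
  · intro v hv
    rw [hact, hl1 v hv]
    simp
  · intro v
    rw [hact, add_sub_cancel_left]
    exact W.smul_mem _ hw

end Cfsg.Agent.Lib.GLH.RodierB
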