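import Cfsg.Agent.Lib.GLH.RodierB

/-!
# Rodier's computation, third part: complements of the flag form one orbit of `U`.
-/

set_option autoImplicit false
set_option linter.unusedSectionVars false
set_option linter.style.haveILetI false

namespace Cfsg.Agent.Lib.GLH.RodierC

open Matrix Module Cfsg.Agent.Lib.GLH.Defs Cfsg.Agent.Lib.GLH.Ev Cfsg.Agent.Lib.GLH.RodierA
  Cfsg.Agent.Lib.GLH.RodierB
open scoped ComplexConjugate

universe u

variable {F : Type u} [Field F] [Fintype F]

/-- The action of `U` on subspaces. -/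
noncomputable def act (n : ℕ) : MulAction (U (F := F) n) (Submodule F (Fin n → F)) where
  smul u W := W.map (Matrix.toLin' (mat u))
  one_smul W := by
    show W.map (Matrix.toLin' (mat (1 : U (F := F) n))) = W
    rw [mat_one, Matrix.toLin'_one, Submodule.map_id]
  mul_smul u v W := by
    show W.map (Matrix.toLin' (mat (u * v))) = (W.map (Matrix.toLin' (mat v))).map _
    rw [mat_mul, Matrix.toLin'_mul, Submodule.map_comp]

/-- The linear automorphism of an element of `U`. -/
noncomputable def eqv {n : ℕ} (g : U (F := F) n) : (Fin n → F) ≃ₗ[F] (Fin n → F) :=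
  Matrix.toLin'OfInv (mat_inv_mul g) (mat_mul_inv g)

lemma eqv_coe {n : ℕ} (g : U (F := F) n) :
    ((eqv g : (Fin n → F) ≃ₗ[F] (Fin n → F)) : (Fin n → F) →ₗ[F] (Fin n → F)) =
      Matrix.toLin' (mat g) :=
  LinearMap.ext fun _ => rfl

lemma finrank_map_mat {n : ℕ} (g : U (F := F) n) (W : Submodule F (Fin n → F)) :
    finrank F (W.map (Matrix.toLin' (mat g))) = finrank F W := by
  rw [← eqv_coe]
  exact LinearEquiv.finrank_map_eq (eqv g) W

lemma maps_flag {n k : ℕ} {M : Matrix (Fin n) (Fin n) F} (hM : IsU M) {v : Fin n → F}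
    (hv : v ∈ Flag (F := F) n k) : Matrix.toLin' M v ∈ Flag (F := F) n k := by
  classical
  intro i hi
  rw [Matrix.toLin'_apply]
  simp only [Matrix.mulVec, dotProduct]
  apply Finset.sum_eq_zero
  intro j _
  by_cases hji : j ≤ i
  · by_cases hij : i = j
    · subst hij
      rw [hv i hi, mul_zero]
    · rw [hM i j hji, Matrix.one_apply_ne hij, zero_mul]
  · have hk : k ≤ j.val := by
      have : i.val < j.val := not_le.1 hji
      omega
    rw [hv j hk, mul_zero]

lemma flag_inf_top {n b : ℕ} : Flag (F := F) n b ⊓ Top (F := F) n b = ⊥ := by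
  rw [eq_bot_iff]
  rintro v ⟨h1, h2⟩
  rw [Submodule.mem_bot]
  funext i
  by_cases hi : i.val < b
  · exact h2 i hi
  · exact h1 i (not_lt.1 hi)

theorem mem_orbit_iff {n a b : ℕ} (h : a + b = n) (W : Submodule F (Fin n → F)) :
    (∃ g : U (F := F) n, (Top (F := F) n b).map (Matrix.toLin' (mat g)) = W) ↔
      finrank F W = a ∧ W ⊓ Flag n b = ⊥ := by
  classical
  have hb : b ≤ n := by omega
  constructor
  · rintro ⟨g, rfl⟩
    refine ⟨?_, ?_⟩
    · rw [finrank_map_mat, finrank_Top hb]; omega
    · rw [eq_bot_iff]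
      rintro x ⟨⟨y, hy, rfl⟩, hx⟩
      have hy' : y ∈ Flag (F := F) n b := by
        have h1 := maps_flag (isU_mat g⁻¹) hx
        have h2 : Matrix.toLin' (mat g⁻¹) (Matrix.toLin' (mat g) y) = y := by
          rw [Matrix.toLin'_apply, Matrix.toLin'_apply, Matrix.mulVec_mulVec, mat_inv_mul,
            Matrix.one_mulVec]
        rwa [h2] at h1
      have : y ∈ Flag (F := F) n b ⊓ Top (F := F) n b := ⟨hy', hy⟩
      rw [flag_inf_top, Submodule.mem_bot] at this
      rw [Submodule.mem_bot]
      show Matrix.toLin' (mat g) y = 0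
      rw [this, map_zero]
  · rintro ⟨h1, h2⟩
    have hsup : W ⊔ Flag n b = ⊤ := by
      apply Submodule.eq_top_of_finrank_eq
      have := Submodule.finrank_sup_add_finrank_inf_eq W (Flag (F := F) n b)
      rw [h2, finrank_bot, finrank_flag hb, h1] at this
      rw [Module.finrank_fin_fun]
      omega
    have hdec : ∀ j : Fin n, ∃ w ∈ W, ∃ f ∈ Flag (F := F) n b, w + f = cv j := by
      intro j
      have : cv (F := F) j ∈ W ⊔ Flag n b := by rw [hsup]; trivial
      exact Submodule.mem_sup.1 this
    choose w hw f hf hwf using hdec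
    let M : Matrix (Fin n) (Fin n) F := Matrix.of fun i j =>
      if j.val < b then (1 : Matrix (Fin n) (Fin n) F) i j else w j i
    have hMU : IsU M := by
      intro i j hji
      show (if j.val < b then (1 : Matrix (Fin n) (Fin n) F) i j else w j i) = _
      split_ifs with hj
      · rfl
      · have hi : b ≤ i.val := by
          have : j.val ≤ i.val := hji
          omega
        have h3 : w j i + f j i = cv j i := by rw [← hwf]; rfl
        rw [hf j i hi, add_zero] at h3
        rw [h3]
        by_cases hij : i = j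
        · subst hij
          rw [cv_same, Matrix.one_apply_eq]
        · rw [cv_ne hij, Matrix.one_apply_ne hij]
    refine ⟨mkU M hMU, ?_⟩
    apply Submodule.eq_of_le_of_finrank_eq
    · rintro _ ⟨v, hv, rfl⟩
      show Matrix.toLin' M v ∈ W
      rw [Matrix.toLin'_apply, Matrix.mulVec_eq_sum]
      apply Submodule.sum_mem
      intro j _
      by_cases hj : j.val < b
      · rw [hv j hj]
        simp
      · have : (M.transpose j) = w j := by
          funext i
          show (if j.val < b then (1 : Matrix (Fin n) (Fin n) F) i j else w j i) = _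
          rw [if_neg hj]
        rw [this, op_smul_eq_smul]
        exact W.smul_mem _ (hw j)
    · rw [finrank_map_mat, finrank_Top hb, h1]
      omega

section orbit

/-- Orbit counting for `T`. -/
theorem sum_orbit {Φ Ψ : Fam F} (hΦ : IsCl Φ) (hΨ : IsCl Ψ) (ψ₀ : AddChar F ℂ) {n a b : ℕ}
    (h : a + b = n) :
    (∑ W : Submodule F (Fin n → F), if finrank F W = a ∧ W ⊓ Flag n b = ⊥ then T ψ₀ Φ Ψ W else 0) *
      (Nat.card {g : U (F := F) n // (Top (F := F) n b).map (Matrix.toLin' (mat g)) = Top n b} : ℂ) =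
      (Nat.card (U (F := F) n) : ℂ) * T ψ₀ Φ Ψ (Top (F := F) n b) := by
  classical
  letI := act (F := F) n
  have hsmul : ∀ (g : U (F := F) n) (W : Submodule F (Fin n → F)),
      g • W = W.map (Matrix.toLin' (mat g)) := fun _ _ => rfl
  have hiff : ∀ W : Submodule F (Fin n → F),
      (finrank F W = a ∧ W ⊓ Flag n b = ⊥) ↔ W ∈ MulAction.orbit (U (F := F) n) (Top (F := F) n b) := by
    intro W
    rw [← mem_orbit_iff h W]
    rfl
  have h1 : (∑ W : Submodule F (Fin n → F),
      if finrank F W = a ∧ W ⊓ Flag n b = ⊥ then T ψ₀ Φ Ψ W else 0) =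
      (Fintype.card (MulAction.orbit (U (F := F) n) (Top (F := F) n b)) : ℂ) *
        T ψ₀ Φ Ψ (Top (F := F) n b) := by
    rw [Fintype.card_subtype, ← Finset.sum_filter]
    rw [← nsmul_eq_mul]
    rw [← Finset.sum_const]
    have : (Finset.univ.filter fun W : Submodule F (Fin n → F) =>
        finrank F W = a ∧ W ⊓ Flag n b = ⊥) =
        Finset.univ.filter fun W => W ∈ MulAction.orbit (U (F := F) n) (Top (F := F) n b) := by
      ext W
      simp only [Finset.mem_filter, Finset.mem_univ, true_and]
      exact hiff W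
    rw [this]
    apply Finset.sum_congr rfl
    intro W hW
    obtain ⟨g, rfl⟩ := (Finset.mem_filter.1 hW).2
    exact T_map hΦ hΨ ψ₀ _ g
  rw [h1, mul_assoc, mul_comm (T ψ₀ Φ Ψ _), ← mul_assoc]
  congr 1
  have hcard := MulAction.card_orbit_mul_card_stabilizer_eq_card_group (U (F := F) n) (Top (F := F) n b)
  rw [← Nat.card_eq_fintype_card (α := U (F := F) n)] at hcard
  rw [← hcard, Nat.cast_mul]
  congr 2
  rw [Nat.card_eq_fintype_card]
  apply Fintype.card_congr
  exact Equiv.subtypeEquivRight (fun g => Iff.rfl)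

end orbit

end Cfsg.Agent.Lib.GLH.RodierC
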